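import Cfsg.Agent.Lib.AutPOm.MinusCoset

/-! Field automorphisms in even dimension: factorisation of the inner-diagonal group. -/

set_option autoImplicit false
set_option linter.unusedSimpArgs false
set_option linter.unusedVariables false
set_option linter.unusedSectionVars false

namespace Cfsg.Agent.Lib.AutPOm

open Matrix Module MulAction Cfsg.Agent.Lib.Classical
open Cfsg.Agent.Lib.AutPSL (sm sm_add sm_smul sm_symm_sm sm_sm_symm glMap glMap_coe semi_vec_ne_zero map_mulVec_sm nrm nrmF nrmF_succ nrm_succ' exists_gl_of_nrm_one exists_nrmF_eq exists_of_nrmF_one nrm_scalar_mul nrmF_inv nrmF_zero coe_scalar_mul slinear glMap_one orderOf_conj')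
open Cfsg.Agent.Lib.ClassMax.OmegaCore (IsMaxTS imgOf mem_imgOf finrank_imgOf imgOf_mul imgOf_one imgOf_inf par_triple mem_iso_iff)
open Cfsg.Agent.Lib.Spinor (rr rO lp nm invHom invHom_lp invL omega_eq_ker_invHom sgnF sgnF_of_sq sgnF_of_not_sq sgnF_eq_one_iff exists_lp lp_mat lp_cons lp_nil rO_mat matrix_ext det_list_prod sq_mul_of_not_sq OG.mat)
open Cfsg.Agent.Lib.Quad (NondegQ minusQF minusQF_apply)
open Cfsg.Agent.Lib.FieldAut (fixedField mem_fixedField)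
open scoped LinearAlgebra.Projectivization MatrixGroups

section groups

/-- Transport of centralisers. -/
theorem centTr {X Y : Type*} [Group X] [Group Y] (Φ : X ≃* Y) (G : Subgroup X) (G' : Subgroup Y) (hG : ∀ a, Φ a ∈ G' ↔ a ∈ G) (x : X) :
    Nonempty (↥(G ⊓ Subgroup.centralizer {x}) ≃* ↥(G' ⊓ Subgroup.centralizer {Φ x})) := by
  refine ⟨(Φ.subgroupMap (G ⊓ Subgroup.centralizer {x})).trans (MulEquiv.subgroupCongr ?_)⟩
  ext y
  constructor
  · rintro ⟨z, hz, rfl⟩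
    obtain ⟨h1, h2⟩ := Subgroup.mem_inf.1 hz
    have h2' := Subgroup.mem_centralizer_singleton_iff.1 h2
    refine Subgroup.mem_inf.2 ⟨(hG z).2 h1, Subgroup.mem_centralizer_singleton_iff.2 ?_⟩
    show Φ z * Φ x = Φ x * Φ z
    rw [← map_mul, ← map_mul, h2']
  · intro hy
    obtain ⟨h1, h2⟩ := Subgroup.mem_inf.1 hy
    have h2' := Subgroup.mem_centralizer_singleton_iff.1 h2
    refine ⟨Φ.symm y, Subgroup.mem_inf.2 ⟨(hG _).1 (by simpa using h1), Subgroup.mem_centralizer_singleton_iff.2 ?_⟩, by simp⟩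
    apply Φ.injective
    simp only [map_mul, MulEquiv.apply_symm_apply]
    exact h2'

/-- Every element factors through the smaller group and the centraliser. -/
def FactAt {X : Type*} [Group X] (H K : Subgroup X) (x : X) : Prop :=
  ∀ h ∈ H, ∃ k ∈ K, ∃ c, c ∈ Subgroup.centralizer {x} ∧ c ∈ H ∧ h = k * c

theorem split_one_of_fact {X : Type*} [Group X] {H K : Subgroup X} {x : X} (hf : FactAt H K x) : Cfsg.splitClassCount H K x = 1 := by
  unfold Cfsg.splitClassCount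
  rw [Nat.card_eq_one_iff_unique]
  let x₀ : {y : X // Cfsg.IsConjUnder H x y} := ⟨x, 1, H.one_mem, by simp⟩
  have key : ∀ y : {y : X // Cfsg.IsConjUnder H x y}, Quot.mk (fun y z : {y : X // Cfsg.IsConjUnder H x y} => Cfsg.IsConjUnder K y.1 z.1) y = Quot.mk _ x₀ := by
    rintro ⟨y, h, hh, rfl⟩
    obtain ⟨k, hk, c, hc, -, rfl⟩ := hf h hh
    have hc' := Subgroup.mem_centralizer_singleton_iff.1 hc
    apply Eq.symm
    apply Quot.sound
    refine ⟨k, hk, ?_⟩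
    show k * c * x * (k * c)⁻¹ = k * x * k⁻¹
    rw [mul_assoc k c x, hc', _root_.mul_inv_rev]
    group
  refine ⟨⟨fun a b => ?_⟩, ⟨Quot.mk _ x₀⟩⟩
  induction a using Quot.ind with
  | _ a =>
    induction b using Quot.ind with
    | _ b => rw [key a, key b]

theorem fact_tr {X Y : Type*} [Group X] [Group Y] (Φ : X ≃* Y) {H K : Subgroup X} {H' K' : Subgroup Y} (hH : ∀ a, Φ a ∈ H' ↔ a ∈ H) (hK : ∀ a, Φ a ∈ K' ↔ a ∈ K) {x : X}
    (hf : FactAt H' K' (Φ x)) : FactAt H K x := by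
  intro h hh
  obtain ⟨k, hk, c, hc, hcH, he⟩ := hf (Φ h) ((hH h).2 hh)
  have hc' := Subgroup.mem_centralizer_singleton_iff.1 hc
  refine ⟨Φ.symm k, (hK _).1 (by simpa using hk), Φ.symm c, Subgroup.mem_centralizer_singleton_iff.2 ?_, (hH _).1 (by simpa using hcH), ?_⟩
  · apply Φ.injective
    simp only [map_mul, MulEquiv.apply_symm_apply]
    exact hc'
  · apply Φ.injective
    simp only [map_mul, MulEquiv.apply_symm_apply]
    exact he

theorem inn_congr {A B : Type*} [Group A] [Group B] (T : A ≃* B) (a : MulAut A) :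
    MulAut.congr T a ∈ Cfsg.Inn B ↔ a ∈ Cfsg.Inn A := by
  constructor
  · rintro ⟨y, hy⟩
    refine ⟨T.symm y, ?_⟩
    have h1 : MulAut.conj y = MulAut.congr T a := hy
    ext z
    have h2 := congrArg (fun f : MulAut B => f (T z)) h1
    simp only [MulAut.conj_apply] at h2
    have h3 : MulAut.congr T a (T z) = T (a z) := by
      show T (a (T.symm (T z))) = _
      simp
    rw [h3] at h2
    show T.symm y * z * (T.symm y)⁻¹ = a z
    apply T.injective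
    rw [← h2]
    simp
  · rintro ⟨y, rfl⟩
    refine ⟨T y, ?_⟩
    show MulAut.conj (T y) = MulAut.congr T (MulAut.conj y)
    ext z
    show T y * z * (T y)⁻¹ = T (y * T.symm z * y⁻¹)
    simp

theorem inn_conj {A : Type*} [Group A] (α a : MulAut A) :
    MulAut.conj α a ∈ Cfsg.Inn A ↔ a ∈ Cfsg.Inn A := by
  have hN : (Cfsg.Inn A).Normal := Cfsg.innNormal A
  constructor
  · intro h
    have h1 := hN.conj_mem _ h α⁻¹
    have e : α⁻¹ * (MulAut.conj α a) * α⁻¹⁻¹ = a := by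
      rw [MulAut.conj_apply]
      group
    rwa [e] at h1
  · intro h
    exact hN.conj_mem _ h α

end groups

section factor

variable {F K : Type*} [Field F] [Field K] {ι : Type} [Fintype ι] [DecidableEq ι] {Q : QuadraticForm F (ι → F)} {Q₀ : QuadraticForm K (ι → K)}

local notation "VV" => (ι → F)
local notation "MM" => Matrix ι ι F
local notation "GG" => GL ι F

variable [Fintype F] [Fintype K] [h : Good Q] [h₀ : Good Q₀]

theorem exists_KP_mult (he : Even (Fintype.card ι)) (hsim₀ : ∀ c₀ : K, c₀ ≠ 0 → ∃ g₀ : GL ι K, ∀ v, Q₀ ((g₀ : Matrix ι ι K) *ᵥ v) = c₀ * Q₀ v)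
    (hne₀ : ∃ v, Q₀ v ≠ 0) {c₀ : K} (hc₀ : c₀ ≠ 0) :
    ∃ g₀ : GL ι K, KP Q₀ g₀ ∧ ∀ v, Q₀ ((g₀ : Matrix ι ι K) *ᵥ v) = c₀ * Q₀ v := by
  obtain ⟨g₀, hg₀⟩ := hsim₀ c₀ hc₀
  obtain ⟨v₀, hv₀⟩ := hne₀
  have hs : g₀ ∈ Sim Q₀ := ⟨Units.mk0 c₀ hc₀, hg₀⟩
  rcases KP_or he h₀.nd (hq_of_good Q₀) hs hv₀ with h1 | h1
  · exact ⟨g₀, h1, hg₀⟩
  · refine ⟨_, h1, fun v => ?_⟩
    rw [Units.val_mul, ← Matrix.mulVec_mulVec]
    have := oM_Q (rO Q₀ v₀) ((g₀ : Matrix ι ι K) *ᵥ v)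
    rw [hg₀] at this
    exact this

/-- Every similarity satisfying the condition is, up to a scalar, a product of an element of `Ω` and of an element over the subfield. -/
theorem factor_field (h2 : (2 : F) ≠ 0) (he : Even (Fintype.card ι)) (hne : ∃ v : VV, Q v ≠ 0) (hne₀ : ∃ v, Q₀ v ≠ 0)
    (hsim₀ : ∀ c₀ : K, c₀ ≠ 0 → ∃ g₀ : GL ι K, ∀ v, Q₀ ((g₀ : Matrix ι ι K) *ᵥ v) = c₀ * Q₀ v)
    (φ : K →+* F) (hQ₀ : ∀ v, φ (Q₀ v) = Q (bc φ v)) {ε₀ : K} (hε₀ : ¬ IsSquare (φ ε₀)) {g : GG} (hg : g ∈ Sim Q) (hK : KP Q g) :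
    ∃ (s : ↥(SOg Q)) (g₀ : GL ι K) (u : F), u ≠ 0 ∧ muO (hq_of_good Q) s = 1 ∧ g₀ ∈ Sim Q₀ ∧ KP Q₀ g₀ ∧
      (g : MM) = u • ((s.1.1 * Matrix.GeneralLinearGroup.map φ g₀ : GG) : MM) := by
  obtain ⟨c, hc⟩ := hg
  have hε0 : ε₀ ≠ 0 := by
    rintro rfl
    apply hε₀
    rw [map_zero]
    exact IsSquare.zero
  have hφε : φ ε₀ ≠ 0 := by simpa using hε0
  obtain ⟨c₀, hc₀, d, hd0, hd⟩ : ∃ c₀ : K, c₀ ≠ 0 ∧ ∃ d : F, d ≠ 0 ∧ (c : F) = d * d * φ c₀ := by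
    by_cases hsq : IsSquare (c : F)
    · obtain ⟨d, hd⟩ := hsq
      refine ⟨1, one_ne_zero, d, ?_, by rw [map_one, mul_one, hd]⟩
      rintro rfl
      rw [mul_zero] at hd
      exact c.ne_zero hd
    · obtain ⟨t, ht⟩ := sq_mul_of_not_sq hsq hε₀
      refine ⟨ε₀, hε0, t / φ ε₀, ?_, ?_⟩
      · rw [div_ne_zero_iff]
        refine ⟨?_, hφε⟩
        rintro rfl
        rw [mul_zero] at ht
        exact (mul_ne_zero c.ne_zero hφε) ht
      · field_simp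
        linear_combination ht
  obtain ⟨g₁, hg₁K, hg₁m⟩ := exists_KP_mult he hsim₀ hne₀ hc₀
  have hφc : φ c₀ ≠ 0 := by simpa using hc₀
  set G₁ : GG := Matrix.GeneralLinearGroup.map φ g₁ with hG₁
  have hG₁m : ∀ v : VV, Q ((G₁ : MM) *ᵥ v) = φ c₀ * Q v := sim_descent φ hQ₀ hQ₀ g₁ c₀ hg₁m
  have hG₁K : KP Q G₁ := KP_map φ hQ₀ hg₁K
  have hG₁inv : ∀ v : VV, Q (((G₁⁻¹ : GG) : MM) *ᵥ v) = (φ c₀)⁻¹ * Q v := by
    intro v
    have h1 := hG₁m (((G₁⁻¹ : GG) : MM) *ᵥ v)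
    rw [gl_mul_inv] at h1
    rw [h1]
    field_simp
  set u : Fˣ := (Units.mk0 d hd0)⁻¹ with hu
  have huv : (u : F) = d⁻¹ := rfl
  set A : GG := Matrix.GeneralLinearGroup.scalar ι u * (g * G₁⁻¹) with hA
  have hAc : (A : MM) = (u : F) • ((g * G₁⁻¹ : GG) : MM) := coe_scalar_mul u _
  have hAiso : ∀ w : VV, Q ((A : MM) *ᵥ w) = Q w := by
    intro w
    rw [hAc, Matrix.smul_mulVec, QuadraticMap.map_smul, Units.val_mul, ← Matrix.mulVec_mulVec, hc, hG₁inv, hd, huv, smul_eq_mul]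
    field_simp
  have hAKP : KP Q A := KP_mul (KP_scalar he u) (KP_mul hK (KP_inv hne hG₁K))
  have hAdet : (A : MM).det = 1 := by
    obtain ⟨c', hc', hdet⟩ := KP_odd h2 hAKP
    obtain ⟨v₀, hv₀⟩ := hne
    have h1 : c' = 1 := by
      have h3 := hc' v₀
      rw [hAiso] at h3
      exact (mul_right_cancel₀ hv₀ (by rw [one_mul]; exact h3)).symm
    rw [hdet, h1, one_pow]
  have hAmem : A ∈ Cfsg.isometryGroup F (⇑Q) := (mem_iso_iff _).2 hAiso
  let s₀ : ↥(SOg Q) := ⟨⟨A, hAmem⟩, (mem_SOg_iff _).2 hAdet⟩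
  have hq := hq_of_good Q
  have hbase : (g : MM) = d • ((A * G₁ : GG) : MM) := by
    have e1 : A * G₁ = Matrix.GeneralLinearGroup.scalar ι u * g := by
      rw [hA]
      group
    rw [e1, coe_scalar_mul, huv, smul_smul, mul_inv_cancel₀ hd0, one_smul]
  rcases Int.units_eq_one_or (muO hq s₀) with hμ | hμ
  · exact ⟨s₀, g₁, d, hd0, hμ, ⟨Units.mk0 c₀ hc₀, hg₁m⟩, hg₁K, hbase⟩
  · obtain ⟨v', w', hv', hw', hvw'⟩ := exists_perp_values (Q := Q₀) 1 ε₀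
    have hl₀ : ∀ z ∈ [v', w'], Q₀ z ≠ 0 := by
      intro z hz
      simp only [List.mem_cons, List.not_mem_nil, or_false] at hz
      rcases hz with rfl | rfl
      · rw [hv']
        exact one_ne_zero
      · rwa [hw']
    have hl : ∀ z ∈ [v', w'].map (bc φ), Q z ≠ 0 := bc_list_ne φ hQ₀ hl₀
    have hnm : nm Q ([v', w'].map (bc φ)) = φ ε₀ := by
      rw [nm_bc φ hQ₀]
      simp [nm, hv', hw']
    have hinv : invHom h.nd hq (lp Q ([v', w'].map (bc φ))) = (1, -1) := by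
      rw [invHom_lp h.nd hq hl, invL, hnm, sgnF_of_not_sq hε₀]
      simp
    have hLmem : lp Q ([v', w'].map (bc φ)) ∈ SOg Q := by
      rw [mem_SOg_iff_fst h2 hq, hinv]
    let sL : ↥(SOg Q) := ⟨_, hLmem⟩
    have hμL : muO hq sL = -1 := by
      rw [muO_apply]
      show (invHom h.nd hq (lp Q ([v', w'].map (bc φ)))).2 = -1
      rw [hinv]
    have htK : KP Q₀ (lp Q₀ [v', w']).1 := KP_of_lp he (d := 1) one_ne_zero hl₀ (by simp) (by rw [one_smul])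
    have hmapL : Matrix.GeneralLinearGroup.map φ (lp Q₀ [v', w']).1 = (lp Q ([v', w'].map (bc φ))).1 := by
      apply Units.ext
      show (OG.mat (lp Q₀ [v', w'])).map φ = OG.mat (lp Q ([v', w'].map (bc φ)))
      rw [lp_bc_mat φ hQ₀ hl₀]
    refine ⟨s₀ * sL, (lp Q₀ [v', w']).1⁻¹ * g₁, d, hd0, ?_, ?_, ?_, ?_⟩
    · rw [map_mul, hμ, hμL]
      rfl
    · exact Subgroup.mul_mem _ (Subgroup.inv_mem _ (og_le_sim (lp Q₀ [v', w']).2)) ⟨Units.mk0 c₀ hc₀, hg₁m⟩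
    · exact KP_mul (KP_inv hne₀ htK) hg₁K
    · rw [hbase, map_mul, map_inv, hmapL]
      congr 2
      show A * G₁ = (A * (lp Q ([v', w'].map (bc φ))).1) * ((lp Q ([v', w'].map (bc φ))).1⁻¹ * G₁)
      group

/-- The factorisation of the inner-diagonal group along a field automorphism. -/
theorem fact_field (he : Even (Fintype.card ι)) (hne : ∃ v : VV, Q v ≠ 0) (hne₀ : ∃ v, Q₀ v ≠ 0)
    (hsim₀ : ∀ c₀ : K, c₀ ≠ 0 → ∃ g₀ : GL ι K, ∀ v, Q₀ ((g₀ : Matrix ι ι K) *ᵥ v) = c₀ * Q₀ v)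
    {σ : F ≃+* F} (hσ : ∀ v : VV, Q (sm σ v) = σ (Q v)) (φ : K →+* F) (hφ' : ∀ b, σ (φ b) = φ b) (hQ₀ : ∀ v, φ (Q₀ v) = Q (bc φ v))
    (hε₀ : (2 : F) ≠ 0 → ∃ ε₀ : K, ¬ IsSquare (φ ε₀)) :
    FactAt (GD he hne) (Cfsg.Inn (PO Q)) (psemiO 1 σ (semi_std hσ)) := by
  intro δ hδ
  obtain ⟨g, hg, hK, rfl⟩ := mem_GD.1 hδ
  by_cases h2 : (2 : F) = 0
  · exact ⟨_, (KP_iff_inn h2 hg).2 hK, 1, Subgroup.one_mem _, Subgroup.one_mem _, (mul_one _).symm⟩
  · obtain ⟨ε₀, hε⟩ := hε₀ h2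
    obtain ⟨s, g₀, u, hu, hμ, hg₀, hK₀, hes⟩ := factor_field h2 he hne hne₀ hsim₀ φ hQ₀ hε hg hK
    have hG : Matrix.GeneralLinearGroup.map φ g₀ ∈ Sim Q := map_mem_sim φ hQ₀ hg₀
    refine ⟨soAut s, mem_inn_of_mu h2 (hq_of_good Q) s hμ, psemiO (Matrix.GeneralLinearGroup.map φ g₀) (RingEquiv.refl F) (semi_of_sim hG), ?_, ?_, ?_⟩
    · rw [comm_field_iff hσ]
      refine ⟨1, one_ne_zero, ?_⟩
      rw [one_smul]
      ext i j
      exact (hφ' _).symm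
    · exact mem_GD.2 ⟨_, hG, KP_map φ hQ₀ hK₀, rfl⟩
    · have hm : s.1.1 * Matrix.GeneralLinearGroup.map φ g₀ ∈ Sim Q := Subgroup.mul_mem _ (og_le_sim s.1.2) hG
      rw [soAut_apply, psemiO_refl_mul (semi_of_og s.1) (semi_of_sim hG) (semi_of_sim hm)]
      exact psemiO_smul_eq _ _ _ hes hu

end factor

end Cfsg.Agent.Lib.AutPOm
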