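import Cfsg.Agent.Lib.AutPOm.SmallQuot
import Cfsg.Agent.Lib.AutPOm.EvenField
import Cfsg.Agent.Lib.AutPOm.OddOut
import Cfsg.Agent.Lib.Spinor.Pair

/-! The invariants of similarities in even dimension and odd characteristic. -/

set_option autoImplicit false
set_option linter.unusedSimpArgs false
set_option linter.unusedVariables false
set_option linter.unusedSectionVars false

namespace Cfsg.Agent.Lib.AutPOm

open Matrix Module MulAction Cfsg.Agent.Lib.Classical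
open Cfsg.Agent.Lib.AutPSL (sm sm_add sm_smul sm_symm_sm sm_sm_symm glMap glMap_coe semi_vec_ne_zero map_mulVec_sm coe_scalar_mul glMap_one)
open Cfsg.Agent.Lib.ClassMax.OmegaCore (IsMaxTS imgOf mem_imgOf finrank_imgOf imgOf_mul imgOf_one imgOf_inf par_triple mem_iso_iff)
open Cfsg.Agent.Lib.Spinor (ndf rr rO lp nm invHom invHom_lp invL omega_eq_ker_invHom sgnF sgnF_of_sq sgnF_of_not_sq sgnF_eq_one_iff sgnF_mul exists_lp lp_mat lp_cons lp_nil rO_mat matrix_ext det_list_prod sq_mul_of_not_sq OG.mat lp_mem_omega_iff)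
open Cfsg.Agent.Lib.Quad (NondegQ)
open scoped LinearAlgebra.Projectivization MatrixGroups

variable {F : Type*} [Field F] {ι : Type} [Fintype ι] [DecidableEq ι] {Q : QuadraticForm F (ι → F)}

local notation "bb" => QuadraticMap.polar (DFunLike.coe Q)
local notation "VV" => (ι → F)
local notation "MM" => Matrix ι ι F
local notation "GG" => GL ι F

section sign

variable [Fintype F]

/-- The quadratic character with values in the units of the integers. -/
noncomputable def sgnU : Fˣ →* ℤˣ where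
  toFun a := sgnF (a : F)
  map_one' := by
    rw [Units.val_one]
    exact sgnF_of_sq IsSquare.one
  map_mul' a b := by
    rw [Units.val_mul, sgnF_mul a.ne_zero b.ne_zero]

theorem sgnU_apply (a : Fˣ) : sgnU a = sgnF (a : F) := rfl

theorem exists_nonsq (h2 : (2 : F) ≠ 0) : ∃ ε : F, ¬ IsSquare ε := by
  have hc : ringChar F ≠ 2 := fun hc => h2 (by
    have := CharP.cast_eq_zero F (ringChar F)
    rw [hc] at this
    exact_mod_cast this)
  exact FiniteField.exists_nonsquare hc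

end sign

theorem mult_unique (hne : ∃ v : VV, Q v ≠ 0) {g : MM} {c d : F} (hc : ∀ v, Q (g *ᵥ v) = c * Q v) (hd : ∀ v, Q (g *ᵥ v) = d * Q v) : c = d := by
  obtain ⟨v, hv⟩ := hne
  have := (hc v).symm.trans (hd v)
  exact mul_right_cancel₀ hv this

/-- The multiplier of a similarity. -/
noncomputable def simMu (hne : ∃ v : VV, Q v ≠ 0) : ↥(Sim Q) →* Fˣ where
  toFun g := g.2.choose
  map_one' := by
    apply Units.ext
    have h1 := (Subtype.property (1 : ↥(Sim Q))).choose_spec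
    refine mult_unique (g := (((1 : ↥(Sim Q)) : GG) : MM)) hne h1 (fun v => ?_)
    simp
  map_mul' g g' := by
    apply Units.ext
    have h1 := (Subtype.property (g * g')).choose_spec
    refine mult_unique (g := (((g * g' : ↥(Sim Q)) : GG) : MM)) hne h1 (fun v => ?_)
    have h2 := g.2.choose_spec
    have h3 := g'.2.choose_spec
    show Q (((g.1 * g'.1 : GG) : MM) *ᵥ v) = _
    rw [Units.val_mul, ← Matrix.mulVec_mulVec, h2, h3, Units.val_mul, mul_assoc]

theorem simMu_spec (hne : ∃ v : VV, Q v ≠ 0) (g : ↥(Sim Q)) (v : VV) : Q ((g.1 : MM) *ᵥ v) = (simMu hne g : F) * Q v := g.2.choose_spec v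

theorem simMu_eq (hne : ∃ v : VV, Q v ≠ 0) (g : ↥(Sim Q)) {c : F} (hc : ∀ v : VV, Q ((g.1 : MM) *ᵥ v) = c * Q v) : (simMu hne g : F) = c :=
  mult_unique hne (simMu_spec hne g) hc

section generic

variable [Fintype F] [h : Good Q]

include h in
theorem ne_of_good : ∃ v : VV, Q v ≠ 0 := by
  by_contra hcon
  push Not at hcon
  have h1 : ∀ x y : VV, bb x y = 0 := by
    intro x y
    simp [QuadraticMap.polar, hcon]
  have hne : Nonempty ι := by
    have := h.big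
    exact Fintype.card_pos_iff.1 (by omega)
  obtain ⟨i⟩ := hne
  have h3 : (Pi.single i 1 : VV) = 0 := h.nd.1 _ (fun y => h1 _ y)
  have := congrFun h3 i
  simp at this

/-- The sign of the action on the classes. -/
theorem KP_mul_of_not (he : Even (Fintype.card ι)) (hne : ∃ v : VV, Q v ≠ 0) {g g' : GG} (hg : g ∈ Sim Q) (hg' : g' ∈ Sim Q) (h1 : ¬ KP Q g) (h3 : ¬ KP Q g') :
    KP Q (g * g') := by
  obtain ⟨v, hv⟩ := hne
  have hne : ∃ v : VV, Q v ≠ 0 := ⟨v, hv⟩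
  have h4 : KP Q ((rO Q v).1 * g⁻¹) := by
    rcases KP_or he h.nd (hq_of_good Q) (Subgroup.inv_mem _ hg) hv with h5 | h5
    · exact absurd (by simpa using KP_inv hne h5) h1
    · exact h5
  have h5 : KP Q ((rO Q v).1 * g') := by
    rcases KP_or he h.nd (hq_of_good Q) hg' hv with h5 | h5
    · exact absurd h5 h3
    · exact h5
  have h6 := KP_mul (KP_inv hne h4) h5
  have e : ((rO Q v).1 * g⁻¹)⁻¹ * ((rO Q v).1 * g') = g * g' := by group
  rwa [e] at h6

theorem KP_of_mul_left (he : Even (Fintype.card ι)) (hne : ∃ v : VV, Q v ≠ 0) {g g' : GG} (h1 : KP Q g) (h3 : KP Q (g * g')) : KP Q g' := by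
  have := KP_mul (KP_inv hne h1) h3
  simpa using this

theorem KP_of_mul_right (he : Even (Fintype.card ι)) (hne : ∃ v : VV, Q v ≠ 0) {g g' : GG} (h1 : KP Q g') (h3 : KP Q (g * g')) : KP Q g := by
  have := KP_mul h3 (KP_inv hne h1)
  simpa using this

open _root_.Classical in
/-- The sign of the action on the classes. -/
noncomputable def kapS (he : Even (Fintype.card ι)) (hne : ∃ v : VV, Q v ≠ 0) : ↥(Sim Q) →* ℤˣ where
  toFun g := if KP Q g.1 then 1 else -1
  map_one' := by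
    have : KP Q (1 : GG) := KP_one he
    show (if KP Q (1 : GG) then (1 : ℤˣ) else -1) = 1
    rw [if_pos this]
  map_mul' g g' := by
    show (if KP Q (g.1 * g'.1) then (1 : ℤˣ) else -1) = _
    by_cases h1 : KP Q g.1 <;> by_cases h3 : KP Q g'.1
    · rw [if_pos (KP_mul h1 h3), if_pos h1, if_pos h3, one_mul]
    · rw [if_neg (fun h5 => h3 (KP_of_mul_left he hne h1 h5)), if_pos h1, if_neg h3, one_mul]
    · rw [if_neg (fun h5 => h1 (KP_of_mul_right he hne h3 h5)), if_neg h1, if_pos h3, mul_one]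
    · rw [if_pos (KP_mul_of_not he hne g.2 g'.2 h1 h3), if_neg h1, if_neg h3]
      rfl

theorem kapS_eq_one_iff (he : Even (Fintype.card ι)) (hne : ∃ v : VV, Q v ≠ 0) (g : ↥(Sim Q)) : kapS he hne g = 1 ↔ KP Q g.1 := by
  classical
  show (if KP Q g.1 then (1 : ℤˣ) else -1) = 1 ↔ _
  by_cases h1 : KP Q g.1
  · simp [h1]
  · simp [h1]

/-- The two invariants of a similarity. -/
noncomputable def Lam (he : Even (Fintype.card ι)) (hne : ∃ v : VV, Q v ≠ 0) : ↥(Sim Q) →* ℤˣ × ℤˣ :=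
  ((sgnU (F := F)).comp (simMu hne)).prod (kapS he hne)

theorem Lam_fst (he : Even (Fintype.card ι)) (hne : ∃ v : VV, Q v ≠ 0) (g : ↥(Sim Q)) : (Lam he hne g).1 = sgnF (simMu hne g : F) := rfl

theorem Lam_snd (he : Even (Fintype.card ι)) (hne : ∃ v : VV, Q v ≠ 0) (g : ↥(Sim Q)) : (Lam he hne g).2 = kapS he hne g := rfl

/-- Similarities as automorphisms in the image of the conformal orthogonal group. -/
noncomputable def simPgo : ↥(Sim Q) →* ↥(Cfsg.pgoAut F (⇑Q)) :=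
  (simAut (Q := Q)).codRestrict _ (fun g => by
    rw [pgoAut_eq_range]
    exact ⟨g, rfl⟩)

omit [Fintype F] h in
theorem simPgo_coe (g : ↥(Sim Q)) : (simPgo g : MulAut (PO Q)) = simAut g := rfl

omit [Fintype F] h in
theorem simPgo_surj : Function.Surjective (simPgo (Q := Q)) := by
  rintro ⟨x, hx⟩
  rw [pgoAut_eq_range] at hx
  obtain ⟨g, rfl⟩ := hx
  exact ⟨g, rfl⟩

theorem simAut_eq_one {g : ↥(Sim Q)} (hg : simAut g = 1) : ∃ t : Fˣ, g.1 = Matrix.GeneralLinearGroup.scalar ι t := by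
  rw [simAut_apply] at hg
  obtain ⟨-, c, hc0, hc⟩ := psemiO_eq_one hg
  refine ⟨Units.mk0 c hc0, ?_⟩
  apply Units.ext
  rw [hc, Matrix.GeneralLinearGroup.coe_scalar, Matrix.scalar_apply, ← Matrix.smul_one_eq_diagonal]
  rfl

theorem Lam_scalar (he : Even (Fintype.card ι)) (hne : ∃ v : VV, Q v ≠ 0) (t : Fˣ) :
    Lam he hne ⟨Matrix.GeneralLinearGroup.scalar ι t, sim_scalar t⟩ = 1 := by
  apply Prod.ext
  · rw [Lam_fst]
    have h1 := simMu_eq hne ⟨Matrix.GeneralLinearGroup.scalar ι t, sim_scalar t⟩ (c := (t : F) * t) (fun v => by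
      rw [Matrix.GeneralLinearGroup.coe_scalar, Matrix.scalar_apply, ← Matrix.smul_one_eq_diagonal, Matrix.smul_mulVec, Matrix.one_mulVec, QuadraticMap.map_smul, smul_eq_mul])
    rw [h1]
    exact sgnF_of_sq ⟨_, rfl⟩
  · rw [Lam_snd]
    exact (kapS_eq_one_iff he hne _).2 (KP_scalar he t)

theorem ker_simPgo_le (he : Even (Fintype.card ι)) (hne : ∃ v : VV, Q v ≠ 0) : (simPgo (Q := Q)).ker ≤ (Lam he hne).ker := by
  intro g hg
  have h1 : simAut g = 1 := congrArg Subtype.val (MonoidHom.mem_ker.1 hg)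
  obtain ⟨t, ht⟩ := simAut_eq_one h1
  have h3 : g = ⟨Matrix.GeneralLinearGroup.scalar ι t, sim_scalar t⟩ := Subtype.ext ht
  rw [MonoidHom.mem_ker, h3, Lam_scalar]

/-- The invariants on the image of the conformal orthogonal group. -/
noncomputable def LamP (he : Even (Fintype.card ι)) (hne : ∃ v : VV, Q v ≠ 0) : ↥(Cfsg.pgoAut F (⇑Q)) →* ℤˣ × ℤˣ :=
  (MonoidHom.liftOfSurjective (simPgo (Q := Q)) simPgo_surj) ⟨Lam he hne, ker_simPgo_le he hne⟩

theorem LamP_simPgo (he : Even (Fintype.card ι)) (hne : ∃ v : VV, Q v ≠ 0) (g : ↥(Sim Q)) : LamP he hne (simPgo g) = Lam he hne g :=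
  MonoidHom.liftOfRightInverse_comp_apply _ _ _ _ _

omit [Fintype F] h in
/-- The image of the special orthogonal group. -/
theorem psoAut_eq_range : Cfsg.psoAut F (⇑Q) = (soAut (Q := Q)).range := by
  apply le_antisymm
  · rw [Cfsg.psoAut, Cfsg.autSubgroupOf, Subgroup.closure_le]
    rintro β ⟨g, hg, hβ⟩
    have hdet : (g : MM).det = 1 := by
      have h1 : Matrix.GeneralLinearGroup.det g = 1 := hg.2
      exact congrArg Units.val h1
    refine ⟨⟨⟨g, hg.1⟩, (mem_SOg_iff _).2 hdet⟩, ?_⟩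
    exact (induced_eq (hs := semi_of_og ⟨g, hg.1⟩) hβ).symm
  · rintro _ ⟨s, rfl⟩
    apply Subgroup.subset_closure
    refine ⟨s.1.1, ⟨s.1.2, ?_⟩, psemiO_induced _ _ _⟩
    have h1 : (oM s.1).det = 1 := (mem_SOg_iff _).1 s.2
    show Matrix.GeneralLinearGroup.det s.1.1 = 1
    exact Units.ext h1

omit [Fintype F] h in
theorem pso_le_pgo : Cfsg.psoAut F (⇑Q) ≤ Cfsg.pgoAut F (⇑Q) := by
  rw [psoAut_eq_range, pgoAut_eq_range]
  rintro _ ⟨s, rfl⟩
  exact ⟨⟨s.1.1, og_le_sim s.1.2⟩, rfl⟩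

/-- A special isometry as a similarity. -/
noncomputable def soSim (s : ↥(SOg Q)) : ↥(Sim Q) := ⟨s.1.1, og_le_sim s.1.2⟩

omit [Fintype F] h in
theorem simAut_soSim (s : ↥(SOg Q)) : simAut (soSim s) = soAut s := rfl

theorem Lam_soSim (h2 : (2 : F) ≠ 0) (he : Even (Fintype.card ι)) (hne : ∃ v : VV, Q v ≠ 0) (s : ↥(SOg Q)) : Lam he hne (soSim s) = 1 := by
  have h1 : ∀ v : VV, Q (((soSim s).1 : MM) *ᵥ v) = 1 * Q v := fun v => by
    rw [one_mul]
    exact oM_Q s.1 v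
  apply Prod.ext
  · rw [Lam_fst, simMu_eq hne _ h1]
    exact sgnF_of_sq IsSquare.one
  · rw [Lam_snd]
    refine (kapS_eq_one_iff he hne _).2 (Or.inl ⟨h2, 1, h1, ?_⟩)
    rw [one_pow]
    exact (mem_SOg_iff _).1 s.2

theorem Lam_eq_of_simAut_eq (he : Even (Fintype.card ι)) (hne : ∃ v : VV, Q v ≠ 0) {g g' : ↥(Sim Q)} (hg : simAut g = simAut g') : Lam he hne g = Lam he hne g' := by
  have h1 : simPgo g = simPgo g' := Subtype.ext hg
  rw [← LamP_simPgo, ← LamP_simPgo, h1]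

/-- A similarity with square multiplier is an isometry up to a scalar. -/
theorem exists_og_of_square (hne : ∃ v : VV, Q v ≠ 0) (g : ↥(Sim Q)) (hs : IsSquare (simMu hne g : F)) :
    ∃ (A : OG Q) (t : Fˣ), (A.1 : MM) = (t : F) • (g.1 : MM) ∧ simAut g = ogAut A := by
  obtain ⟨d, hd⟩ := hs
  have hd0 : d ≠ 0 := by
    rintro rfl
    rw [mul_zero] at hd
    exact (simMu hne g).ne_zero hd
  set u : Fˣ := (Units.mk0 d hd0)⁻¹ with hu
  have huv : (u : F) = d⁻¹ := rfl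
  set A : GG := Matrix.GeneralLinearGroup.scalar ι u * g.1 with hA
  have hAc : (A : MM) = (u : F) • (g.1 : MM) := coe_scalar_mul u g.1
  have hAiso : ∀ v : VV, Q ((A : MM) *ᵥ v) = Q v := by
    intro v
    rw [hAc, Matrix.smul_mulVec, QuadraticMap.map_smul, simMu_spec hne, hd, huv, smul_eq_mul]
    field_simp
  have hAmem : A ∈ Cfsg.isometryGroup F (⇑Q) := (mem_iso_iff _).2 hAiso
  refine ⟨⟨A, hAmem⟩, u, hAc, ?_⟩
  exact (psemiO_smul_eq _ _ _ hAc u.ne_zero).symm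

theorem simAut_mem_pso_iff (h2 : (2 : F) ≠ 0) (he : Even (Fintype.card ι)) (hne : ∃ v : VV, Q v ≠ 0) (g : ↥(Sim Q)) :
    simAut g ∈ Cfsg.psoAut F (⇑Q) ↔ Lam he hne g = 1 := by
  rw [psoAut_eq_range]
  constructor
  · rintro ⟨s, hs⟩
    rw [← Lam_soSim h2 he hne s]
    exact (Lam_eq_of_simAut_eq he hne hs.symm)
  · intro hL
    have h1 : sgnF (simMu hne g : F) = 1 := by
      have := congrArg Prod.fst hL
      exact this
    have hK : KP Q g.1 := by
      have := congrArg Prod.snd hL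
      exact (kapS_eq_one_iff he hne g).1 this
    obtain ⟨d, hd⟩ := sgnF_eq_one_iff.1 h1
    obtain ⟨A, t, hA, hAe⟩ := exists_og_of_square hne g ⟨d, hd⟩
    obtain ⟨c, hc, hdet⟩ := KP_odd h2 hK
    have hcc : c = simMu hne g := (simMu_eq hne g hc).symm
    have htd : ((t : F) * d) ^ 2 = 1 := by
      obtain ⟨v₀, hv₀⟩ := ne_of_good (Q := Q)
      have e1 : Q ((A.1 : MM) *ᵥ v₀) = Q v₀ := oM_Q A v₀
      rw [hA, Matrix.smul_mulVec, QuadraticMap.map_smul, simMu_spec hne, hd, smul_eq_mul] at e1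
      apply mul_right_cancel₀ hv₀
      rw [one_mul]
      linear_combination e1
    have hdetA : (oM A).det = 1 := by
      show (A.1 : MM).det = 1
      obtain ⟨k, hk⟩ := he
      have hk2 : Fintype.card ι / 2 = k := by omega
      rw [hk2, hcc, hd] at hdet
      rw [hA, Matrix.det_smul, hdet, hk, pow_add]
      calc (t : F) ^ k * (t : F) ^ k * (d * d) ^ k = ((t : F) * d) ^ (2 * k) := by ring
        _ = 1 := by rw [pow_mul, htd, one_pow]
    exact ⟨⟨A, (mem_SOg_iff _).2 hdetA⟩, hAe.symm⟩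

/-- The kernel of the invariants. -/
theorem ker_LamP (h2 : (2 : F) ≠ 0) (he : Even (Fintype.card ι)) (hne : ∃ v : VV, Q v ≠ 0) :
    (LamP he hne).ker = (Cfsg.psoAut F (⇑Q)).subgroupOf (Cfsg.pgoAut F (⇑Q)) := by
  ext x
  obtain ⟨g, rfl⟩ := simPgo_surj x
  rw [MonoidHom.mem_ker, LamP_simPgo, Subgroup.mem_subgroupOf, simPgo_coe, simAut_mem_pso_iff h2 he hne]

/-- Similarities with all multipliers. -/
theorem exists_sim_good (he : Even (Fintype.card ι)) {c : F} (hc : c ≠ 0) : ∃ g : GG, ∀ v : VV, Q ((g : MM) *ᵥ v) = c * Q v := by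
  obtain ⟨k, hk⟩ := he
  have hfr : finrank F VV = 2 * k := by
    rw [Module.finrank_fintype_fun_eq_card, hk]
    ring
  have hk1 : 1 ≤ k := by
    have := h.big
    omega
  obtain ⟨e, he⟩ := Cfsg.Agent.Lib.Quad.exists_similarity hk1 hfr Q (NondegQ.of_polarBilin h.nd) hc
  exact ⟨glOfEquiv e, fun v => by rw [glOfEquiv_mulVec, he]⟩

/-- A similarity preserving the classes with non-square multiplier. -/
theorem exists_delta (h2 : (2 : F) ≠ 0) (he : Even (Fintype.card ι)) (hne : ∃ v : VV, Q v ≠ 0) :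
    ∃ (g : ↥(Sim Q)) (ε : F), ¬ IsSquare ε ∧ (∀ v : VV, Q ((g.1 : MM) *ᵥ v) = ε * Q v) ∧ Lam he hne g = (-1, 1) := by
  obtain ⟨ε, hε⟩ := exists_nonsq h2
  have hε0 : ε ≠ 0 := by
    rintro rfl
    exact hε IsSquare.zero
  obtain ⟨g₀, hK, hg₀⟩ := exists_KP_mult he (fun c₀ hc₀ => exists_sim_good he hc₀) hne hε0
  have hs : g₀ ∈ Sim Q := ⟨Units.mk0 ε hε0, hg₀⟩
  refine ⟨⟨g₀, hs⟩, ε, hε, hg₀, ?_⟩
  apply Prod.ext
  · rw [Lam_fst, simMu_eq hne _ hg₀]
    exact sgnF_of_not_sq hε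
  · exact (kapS_eq_one_iff he hne _).2 hK

/-- Reflections. -/
theorem exists_refl (h2 : (2 : F) ≠ 0) (he : Even (Fintype.card ι)) (hne : ∃ v : VV, Q v ≠ 0) {v : VV} (hv : Q v ≠ 0) :
    Lam he hne ⟨(rO Q v).1, og_le_sim (rO Q v).2⟩ = (1, -1) := by
  have h1 : ∀ x : VV, Q ((((rO Q v).1 : GG) : MM) *ᵥ x) = 1 * Q x := fun x => by
    rw [one_mul]
    exact oM_Q (rO Q v) x
  apply Prod.ext
  · rw [Lam_fst, simMu_eq hne _ h1]
    exact sgnF_of_sq IsSquare.one
  · rw [Lam_snd]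
    show kapS he hne _ = -1
    have h3 : ¬ KP Q (rO Q v).1 := not_KP_rO h.nd (hq_of_good Q) hv
    classical
    show (if KP Q (rO Q v).1 then (1 : ℤˣ) else -1) = -1
    rw [if_neg h3]

theorem LamP_surj (h2 : (2 : F) ≠ 0) (he : Even (Fintype.card ι)) (hne : ∃ v : VV, Q v ≠ 0) : Function.Surjective (LamP he hne) := by
  obtain ⟨g, ε, hε, hg, hL⟩ := exists_delta h2 he hne
  obtain ⟨v, hv⟩ := hne
  have hne : ∃ v : VV, Q v ≠ 0 := ⟨v, hv⟩
  have hR := exists_refl h2 he hne hv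
  rintro ⟨a, b⟩
  rcases Int.units_eq_one_or a with rfl | rfl <;> rcases Int.units_eq_one_or b with rfl | rfl
  · exact ⟨1, map_one _⟩
  · exact ⟨simPgo _, by rw [LamP_simPgo, hR]⟩
  · exact ⟨simPgo g, by rw [LamP_simPgo, hL]⟩
  · refine ⟨simPgo (g * ⟨(rO Q v).1, og_le_sim (rO Q v).2⟩), ?_⟩
    rw [LamP_simPgo, map_mul, hL, hR]
    rfl

end generic

theorem index_ker_surj {G T : Type*} [Group G] [Group T] (f : G →* T) (hf : Function.Surjective f) : f.ker.index = Nat.card T := by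
  rw [Subgroup.index_ker, MonoidHom.range_eq_top.2 hf]
  exact Nat.card_congr Subgroup.topEquiv.toEquiv

theorem card_units_int : Nat.card ℤˣ = 2 := by
  rw [Nat.card_eq_fintype_card, Fintype.card_units_int]

theorem card_units_int2 : Nat.card (ℤˣ × ℤˣ) = 4 := by
  rw [Nat.card_prod, card_units_int]

section neg

variable [Fintype F] [h : Good Q]

/-- The scalar minus one. -/
noncomputable def negS (he : Even (Fintype.card ι)) : ↥(SOg Q) :=
  ⟨⟨Matrix.GeneralLinearGroup.scalar ι (-1), (mem_iso_iff _).2 fun v => by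
      rw [Matrix.GeneralLinearGroup.coe_scalar, Matrix.scalar_apply, ← Matrix.smul_one_eq_diagonal, Matrix.smul_mulVec, Matrix.one_mulVec, QuadraticMap.map_smul]
      simp⟩, (mem_SOg_iff _).2 (by
      show ((Matrix.GeneralLinearGroup.scalar ι (-1 : Fˣ) : GG) : MM).det = 1
      rw [Matrix.GeneralLinearGroup.coe_scalar, Matrix.scalar_apply, Matrix.det_diagonal]
      simp [he.neg_one_pow])⟩

theorem oM_negS (he : Even (Fintype.card ι)) : oM (negS (Q := Q) he).1 = -1 := by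
  show ((Matrix.GeneralLinearGroup.scalar ι (-1 : Fˣ) : GG) : MM) = -1
  rw [Matrix.GeneralLinearGroup.coe_scalar, Matrix.scalar_apply, ← Matrix.smul_one_eq_diagonal]
  simp

theorem muO_negS_iff_mem (h2 : (2 : F) ≠ 0) (he : Even (Fintype.card ι)) :
    muO (hq_of_good Q) (negS (Q := Q) he) = 1 ↔ (negS (Q := Q) he).1 ∈ Cfsg.Omega F (⇑Q) := by
  rw [omega_eq_ker_invHom h.nd (hq_of_good Q), MonoidHom.mem_ker, muO_apply]
  constructor
  · intro h3
    exact Prod.ext ((mem_SOg_iff_fst h2 (hq_of_good Q) _).1 (negS he).2) h3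
  · intro h3
    rw [h3]
    rfl

theorem muO_neg_iff (h2 : (2 : F) ≠ 0) (he : Even (Fintype.card ι)) :
    muO (hq_of_good Q) (negS (Q := Q) he) = 1 ↔ IsSquare (Matrix.of (fun i j : ι => QuadraticMap.polar (⇑Q) (Pi.single i 1) (Pi.single j 1))).det := by
  have hn : 1 ≤ Fintype.card ι := by
    have := h.big
    omega
  rw [← Cfsg.Agent.Lib.Spinor.neg_one_mem_iff_disc h2 hn he Q h.nd, muO_negS_iff_mem h2 he]
  constructor
  · intro h3
    exact ⟨_, h3, oM_negS he⟩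
  · rintro ⟨g, hg, hm⟩
    have : g = (negS (Q := Q) he).1 := by
      apply Cfsg.Agent.Lib.Spinor.OG.ext'
      rw [hm]
      exact (oM_negS he).symm
    rwa [← this]

theorem soAut_negS_mul (he : Even (Fintype.card ι)) (s : ↥(SOg Q)) : soAut (negS he * s) = soAut s := by
  rw [map_mul]
  have h1 : soAut (negS (Q := Q) he) = 1 := by
    have h3 : ((negS (Q := Q) he).1.1 : MM) = (-1 : F) • (((1 : GG) : MM)) := by
      rw [show ((negS (Q := Q) he).1.1 : MM) = oM (negS (Q := Q) he).1 from rfl, oM_negS he]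
      simp
    have h4 := psemiO_smul_eq (Q := Q) (RingEquiv.refl F) (semi_of_sim (Subgroup.one_mem _)) (semi_of_og (negS (Q := Q) he).1) h3 (by
      simp)
    rw [soAut_apply, h4]
    exact map_one (simAut (Q := Q))
  rw [h1, one_mul]

theorem soAut_eq_cases (he : Even (Fintype.card ι)) {s s' : ↥(SOg Q)} (hs : soAut s = soAut s') : s = s' ∨ s = negS he * s' := by
  rw [soAut_apply, soAut_apply] at hs
  obtain ⟨-, c, hc0, hc⟩ := psemiO_inj hs
  obtain ⟨v₀, hv₀⟩ := ne_of_good (Q := Q)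
  have e1 : Q (oM s.1 *ᵥ v₀) = Q v₀ := oM_Q s.1 v₀
  have e2 : Q (oM s'.1 *ᵥ v₀) = Q v₀ := oM_Q s'.1 v₀
  have e3 : oM s.1 = c • oM s'.1 := hc
  rw [e3, Matrix.smul_mulVec, QuadraticMap.map_smul, e2, smul_eq_mul] at e1
  have e4 : c * c = 1 := by
    apply mul_right_cancel₀ hv₀
    rw [one_mul]
    exact e1
  have e5 : (c - 1) * (c + 1) = 0 := by linear_combination e4
  rcases mul_eq_zero.1 e5 with e6 | e6
  · left
    have : c = 1 := by linear_combination e6
    subst this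
    apply Subtype.ext
    apply Subtype.ext
    apply Units.ext
    rw [one_smul] at e3
    exact e3
  · right
    have : c = -1 := by linear_combination e6
    subst this
    apply Subtype.ext
    apply Subtype.ext
    apply Units.ext
    show oM s.1 = oM (negS (Q := Q) he).1 * oM s'.1
    rw [oM_negS, e3]
    simp

theorem pso_le_inn (h2 : (2 : F) ≠ 0) (he : Even (Fintype.card ι)) (hneg : muO (hq_of_good Q) (negS (Q := Q) he) ≠ 1) :
    Cfsg.psoAut F (⇑Q) ≤ Cfsg.Inn (PO Q) := by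
  rw [psoAut_eq_range]
  rintro _ ⟨s, rfl⟩
  by_cases h3 : muO (hq_of_good Q) s = 1
  · exact mem_inn_of_mu h2 (hq_of_good Q) s h3
  · have h4 : muO (hq_of_good Q) s = -1 := (Int.units_eq_one_or _).resolve_left h3
    have h5 : muO (hq_of_good Q) (negS (Q := Q) he) = -1 := (Int.units_eq_one_or _).resolve_left hneg
    rw [← soAut_negS_mul he s]
    apply mem_inn_of_mu h2 (hq_of_good Q)
    rw [map_mul, h4, h5]
    rfl

theorem inn_le_pso (h2 : (2 : F) ≠ 0) : Cfsg.Inn (PO Q) ≤ Cfsg.psoAut F (⇑Q) := by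
  intro y hy
  obtain ⟨s, -, rfl⟩ := exists_of_inn h2 (hq_of_good Q) hy
  rw [psoAut_eq_range]
  exact ⟨s, rfl⟩

theorem muO_eq_of_eq (he : Even (Fintype.card ι)) (hneg : muO (hq_of_good Q) (negS (Q := Q) he) = 1) {s s' : ↥(SOg Q)} (hs : soAut s = soAut s') :
    muO (hq_of_good Q) s = muO (hq_of_good Q) s' := by
  rcases soAut_eq_cases he hs with rfl | rfl
  · rfl
  · rw [map_mul, hneg, one_mul]

theorem soAut_mem_inn_iff (h2 : (2 : F) ≠ 0) (he : Even (Fintype.card ι)) (hneg : muO (hq_of_good Q) (negS (Q := Q) he) = 1) (s : ↥(SOg Q)) :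
    soAut s ∈ Cfsg.Inn (PO Q) ↔ muO (hq_of_good Q) s = 1 := by
  constructor
  · intro hs
    obtain ⟨s', h3, h4⟩ := exists_of_inn h2 (hq_of_good Q) hs
    rw [muO_eq_of_eq he hneg h4.symm, h3]
  · exact mem_inn_of_mu h2 (hq_of_good Q) s

/-- The special isometries as elements of the image of the special orthogonal group. -/
noncomputable def soPso : ↥(SOg Q) →* ↥(Cfsg.psoAut F (⇑Q)) :=
  (soAut (Q := Q)).codRestrict _ (fun s => by
    rw [psoAut_eq_range]
    exact ⟨s, rfl⟩)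

omit [Fintype F] h in
theorem soPso_surj : Function.Surjective (soPso (Q := Q)) := by
  rintro ⟨x, hx⟩
  rw [psoAut_eq_range] at hx
  obtain ⟨g, rfl⟩ := hx
  exact ⟨g, rfl⟩

theorem exists_thetaP (h2 : (2 : F) ≠ 0) (he : Even (Fintype.card ι)) (hneg : muO (hq_of_good Q) (negS (Q := Q) he) = 1) :
    ∃ θ : ↥(Cfsg.psoAut F (⇑Q)) →* ℤˣ, Function.Surjective θ ∧ θ.ker = (Cfsg.Inn (PO Q)).subgroupOf (Cfsg.psoAut F (⇑Q)) := by
  have hker : (soPso (Q := Q)).ker ≤ (muO (hq_of_good Q)).ker := by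
    intro s hs
    have h3 : soAut s = 1 := congrArg Subtype.val (MonoidHom.mem_ker.1 hs)
    have h4 : soAut s = soAut (1 : ↥(SOg Q)) := by rw [h3, map_one]
    rw [MonoidHom.mem_ker, muO_eq_of_eq he hneg h4, map_one]
  let θ := (MonoidHom.liftOfSurjective (soPso (Q := Q)) soPso_surj) ⟨muO (hq_of_good Q), hker⟩
  have hθ : ∀ s, θ (soPso s) = muO (hq_of_good Q) s := fun s => MonoidHom.liftOfRightInverse_comp_apply _ _ _ _ _
  refine ⟨θ, ?_, ?_⟩
  · intro a
    obtain ⟨D, hD⟩ := exists_section (Q := Q) h2 (hq_of_good Q)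
    exact ⟨soPso (D a), by rw [hθ, hD]⟩
  · ext x
    obtain ⟨s, rfl⟩ := soPso_surj x
    rw [MonoidHom.mem_ker, hθ, Subgroup.mem_subgroupOf]
    exact (soAut_mem_inn_iff h2 he hneg s).symm

theorem relIndex_two (h2 : (2 : F) ≠ 0) (he : Even (Fintype.card ι)) (hneg : muO (hq_of_good Q) (negS (Q := Q) he) = 1) :
    (Cfsg.Inn (PO Q)).relIndex (Cfsg.psoAut F (⇑Q)) = 2 := by
  obtain ⟨θ, h3, h4⟩ := exists_thetaP (Q := Q) h2 he hneg
  rw [Subgroup.relIndex, ← h4, index_ker_surj θ h3, card_units_int]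

theorem relIndex_one (h2 : (2 : F) ≠ 0) (he : Even (Fintype.card ι)) (hneg : muO (hq_of_good Q) (negS (Q := Q) he) ≠ 1) :
    (Cfsg.Inn (PO Q)).relIndex (Cfsg.psoAut F (⇑Q)) = 1 :=
  Subgroup.relIndex_eq_one.2 (pso_le_inn h2 he hneg)

theorem exists_v4_units : Nonempty ((ℤˣ × ℤˣ) ≃* Multiplicative (ZMod 2 × ZMod 2)) :=
  v4_equiv card_units_int2 (fun x => by
    apply Prod.ext
    · exact Int.units_mul_self _
    · exact Int.units_mul_self _)

/-- The image of the conformal group modulo the image of the special orthogonal group. -/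
theorem pgo_mod_pso (h2 : (2 : F) ≠ 0) (he : Even (Fintype.card ι)) :
    ∃ φ : ↥(Cfsg.pgoAut F (⇑Q)) →* Multiplicative (ZMod 2 × ZMod 2), Function.Surjective φ ∧ φ.ker = (Cfsg.psoAut F (⇑Q)).subgroupOf (Cfsg.pgoAut F (⇑Q)) := by
  obtain ⟨e⟩ := exists_v4_units
  have hne := ne_of_good (Q := Q)
  refine ⟨e.toMonoidHom.comp (LamP he hne), e.surjective.comp (LamP_surj h2 he hne), ?_⟩
  rw [← ker_LamP h2 he hne]
  ext x
  simp [MonoidHom.mem_ker]

/-- The case where the image of the special orthogonal group is inner. -/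
theorem pgo_mod_inn_v4 (h2 : (2 : F) ≠ 0) (he : Even (Fintype.card ι)) (hneg : muO (hq_of_good Q) (negS (Q := Q) he) ≠ 1) :
    ∃ φ : ↥(Cfsg.pgoAut F (⇑Q)) →* Multiplicative (ZMod 2 × ZMod 2), Function.Surjective φ ∧ φ.ker = (Cfsg.Inn (PO Q)).subgroupOf (Cfsg.pgoAut F (⇑Q)) := by
  have e : Cfsg.Inn (PO Q) = Cfsg.psoAut F (⇑Q) := le_antisymm (inn_le_pso h2) (pso_le_inn h2 he hneg)
  rw [e]
  exact pgo_mod_pso h2 he

theorem index_pso_pgo (h2 : (2 : F) ≠ 0) (he : Even (Fintype.card ι)) :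
    ((Cfsg.psoAut F (⇑Q)).subgroupOf (Cfsg.pgoAut F (⇑Q))).index = 4 := by
  have hne := ne_of_good (Q := Q)
  rw [← ker_LamP h2 he hne, index_ker_surj _ (LamP_surj h2 he hne), card_units_int2]

theorem index_inn_pgo (h2 : (2 : F) ≠ 0) (he : Even (Fintype.card ι)) (hneg : muO (hq_of_good Q) (negS (Q := Q) he) = 1) :
    ((Cfsg.Inn (PO Q)).subgroupOf (Cfsg.pgoAut F (⇑Q))).index = 8 := by
  have h3 : (Cfsg.Inn (PO Q)).subgroupOf (Cfsg.pgoAut F (⇑Q)) ≤ (Cfsg.psoAut F (⇑Q)).subgroupOf (Cfsg.pgoAut F (⇑Q)) :=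
    fun x hx => Subgroup.mem_subgroupOf.2 (inn_le_pso h2 (Subgroup.mem_subgroupOf.1 hx))
  rw [← Subgroup.relIndex_mul_index h3, index_pso_pgo h2 he, Subgroup.relIndex_subgroupOf pso_le_pgo, relIndex_two h2 he hneg]

/-- Conjugating a reflection by a similarity. -/
theorem rr_conj {g : GG} {c : F} (hc0 : c ≠ 0) (hc : ∀ v : VV, Q ((g : MM) *ᵥ v) = c * Q v) (v : VV) :
    (g : MM) * rr Q v * ((g⁻¹ : GG) : MM) = rr Q ((g : MM) *ᵥ v) := by
  apply matrix_ext
  intro x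
  have e1 : (g : MM) *ᵥ (((g⁻¹ : GG) : MM) *ᵥ x) = x := by
    rw [Matrix.mulVec_mulVec, ← Units.val_mul, mul_inv_cancel]
    simp
  set y := ((g⁻¹ : GG) : MM) *ᵥ x with hy
  rw [← Matrix.mulVec_mulVec, ← Matrix.mulVec_mulVec, ← hy, rr, rr, reflection_mulVec, reflection_mulVec]
  have e2 : QuadraticMap.polar (⇑Q) ((g : MM) *ᵥ v) x = c * QuadraticMap.polar (⇑Q) v y := by
    rw [← e1]
    simp only [QuadraticMap.polar, ← Matrix.mulVec_add, hc]
    ring
  rw [e2, hc, Matrix.mulVec_sub, Matrix.mulVec_smul, e1]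
  by_cases hv : Q v = 0
  · simp [hv]
  · congr 2
    field_simp

/-- The commutator of a similarity with non-square multiplier and a reflection. -/
theorem comm_not_inn (h2 : (2 : F) ≠ 0) (he : Even (Fintype.card ι)) (hneg : muO (hq_of_good Q) (negS (Q := Q) he) = 1) (δ : ↥(Sim Q)) {ε : F} (hε : ¬ IsSquare ε)
    (hδ : ∀ v : VV, Q ((δ.1 : MM) *ᵥ v) = ε * Q v) {v : VV} (hv : Q v ≠ 0) (r : ↥(Sim Q)) (hr : r.1 = (rO Q v).1) :
    simAut δ * simAut r * (simAut δ)⁻¹ * (simAut r)⁻¹ ∉ Cfsg.Inn (PO Q) := by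
  have hε0 : ε ≠ 0 := by
    rintro rfl
    exact hε IsSquare.zero
  have hw : Q ((δ.1 : MM) *ᵥ v) ≠ 0 := by
    rw [hδ]
    exact mul_ne_zero hε0 hv
  have hl : ∀ u ∈ [(δ.1 : MM) *ᵥ v, v], Q u ≠ 0 := by
    intro u hu
    simp only [List.mem_cons, List.not_mem_nil, or_false] at hu
    rcases hu with rfl | rfl
    · exact hw
    · exact hv
  have hinv : invHom h.nd (hq_of_good Q) (lp Q [(δ.1 : MM) *ᵥ v, v]) = (1, -1) := by
    rw [invHom_lp h.nd (hq_of_good Q) hl]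
    have e : ¬ IsSquare (nm Q [(δ.1 : MM) *ᵥ v, v]) := by
      have e1 : nm Q [(δ.1 : MM) *ᵥ v, v] = ε * (Q v * Q v) := by
        simp only [Cfsg.Agent.Lib.Spinor.nm, List.map_cons, List.map_nil, List.prod_cons, List.prod_nil, hδ]
        ring
      rw [e1]
      intro hs
      exact hε (Cfsg.Agent.Lib.Spinor.sq_of_mul_sq hs ⟨_, rfl⟩ (mul_ne_zero hv hv))
    simp [invL, sgnF_of_not_sq e]
  have hmem : lp Q [(δ.1 : MM) *ᵥ v, v] ∈ SOg Q := by
    rw [mem_SOg_iff_fst h2 (hq_of_good Q), hinv]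
  obtain ⟨s0, hs0⟩ : ∃ s0 : ↥(SOg Q), s0.1 = lp Q [(δ.1 : MM) *ᵥ v, v] := ⟨⟨_, hmem⟩, rfl⟩
  have hmu : muO (hq_of_good Q) s0 = -1 := by
    rw [muO_apply, hs0, hinv]
  have hmat : δ * r * δ⁻¹ * r⁻¹ = soSim s0 := by
    apply Subtype.ext
    apply Units.ext
    show (δ.1 : MM) * (r.1 : MM) * ((δ.1⁻¹ : GG) : MM) * ((r.1⁻¹ : GG) : MM) = OG.mat s0.1
    rw [hr, hs0, show ((rO Q v).1 : MM) = OG.mat (rO Q v) from rfl, rO_mat hv, rr_conj hε0 hδ v, lp_mat hl]
    have hrinv : ((rO Q v).1⁻¹ : GG) = (rO Q v).1 := by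
      have := Cfsg.Agent.Lib.Spinor.rO_mul_self (Q := Q) v
      have h7 : (rO Q v)⁻¹ = rO Q v := inv_eq_of_mul_eq_one_left this
      exact congrArg Subtype.val h7
    rw [hrinv, show ((rO Q v).1 : MM) = OG.mat (rO Q v) from rfl, rO_mat hv]
    simp
  have hconj : simAut δ * simAut r * (simAut δ)⁻¹ * (simAut r)⁻¹ = soAut s0 := by
    have h8 : simAut (δ * r * δ⁻¹ * r⁻¹) = simAut δ * simAut r * (simAut δ)⁻¹ * (simAut r)⁻¹ := by
      simp only [map_mul, map_inv]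
    rw [← h8, hmat, simAut_soSim]
  rw [hconj, soAut_mem_inn_iff h2 he hneg, hmu]
  decide

/-- The quotient by the inner automorphisms is dihedral when `-1` lies in `Ω`. -/
theorem pgo_mod_inn_d8 (h2 : (2 : F) ≠ 0) (he : Even (Fintype.card ι)) (hneg : muO (hq_of_good Q) (negS (Q := Q) he) = 1) :
    ∃ φ : ↥(Cfsg.pgoAut F (⇑Q)) →* DihedralGroup 4, Function.Surjective φ ∧ φ.ker = (Cfsg.Inn (PO Q)).subgroupOf (Cfsg.pgoAut F (⇑Q)) := by
  have hne := ne_of_good (Q := Q)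
  have hsurj := LamP_surj (Q := Q) h2 he hne
  let μ : ↥(Cfsg.pgoAut F (⇑Q)) →* ℤˣ := (MonoidHom.fst ℤˣ ℤˣ).comp (LamP he hne)
  have hμ : Function.Surjective μ := (Prod.fst_surjective).comp hsurj
  refine hom_d8 _ (index_inn_pgo h2 he hneg) μ.ker ?_ ?_ ?_ ?_
  · intro x hx
    have h3 : (x : MulAut (PO Q)) ∈ Cfsg.psoAut F (⇑Q) := inn_le_pso h2 (Subgroup.mem_subgroupOf.1 hx)
    have h4 : x ∈ (LamP he hne).ker := by
      rw [ker_LamP h2 he hne]
      exact Subgroup.mem_subgroupOf.2 h3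
    rw [MonoidHom.mem_ker] at h4 ⊢
    show (LamP he hne x).1 = 1
    rw [h4]
    rfl
  · rw [index_ker_surj μ hμ, card_units_int]
  · intro x hx
    obtain ⟨g, rfl⟩ := simPgo_surj x
    have h3 : (Lam he hne g).1 = 1 := by
      have : μ (simPgo g) = 1 := hx
      have h4 : μ (simPgo g) = (Lam he hne g).1 := by
        show (LamP he hne (simPgo g)).1 = _
        rw [LamP_simPgo]
      rwa [h4] at this
    rw [Lam_fst] at h3
    obtain ⟨A, t, -, hA⟩ := exists_og_of_square hne g (sgnF_eq_one_iff.1 h3)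
    rw [Subgroup.mem_subgroupOf]
    show simAut g * simAut g ∈ _
    rw [hA, ← map_mul]
    have h5 : invHom h.nd (hq_of_good Q) (A * A) = 1 := by
      rw [map_mul]
      apply Prod.ext
      · exact Int.units_mul_self _
      · exact Int.units_mul_self _
    have h6 : A * A ∈ Cfsg.Omega F (⇑Q) := by
      rw [omega_eq_ker_invHom h.nd (hq_of_good Q)]
      exact h5
    refine ⟨pr ⟨A * A, h6⟩, ?_⟩
    show MulAut.conj (pr ⟨A * A, h6⟩) = _
    rw [conj_eq_psemiO]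
    rfl
  · obtain ⟨δ, ε, hε, hδ, -⟩ := exists_delta (Q := Q) h2 he hne
    obtain ⟨v, hv⟩ := hne
    obtain ⟨r, hr⟩ : ∃ r : ↥(Sim Q), r.1 = (rO Q v).1 := ⟨⟨(rO Q v).1, og_le_sim (rO Q v).2⟩, rfl⟩
    refine ⟨simPgo (Q := Q) δ, simPgo (Q := Q) r, fun hin => ?_⟩
    exact comm_not_inn h2 he hneg δ hε hδ hv r hr (Subgroup.mem_subgroupOf.1 hin)

end neg

end Cfsg.Agent.Lib.AutPOm
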