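import Cfsg.Agent.Lib.AutPOm.EvenInvGD
import Cfsg.Agent.Lib.Spinor.Plus

/-! The explicit computations for the two even-dimensional families. -/

set_option autoImplicit false
set_option linter.unusedSimpArgs false
set_option linter.unusedVariables false
set_option linter.unusedSectionVars false

namespace Cfsg.Agent.Lib.AutPOm

open Matrix Module MulAction Cfsg.Agent.Lib.Classical
open Cfsg.Agent.Lib.AutPSL (sm sm_add sm_smul sm_symm_sm sm_sm_symm glMap glMap_coe semi_vec_ne_zero map_mulVec_sm coe_scalar_mul glMap_one)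
open Cfsg.Agent.Lib.ClassMax.OmegaCore (mem_iso_iff)
open Cfsg.Agent.Lib.Spinor (ndf rr rO lp nm invHom invHom_lp invL omega_eq_ker_invHom sgnF sgnF_of_sq sgnF_of_not_sq sgnF_eq_one_iff sgnF_mul exists_lp lp_mat lp_cons lp_nil rO_mat matrix_ext det_list_prod sq_mul_of_not_sq OG.mat lp_mem_omega_iff HypCoord)
open Cfsg.Agent.Lib.Quad (NondegQ plusQF plusQF_apply coe_plusQF minusQF minusQF_apply polar_plus polar_minus polar_minus_eq' det_hyperbolic det_minusGram minusGram not_isSquare_disc)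
open scoped LinearAlgebra.Projectivization MatrixGroups

variable {F : Type*} [Field F]

/-- Diagonal Levi elements as products of reflections. -/
theorem diag_levi_list {ι : Type} [Fintype ι] [DecidableEq ι] {Q : QuadraticForm F (ι → F)} {m : ℕ} (p n : Fin m → ι) (idx : ι → ℕ) (i₀ : ℕ) (H : ∀ j, HypCoord Q (p j) (n j))
    (hip : ∀ j, idx (p j) = j) (hin : ∀ j, idx (n j) = j)
    (huniq : ∀ (k : ι) (j : Fin m), (j : ℕ) < i₀ → idx k = j → k = p j ∨ k = n j) (him : i₀ ≤ m) {c : F} (hc : c ≠ 0) (lam : ι → F)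
    (hlp : ∀ j, lam (p j) = c) (hln : ∀ j, lam (n j) = c⁻¹) :
    ∀ i, i ≤ i₀ → ∃ vs : List (ι → F), (∀ v ∈ vs, Q v ≠ 0) ∧
      (vs.map (rr Q)).prod = Matrix.diagonal (fun k => if idx k < i then lam k else 1) ∧ vs.length = 2 * i ∧ nm Q vs = c ^ i := by
  intro i
  induction i with
  | zero =>
    intro _
    refine ⟨[], by simp, ?_, rfl, by simp [nm]⟩
    simp
  | succ i ih =>
    intro hi
    obtain ⟨vs, h1, h2, h3, h4⟩ := ih (by omega)
    let j : Fin m := ⟨i, by omega⟩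
    have Hj := H j
    have a1 := Hj.Q_sub_smul 1
    have a2 := Hj.Q_sub_smul c
    have hnz1 : Q (Pi.single (p j) 1 - (1 : F) • Pi.single (n j) 1) ≠ 0 := by
      rw [a1]
      exact neg_ne_zero.2 one_ne_zero
    have hnz2 : Q (Pi.single (p j) 1 - c • Pi.single (n j) 1) ≠ 0 := by
      rw [a2]
      exact neg_ne_zero.2 hc
    refine ⟨(Pi.single (p j) 1 - (1 : F) • Pi.single (n j) 1) :: (Pi.single (p j) 1 - c • Pi.single (n j) 1) :: vs, ?_, ?_, ?_, ?_⟩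
    · intro v hv
      simp only [List.mem_cons] at hv
      rcases hv with rfl | rfl | hv
      · exact hnz1
      · exact hnz2
      · exact h1 v hv
    · simp only [List.map_cons, List.prod_cons]
      rw [h2, ← mul_assoc]
      apply matrix_ext
      intro x
      ext k
      rw [← mulVec_mulVec, Hj.rr_levi c hc]
      simp only [mulVec_diagonal]
      have hj : ((j : Fin m) : ℕ) = i := rfl
      have hp : idx (p j) = i := (hip j).trans hj
      have hn : idx (n j) = i := (hin j).trans hj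
      by_cases hk : k = p j
      · subst hk
        rw [if_pos rfl, hp, if_neg (lt_irrefl _), one_mul, if_pos (Nat.lt_succ_self _), hlp]
      · rw [if_neg hk]
        by_cases hk' : k = n j
        · subst hk'
          rw [if_pos rfl, hn, if_neg (lt_irrefl _), one_mul, if_pos (Nat.lt_succ_self _), hln]
        · rw [if_neg hk']
          have hidx : idx k ≠ i := fun h => (huniq k j (by simpa [j] using hi) (h.trans hj.symm)).elim hk hk'
          by_cases h5 : idx k < i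
          · rw [if_pos h5, if_pos (by omega)]
          · rw [if_neg h5, if_neg (by omega)]
    · simp only [List.length_cons, h3]
      ring
    · simp only [nm, List.map_cons, List.prod_cons]
      have : (vs.map (fun v => Q v)).prod = c ^ i := h4
      rw [this, a1, a2, pow_succ]
      ring

theorem sgnF_pow [Fintype F] (c : F) (hc : c ≠ 0) (i : ℕ) : sgnF (c ^ i) = (sgnF c) ^ i := by
  induction i with
  | zero =>
    rw [pow_zero, pow_zero]
    exact sgnF_of_sq IsSquare.one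
  | succ i ih =>
    rw [pow_succ, pow_succ, sgnF_mul (pow_ne_zero _ hc) hc, ih]

theorem isSquare_neg_one_pow' [Fintype F] {m : ℕ} : IsSquare ((-1 : F) ^ m) ↔ ¬ (Odd m ∧ Fintype.card F % 4 = 3) := by
  rcases Nat.even_or_odd m with hm | hm
  · rw [hm.neg_one_pow]
    simp [IsSquare.one, Nat.not_odd_iff_even.2 hm]
  · rw [hm.neg_one_pow, FiniteField.isSquare_neg_one_iff]
    simp [hm]

section plus

variable {m : ℕ}

/-- The hyperbolic form with its definitional values. -/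
noncomputable def hypQF (m : ℕ) (F : Type*) [Field F] : QuadraticForm F (Fin m ⊕ Fin m → F) :=
  (plusQF m F).copy (Cfsg.quadFormPlus m F) (coe_plusQF m).symm

theorem hypQF_eq (m : ℕ) : hypQF m F = plusQF m F := QuadraticMap.ext (fun v => (plusQF_apply m v).symm)

theorem hypQF_apply (m : ℕ) (v : Fin m ⊕ Fin m → F) : hypQF m F v = Cfsg.quadFormPlus m F v := rfl

theorem hypQF_nd (m : ℕ) : (QuadraticMap.polarBilin (hypQF m F)).Nondegenerate := by
  rw [hypQF_eq]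
  exact Cfsg.Agent.Lib.Spinor.plusQF_nondeg m

theorem good_hyp (hm : 4 ≤ m) : Good (hypQF m F) :=
  ⟨hypQF_nd m, by simp; omega⟩

theorem even_II (m : ℕ) : Even (Fintype.card (Fin m ⊕ Fin m)) := by
  simp

theorem hyp_link [Fintype F] (hm : 3 ≤ m) {g : GL (Fin m ⊕ Fin m) F} (hg : g ∈ Sim (hypQF m F)) :
    Cfsg.PreservesSingularClasses (Cfsg.quadFormPlus m F) (g : Matrix _ _ F) ↔ KP (hypQF m F) g := by
  have e := hypQF_eq (F := F) m
  revert hg
  rw [e]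
  intro hg
  exact plus_link hm hg

theorem inndiag_plus_eq [Fintype F] (hm : 3 ≤ m) (hne : ∃ v : Fin m ⊕ Fin m → F, hypQF m F v ≠ 0) :
    (Cfsg.inndiagPOmegaPlus m F : Subgroup (MulAut (PO (hypQF m F)))) = GD (even_II m) hne := by
  apply le_antisymm
  · refine (Subgroup.closure_le _).2 ?_
    rintro β ⟨g, hg, hp, hi⟩
    have hg' : g ∈ Sim (hypQF m F) := hg
    exact mem_GD.2 ⟨g, hg', (hyp_link hm hg').1 hp, induced_eq (hs := semi_of_sim hg') hi⟩
  · intro δ hδ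
    obtain ⟨g, hg, hK, he⟩ := mem_GD.1 hδ
    have h1 : Cfsg.PreservesSingularClasses (Cfsg.quadFormPlus m F) (g : Matrix _ _ F) := (hyp_link hm hg).2 hK
    have h2 : Cfsg.IsInnerDiagonalAutPOmegaPlus m δ := by
      rw [he]
      exact ⟨g, hg, h1, psemiO_induced (Q := hypQF m F) g (RingEquiv.refl F) (semi_of_sim hg)⟩
    have h3 : ∀ β, Cfsg.IsInnerDiagonalAutPOmegaPlus m β → β ∈ Cfsg.inndiagPOmegaPlus m F := fun β hβ => Subgroup.subset_closure hβ
    exact h3 δ h2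

theorem hypCoord (m : ℕ) (j : Fin m) : HypCoord (hypQF m F) (Sum.inl j) (Sum.inr j) := by
  rw [hypQF_eq]
  exact ⟨by simp, Cfsg.Agent.Lib.Spinor.Q_eP j, Cfsg.Agent.Lib.Spinor.Q_fP j, fun x => Cfsg.Agent.Lib.Spinor.polar_eP_left x j, fun x => Cfsg.Agent.Lib.Spinor.polar_fP_left x j⟩

theorem disc_plus (m : ℕ) : (Matrix.of (fun i j : Fin m ⊕ Fin m => QuadraticMap.polar (⇑(hypQF m F)) (Pi.single i 1) (Pi.single j 1))).det = (-1) ^ m := by
  have h1 : Matrix.of (fun i j : Fin m ⊕ Fin m => QuadraticMap.polar (⇑(hypQF m F)) (Pi.single i 1) (Pi.single j 1)) = fromBlocks (0 : Matrix (Fin m) (Fin m) F) 1 1 0 := by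
    ext i j
    rw [Matrix.of_apply]
    show QuadraticMap.polar (Cfsg.quadFormPlus m F) _ _ = _
    rw [polar_plus, single_one_dotProduct, mulVec_single_one]
    rfl
  rw [h1, det_hyperbolic, Fintype.card_fin]

theorem hneg_plus_iff [Fintype F] (h2 : (2 : F) ≠ 0) (hm : 4 ≤ m) [h : Good (hypQF m F)] :
    muO (hq_of_good (hypQF m F)) (negS (Q := hypQF m F) (even_II m)) = 1 ↔ ¬ (Odd m ∧ Fintype.card F % 4 = 3) := by
  rw [muO_neg_iff h2 (even_II m), disc_plus, isSquare_neg_one_pow']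

/-- The element attached to a non-square multiplier. -/
theorem plus_key [Fintype F] (h2 : (2 : F) ≠ 0) (hm : 4 ≤ m) [h : Good (hypQF m F)] {ε : F} (hε : ε ≠ 0) :
    ∃ (g : GL (Fin m ⊕ Fin m) F) (hg : g ∈ Sim (hypQF m F)) (s : ↥(SOg (hypQF m F))), KP (hypQF m F) g ∧
      (∀ v, hypQF m F ((g : Matrix _ _ F) *ᵥ v) = ε * hypQF m F v) ∧ ((g * g : GL _ F) : Matrix _ _ F) = ε • oM s.1 ∧
      muO (hq_of_good (hypQF m F)) s = sgnF (ε ^ m) := by
  set εu : Fˣ := Units.mk0 ε hε with hεu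
  have hsim : ∀ v, hypQF m F (((dlP m εu : GL _ F) : Matrix _ _ F) *ᵥ v) = ε * hypQF m F v := by
    intro v
    rw [hypQF_eq]
    exact dlP_Q m εu v
  obtain ⟨vs, h1, h3, h4, h5⟩ := diag_levi_list (Q := hypQF m F) (F := F) (fun j : Fin m => (Sum.inl j : Fin m ⊕ Fin m)) (fun j => Sum.inr j)
    (Sum.elim (fun j : Fin m => (j : ℕ)) (fun j : Fin m => (j : ℕ))) m (hypCoord m) (fun j => rfl) (fun j => rfl)
    (by
      intro k j hj hk
      rcases k with k | k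
      · left
        congr 1
        exact Fin.ext hk
      · right
        congr 1
        exact Fin.ext hk) le_rfl hε (Sum.elim (fun _ => ε) (fun _ => ε⁻¹)) (fun j => rfl) (fun j => rfl) m le_rfl
  have hq := hq_of_good (hypQF m F)
  have hinv : invHom h.nd hq (lp (hypQF m F) vs) = (1, sgnF (ε ^ m)) := by
    rw [invHom_lp h.nd hq h1, invL, h4, h5]
    simp
  have hmem : lp (hypQF m F) vs ∈ SOg (hypQF m F) := by
    rw [mem_SOg_iff_fst h2 hq, hinv]
  obtain ⟨s0, hs0⟩ : ∃ s0 : ↥(SOg (hypQF m F)), s0.1 = lp (hypQF m F) vs := ⟨⟨_, hmem⟩, rfl⟩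
  refine ⟨dlP m εu, ⟨εu, hsim⟩, s0, Or.inl ⟨h2, ε, hsim, ?_⟩, hsim, ?_, ?_⟩
  · rw [dlP_det]
    congr 1
    simp
    omega
  · have e1 : oM s0.1 = OG.mat (lp (hypQF m F) vs) := by rw [← hs0]
    rw [e1, lp_mat h1, h3, Units.val_mul, dlP_coe, Matrix.diagonal_mul_diagonal, ← Matrix.diagonal_smul]
    congr 1
    funext k
    rcases k with k | k
    · have : ((k : Fin m) : ℕ) < m := k.2
      simp [this, hεu]
    · have : ((k : Fin m) : ℕ) < m := k.2
      simp [this, hε, hεu]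
  · rw [muO_apply, hs0, hinv]

end plus

section minus

variable {m : ℕ} {a b : F}

theorem disc_minus (m : ℕ) (a b : F) :
    (Matrix.of (fun i j : (Fin m ⊕ Fin m) ⊕ Fin 2 => QuadraticMap.polar (⇑(minusQF m a b)) (Pi.single i 1) (Pi.single j 1))).det = (-1) ^ m * (4 * b - a ^ 2) := by
  have h1 : Matrix.of (fun i j : (Fin m ⊕ Fin m) ⊕ Fin 2 => QuadraticMap.polar (⇑(minusQF m a b)) (Pi.single i 1) (Pi.single j 1)) = minusGram m a b := by
    ext i j
    rw [Matrix.of_apply]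
    show QuadraticMap.polar (Cfsg.quadFormMinus m F a b) _ _ = _
    rw [polar_minus, single_one_dotProduct, mulVec_single_one]
    rfl
  rw [h1, det_minusGram]

theorem hneg_minus_iff [Fintype F] (h2 : (2 : F) ≠ 0) (hab : ∀ z₁ z₂ : F, z₁ ^ 2 + a * z₁ * z₂ + b * z₂ ^ 2 = 0 → z₁ = 0 ∧ z₂ = 0) [h : Good (minusQF m a b)] :
    muO (hq_of_good (minusQF m a b)) (negS (Q := minusQF m a b) (even_JJ m)) = 1 ↔ (Even m ∧ Fintype.card F % 4 = 3) := by
  rw [muO_neg_iff h2 (even_JJ m), disc_minus]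
  have e : (-1 : F) ^ m * (4 * b - a ^ 2) = (-1) ^ (m + 1) * (a ^ 2 - 4 * b) := by
    rw [pow_succ]
    ring
  rw [e, Cfsg.Agent.Lib.Quad.isSquare_mul_iff_of_nonsquare _ _ (pow_ne_zero _ (neg_ne_zero.2 one_ne_zero)) (Cfsg.Agent.Lib.Quad.disc_ne_zero h2 a b hab) (not_isSquare_disc h2 a b hab), isSquare_neg_one_pow', not_not]
  constructor
  · rintro ⟨h3, h4⟩
    exact ⟨by rcases Nat.even_or_odd m with h5 | h5
              · exact h5
              · exact absurd (h5.add_one) (Nat.not_even_iff_odd.2 h3), h4⟩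
  · rintro ⟨h3, h4⟩
    exact ⟨h3.add_one, h4⟩

/-- A binary anisotropic form represents all non-zero values. -/
theorem exists_bin_value [Fintype F] (hab : ∀ z₁ z₂ : F, z₁ ^ 2 + a * z₁ * z₂ + b * z₂ ^ 2 = 0 → z₁ = 0 ∧ z₂ = 0) {c : F} (hc : c ≠ 0) :
    ∃ α β : F, α ^ 2 + a * α * β + b * β ^ 2 = c := by
  let P : QuadraticForm F (F × F) :=
    QuadraticMap.linMulLin (LinearMap.fst F F F) (LinearMap.fst F F F) +
    a • QuadraticMap.linMulLin (LinearMap.fst F F F) (LinearMap.snd F F F) +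
    b • QuadraticMap.linMulLin (LinearMap.snd F F F) (LinearMap.snd F F F)
  have hP : ∀ s u : F, P (s, u) = s ^ 2 + a * s * u + b * u ^ 2 := by
    intro s u
    simp [P, QuadraticMap.linMulLin_apply]
    ring
  have haniso : ∀ v, P v = 0 → v = 0 := by
    rintro ⟨s, u⟩ hv
    rw [hP] at hv
    obtain ⟨h1, h3⟩ := hab s u hv
    simp [h1, h3]
  obtain ⟨⟨s, u⟩, hsu⟩ := Cfsg.Agent.Lib.Quad.exists_value_of_anisotropic haniso (by simp) hc
  exact ⟨s, u, by rw [← hP]; exact hsu⟩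

/-- The matrix of a similarity of the minus-type form. -/
noncomputable def dlM (m : ℕ) (a b ε α β : F) (he : α ^ 2 + a * α * β + b * β ^ 2 = ε) (hε : ε ≠ 0) : GL ((Fin m ⊕ Fin m) ⊕ Fin 2) F :=
  Matrix.GeneralLinearGroup.mkOfDetNeZero (fromBlocks (Matrix.diagonal (Sum.elim (fun _ => ε) (fun _ => 1))) 0 0 !![α, -(b * β); β, α + a * β]) (by
    rw [Matrix.det_fromBlocks_zero₂₁, Matrix.det_diagonal, Fintype.prod_sum_type, Matrix.det_fin_two_of]
    simp only [Sum.elim_inl, Sum.elim_inr, Finset.prod_const_one, mul_one, Finset.prod_const, Finset.card_univ, Fintype.card_fin]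
    have : α * (α + a * β) - -(b * β) * β = ε := by rw [← he]; ring
    rw [this]
    exact mul_ne_zero (pow_ne_zero _ hε) hε)

section dlMdef

variable {ε α β : F} (he : α ^ 2 + a * α * β + b * β ^ 2 = ε) (hε : ε ≠ 0)

theorem dlM_coe : ((dlM m a b ε α β he hε : GL _ F) : Matrix ((Fin m ⊕ Fin m) ⊕ Fin 2) ((Fin m ⊕ Fin m) ⊕ Fin 2) F) =
    fromBlocks (Matrix.diagonal (Sum.elim (fun _ => ε) (fun _ => 1))) 0 0 !![α, -(b * β); β, α + a * β] := rfl

theorem dlM_mulVec (v : (Fin m ⊕ Fin m) ⊕ Fin 2 → F) :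
    ((dlM m a b ε α β he hε : GL _ F) : Matrix ((Fin m ⊕ Fin m) ⊕ Fin 2) ((Fin m ⊕ Fin m) ⊕ Fin 2) F) *ᵥ v =
      Sum.elim (fun k => Sum.elim (fun _ => ε) (fun _ => 1) k * v (Sum.inl k)) (fun k => (!![α, -(b * β); β, α + a * β] *ᵥ (v ∘ Sum.inr)) k) := by
  have h1 : v = Sum.elim (v ∘ Sum.inl) (v ∘ Sum.inr) := by
    ext i
    cases i <;> rfl
  conv_lhs => rw [h1]
  rw [dlM_coe, Matrix.fromBlocks_mulVec]
  simp only [Matrix.zero_mulVec, add_zero, zero_add]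
  funext k
  rcases k with k | k
  · simp only [Sum.elim_inl]
    rw [Matrix.mulVec_diagonal]
    rfl
  · rfl

theorem dlM_ll (v : (Fin m ⊕ Fin m) ⊕ Fin 2 → F) (i : Fin m) :
    (((dlM m a b ε α β he hε : GL _ F) : Matrix ((Fin m ⊕ Fin m) ⊕ Fin 2) ((Fin m ⊕ Fin m) ⊕ Fin 2) F) *ᵥ v) (Sum.inl (Sum.inl i)) = ε * v (Sum.inl (Sum.inl i)) := by
  rw [dlM_mulVec]
  rfl

theorem dlM_lr (v : (Fin m ⊕ Fin m) ⊕ Fin 2 → F) (i : Fin m) :
    (((dlM m a b ε α β he hε : GL _ F) : Matrix ((Fin m ⊕ Fin m) ⊕ Fin 2) ((Fin m ⊕ Fin m) ⊕ Fin 2) F) *ᵥ v) (Sum.inl (Sum.inr i)) = v (Sum.inl (Sum.inr i)) := by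
  rw [dlM_mulVec]
  exact one_mul _

theorem dlM_r0 (v : (Fin m ⊕ Fin m) ⊕ Fin 2 → F) :
    (((dlM m a b ε α β he hε : GL _ F) : Matrix ((Fin m ⊕ Fin m) ⊕ Fin 2) ((Fin m ⊕ Fin m) ⊕ Fin 2) F) *ᵥ v) (Sum.inr 0) = α * v (Sum.inr 0) - b * β * v (Sum.inr 1) := by
  rw [dlM_mulVec]
  simp [Matrix.mulVec, dotProduct, Fin.sum_univ_two]
  ring

theorem dlM_r1 (v : (Fin m ⊕ Fin m) ⊕ Fin 2 → F) :
    (((dlM m a b ε α β he hε : GL _ F) : Matrix ((Fin m ⊕ Fin m) ⊕ Fin 2) ((Fin m ⊕ Fin m) ⊕ Fin 2) F) *ᵥ v) (Sum.inr 1) = β * v (Sum.inr 0) + (α + a * β) * v (Sum.inr 1) := by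
  rw [dlM_mulVec]
  simp [Matrix.mulVec, dotProduct, Fin.sum_univ_two]

theorem dlM_Q (v : (Fin m ⊕ Fin m) ⊕ Fin 2 → F) :
    minusQF m a b (((dlM m a b ε α β he hε : GL _ F) : Matrix ((Fin m ⊕ Fin m) ⊕ Fin 2) ((Fin m ⊕ Fin m) ⊕ Fin 2) F) *ᵥ v) = ε * minusQF m a b v := by
  rw [minusQF_apply, minusQF_apply, Cfsg.quadFormMinus, Cfsg.quadFormMinus, dlM_r0, dlM_r1]
  have e : (∑ i : Fin m, (((dlM m a b ε α β he hε : GL _ F) : Matrix ((Fin m ⊕ Fin m) ⊕ Fin 2) ((Fin m ⊕ Fin m) ⊕ Fin 2) F) *ᵥ v) (Sum.inl (Sum.inl i)) *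
      (((dlM m a b ε α β he hε : GL _ F) : Matrix ((Fin m ⊕ Fin m) ⊕ Fin 2) ((Fin m ⊕ Fin m) ⊕ Fin 2) F) *ᵥ v) (Sum.inl (Sum.inr i))) =
      ε * ∑ i : Fin m, v (Sum.inl (Sum.inl i)) * v (Sum.inl (Sum.inr i)) := by
    rw [Finset.mul_sum]
    refine Finset.sum_congr rfl fun i _ => ?_
    rw [dlM_ll, dlM_lr]
    ring
  rw [e, ← he]
  ring

theorem dlM_det : ((dlM m a b ε α β he hε : GL _ F) : Matrix ((Fin m ⊕ Fin m) ⊕ Fin 2) ((Fin m ⊕ Fin m) ⊕ Fin 2) F).det = ε ^ (m + 1) := by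
  rw [dlM_coe, Matrix.det_fromBlocks_zero₂₁, Matrix.det_diagonal, Fintype.prod_sum_type, Matrix.det_fin_two_of]
  simp only [Sum.elim_inl, Sum.elim_inr, Finset.prod_const_one, mul_one, Finset.prod_const, Finset.card_univ, Fintype.card_fin]
  have : α * (α + a * β) - -(b * β) * β = ε := by rw [← he]; ring
  rw [this, pow_succ]

end dlMdef

theorem hypCoord_minus (m : ℕ) (a b : F) (j : Fin m) : HypCoord (minusQF m a b) (Sum.inl (Sum.inl j)) (Sum.inl (Sum.inr j)) := by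
  refine ⟨by simp, ?_, ?_, fun x => ?_, fun x => ?_⟩
  · rw [minusQF_apply, Cfsg.quadFormMinus]
    simp
  · rw [minusQF_apply, Cfsg.quadFormMinus]
    simp
  · show QuadraticMap.polar (Cfsg.quadFormMinus m F a b) _ _ = _
    rw [polar_minus_eq']
    simp [Pi.single_apply, Finset.sum_ite_eq']
  · show QuadraticMap.polar (Cfsg.quadFormMinus m F a b) _ _ = _
    rw [polar_minus_eq']
    simp [Pi.single_apply, Finset.sum_ite_eq']

/-- The vectors of the binary part. -/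
noncomputable def wB (m : ℕ) (α β : F) : (Fin m ⊕ Fin m) ⊕ Fin 2 → F := Pi.single (Sum.inr 0) α + Pi.single (Sum.inr 1) β

theorem wB_inl (α β : F) (k : Fin m ⊕ Fin m) : wB m α β (Sum.inl k) = 0 := by
  simp [wB]

theorem wB_0 (α β : F) : wB m α β (Sum.inr 0) = α := by
  simp [wB]

theorem wB_1 (α β : F) : wB m α β (Sum.inr 1) = β := by
  simp [wB]

theorem Q_wB (α β : F) : minusQF m a b (wB m α β) = α ^ 2 + a * α * β + b * β ^ 2 := by
  rw [minusQF_apply, Cfsg.quadFormMinus, wB_0, wB_1]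
  simp [wB_inl]

theorem polar_wB (α β : F) (z : (Fin m ⊕ Fin m) ⊕ Fin 2 → F) :
    QuadraticMap.polar (⇑(minusQF m a b)) (wB m α β) z = 2 * α * z (Sum.inr 0) + a * (α * z (Sum.inr 1) + β * z (Sum.inr 0)) + 2 * b * β * z (Sum.inr 1) := by
  show QuadraticMap.polar (Cfsg.quadFormMinus m F a b) _ _ = _
  rw [polar_minus_eq', wB_0, wB_1]
  simp [wB_inl]

theorem rr_wB (α β : F) (z : (Fin m ⊕ Fin m) ⊕ Fin 2 → F) :
    rr (minusQF m a b) (wB m α β) *ᵥ z = z - ((α ^ 2 + a * α * β + b * β ^ 2)⁻¹ * (2 * α * z (Sum.inr 0) + a * (α * z (Sum.inr 1) + β * z (Sum.inr 0)) + 2 * b * β * z (Sum.inr 1))) • wB m α β := by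
  rw [rr, reflection_mulVec, Q_wB, polar_wB]

theorem rr_bin_inl (α β : F) (x : (Fin m ⊕ Fin m) ⊕ Fin 2 → F) (k : Fin m ⊕ Fin m) :
    (rr (minusQF m a b) (wB m α β) *ᵥ (rr (minusQF m a b) (wB m 1 0) *ᵥ x)) (Sum.inl k) = x (Sum.inl k) := by
  rw [rr_wB, rr_wB]
  simp [wB_inl]

theorem rr_bin_0 {ε α β : F} (he : α ^ 2 + a * α * β + b * β ^ 2 = ε) (hε : ε ≠ 0) (x : (Fin m ⊕ Fin m) ⊕ Fin 2 → F) :
    ε * (rr (minusQF m a b) (wB m α β) *ᵥ (rr (minusQF m a b) (wB m 1 0) *ᵥ x)) (Sum.inr 0) =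
      α * (α * x (Sum.inr 0) - b * β * x (Sum.inr 1)) - b * β * (β * x (Sum.inr 0) + (α + a * β) * x (Sum.inr 1)) := by
  rw [rr_wB, rr_wB, he]
  simp only [Pi.sub_apply, Pi.smul_apply, smul_eq_mul, wB_0, wB_1]
  simp only [one_pow, mul_one, mul_zero, zero_pow (two_ne_zero), add_zero, inv_one, one_mul, zero_mul]
  field_simp
  rw [← he]
  ring

theorem rr_bin_1 {ε α β : F} (he : α ^ 2 + a * α * β + b * β ^ 2 = ε) (hε : ε ≠ 0) (x : (Fin m ⊕ Fin m) ⊕ Fin 2 → F) :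
    ε * (rr (minusQF m a b) (wB m α β) *ᵥ (rr (minusQF m a b) (wB m 1 0) *ᵥ x)) (Sum.inr 1) =
      β * (α * x (Sum.inr 0) - b * β * x (Sum.inr 1)) + (α + a * β) * (β * x (Sum.inr 0) + (α + a * β) * x (Sum.inr 1)) := by
  rw [rr_wB, rr_wB, he]
  simp only [Pi.sub_apply, Pi.smul_apply, smul_eq_mul, wB_0, wB_1]
  simp only [one_pow, mul_one, mul_zero, zero_pow (two_ne_zero), add_zero, inv_one, one_mul, zero_mul]
  field_simp
  rw [← he]
  ring

/-- The element attached to a non-square multiplier. -/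
theorem minus_key [Fintype F] (h2 : (2 : F) ≠ 0) [h : Good (minusQF m a b)] (hab : ∀ z₁ z₂ : F, z₁ ^ 2 + a * z₁ * z₂ + b * z₂ ^ 2 = 0 → z₁ = 0 ∧ z₂ = 0) {ε : F} (hε : ε ≠ 0) :
    ∃ (g : GL ((Fin m ⊕ Fin m) ⊕ Fin 2) F) (hg : g ∈ Sim (minusQF m a b)) (s : ↥(SOg (minusQF m a b))), KP (minusQF m a b) g ∧
      (∀ v, minusQF m a b ((g : Matrix _ _ F) *ᵥ v) = ε * minusQF m a b v) ∧ ((g * g : GL _ F) : Matrix _ _ F) = ε • oM s.1 ∧
      muO (hq_of_good (minusQF m a b)) s = sgnF (ε ^ (m + 1)) := by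
  obtain ⟨α, β, he⟩ := exists_bin_value hab hε
  have hsim := dlM_Q (m := m) he hε
  obtain ⟨vs, h1, h3, h4, h5⟩ := diag_levi_list (Q := minusQF m a b) (F := F) (fun j : Fin m => (Sum.inl (Sum.inl j) : (Fin m ⊕ Fin m) ⊕ Fin 2)) (fun j => Sum.inl (Sum.inr j))
    (Sum.elim (Sum.elim (fun j : Fin m => (j : ℕ)) (fun j : Fin m => (j : ℕ))) (fun _ : Fin 2 => m)) m (hypCoord_minus m a b) (fun j => rfl) (fun j => rfl)
    (by
      intro k j hj hk
      rcases k with (k | k) | k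
      · left
        congr 2
        exact Fin.ext hk
      · right
        congr 2
        exact Fin.ext hk
      · simp only [Sum.elim_inr] at hk
        omega) le_rfl hε (Sum.elim (Sum.elim (fun _ => ε) (fun _ => ε⁻¹)) (fun _ => 1)) (fun j => rfl) (fun j => rfl) m le_rfl
  have hq := hq_of_good (minusQF m a b)
  have hw : minusQF m a b (wB m α β) = ε := by rw [Q_wB, he]
  have hone : minusQF m a b (wB m (1 : F) 0) = 1 := by
    rw [Q_wB]
    simp
  have hl : ∀ v ∈ vs ++ [wB m α β, wB m 1 0], minusQF m a b v ≠ 0 := by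
    intro v hv
    simp only [List.mem_append, List.mem_cons, List.not_mem_nil, or_false] at hv
    rcases hv with hv | rfl | rfl
    · exact h1 v hv
    · rw [hw]
      exact hε
    · rw [hone]
      exact one_ne_zero
  have hnm : nm (minusQF m a b) (vs ++ [wB m α β, wB m 1 0]) = ε ^ (m + 1) := by
    have h6 : (vs.map (fun v => minusQF m a b v)).prod = ε ^ m := h5
    simp only [nm, List.map_append, List.map_cons, List.map_nil, List.prod_append, List.prod_cons, List.prod_nil, h6, hw, hone]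
    rw [pow_succ]
    ring
  have hinv : invHom h.nd hq (lp (minusQF m a b) (vs ++ [wB m α β, wB m 1 0])) = (1, sgnF (ε ^ (m + 1))) := by
    rw [invHom_lp h.nd hq hl, invL, hnm]
    have : Even (vs ++ [wB m α β, wB m 1 0]).length := by
      simp only [List.length_append, List.length_cons, List.length_nil, h4]
      exact ⟨m + 1, by ring⟩
    rw [this.neg_one_pow]
  have hmem : lp (minusQF m a b) (vs ++ [wB m α β, wB m 1 0]) ∈ SOg (minusQF m a b) := by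
    rw [mem_SOg_iff_fst h2 hq, hinv]
  obtain ⟨s0, hs0⟩ : ∃ s0 : ↥(SOg (minusQF m a b)), s0.1 = lp (minusQF m a b) (vs ++ [wB m α β, wB m 1 0]) := ⟨⟨_, hmem⟩, rfl⟩
  have hεu : (Units.mk0 ε hε : F) = ε := rfl
  refine ⟨dlM m a b ε α β he hε, ⟨Units.mk0 ε hε, hsim⟩, s0, Or.inl ⟨h2, ε, hsim, ?_⟩, hsim, ?_, ?_⟩
  · rw [dlM_det, card_JJ]
    congr 1
    omega
  · have e1 : oM s0.1 = OG.mat (lp (minusQF m a b) (vs ++ [wB m α β, wB m 1 0])) := by rw [← hs0]
    rw [e1, lp_mat hl]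
    simp only [List.map_append, List.map_cons, List.map_nil, List.prod_append, List.prod_cons, List.prod_nil, h3, mul_one]
    apply matrix_ext
    intro x
    rw [Units.val_mul, ← Matrix.mulVec_mulVec, Matrix.smul_mulVec, ← Matrix.mulVec_mulVec, ← Matrix.mulVec_mulVec]
    funext k
    rw [Pi.smul_apply, Matrix.mulVec_diagonal, smul_eq_mul]
    rcases k with (k | k) | k
    · have hk : ((k : Fin m) : ℕ) < m := k.2
      rw [dlM_ll, dlM_ll, rr_bin_inl]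
      simp [hk]
    · have hk : ((k : Fin m) : ℕ) < m := k.2
      rw [dlM_lr, dlM_lr, rr_bin_inl]
      simp [hk, hε]
    · have hk : ¬ (Sum.elim (Sum.elim (fun j : Fin m => (j : ℕ)) (fun j : Fin m => (j : ℕ))) (fun _ : Fin 2 => m)) (Sum.inr k : (Fin m ⊕ Fin m) ⊕ Fin 2) < m := by
        simp
      rw [if_neg hk, one_mul]
      rcases (show k = 0 ∨ k = 1 from by fin_cases k <;> simp) with rfl | rfl
      · rw [rr_bin_0 he hε x, dlM_r0, dlM_r0, dlM_r1]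
      · rw [rr_bin_1 he hε x, dlM_r1, dlM_r0, dlM_r1]
  · rw [muO_apply, hs0, hinv]

end minus

section final

variable [Fintype F] {m : ℕ}

theorem sgn_pow_nonsq {ε : F} (hε : ¬ IsSquare ε) (i : ℕ) : sgnF (ε ^ i) = (-1) ^ i := by
  have hε0 : ε ≠ 0 := by
    rintro rfl
    exact hε IsSquare.zero
  rw [sgnF_pow ε hε0, sgnF_of_not_sq hε]

theorem nonsq_ne {ε : F} (hε : ¬ IsSquare ε) : ε ≠ 0 := by
  rintro rfl
  exact hε IsSquare.zero

section plusFinal

theorem plus_pgo_pso (hodd : Odd (Fintype.card F)) (hm : 4 ≤ m) :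
    ∃ φ : ↥(Cfsg.pgoAut F (⇑(hypQF m F))) →* Multiplicative (ZMod 2 × ZMod 2), Function.Surjective φ ∧ φ.ker = (Cfsg.psoAut F (⇑(hypQF m F))).subgroupOf (Cfsg.pgoAut F (⇑(hypQF m F))) := by
  have h2 := two_ne_zero_of_odd (F := F) hodd
  have : Good (hypQF m F) := good_hyp hm
  exact pgo_mod_pso h2 (even_II m)

theorem plus_relIndex (hodd : Odd (Fintype.card F)) (hm : 4 ≤ m) :
    ((Odd m ∧ Fintype.card F % 4 = 3) → (Cfsg.Inn (PO (hypQF m F))).relIndex (Cfsg.psoAut F (⇑(hypQF m F))) = 1) ∧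
    (¬ (Odd m ∧ Fintype.card F % 4 = 3) → (Cfsg.Inn (PO (hypQF m F))).relIndex (Cfsg.psoAut F (⇑(hypQF m F))) = 2) := by
  have h2 := two_ne_zero_of_odd (F := F) hodd
  have : Good (hypQF m F) := good_hyp hm
  refine ⟨fun hc => relIndex_one h2 (even_II m) ?_, fun hc => relIndex_two h2 (even_II m) ((hneg_plus_iff h2 hm).2 hc)⟩
  rw [Ne, hneg_plus_iff h2 hm, not_not]
  exact hc

theorem plus_pgo_inn (hodd : Odd (Fintype.card F)) (hm : 4 ≤ m) :
    ((Odd m ∧ Fintype.card F % 4 = 3) → ∃ φ : ↥(Cfsg.pgoAut F (⇑(hypQF m F))) →* Multiplicative (ZMod 2 × ZMod 2), Function.Surjective φ ∧ φ.ker = (Cfsg.Inn (PO (hypQF m F))).subgroupOf (Cfsg.pgoAut F (⇑(hypQF m F)))) ∧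
    (¬ (Odd m ∧ Fintype.card F % 4 = 3) → ∃ φ : ↥(Cfsg.pgoAut F (⇑(hypQF m F))) →* DihedralGroup 4, Function.Surjective φ ∧ φ.ker = (Cfsg.Inn (PO (hypQF m F))).subgroupOf (Cfsg.pgoAut F (⇑(hypQF m F)))) := by
  have h2 := two_ne_zero_of_odd (F := F) hodd
  have : Good (hypQF m F) := good_hyp hm
  refine ⟨fun hc => pgo_mod_inn_v4 h2 (even_II m) ?_, fun hc => pgo_mod_inn_d8 h2 (even_II m) ((hneg_plus_iff h2 hm).2 hc)⟩
  rw [Ne, hneg_plus_iff h2 hm, not_not]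
  exact hc

theorem plus_gd (hodd : Odd (Fintype.card F)) (hm : 4 ≤ m) (hne : ∃ v : Fin m ⊕ Fin m → F, hypQF m F v ≠ 0) :
    ((Odd m ∧ Fintype.card F % 4 = 3) → ∃ φ : ↥(GD (even_II m) hne) →* Multiplicative (ZMod 2), Function.Surjective φ ∧ φ.ker = (Cfsg.Inn (PO (hypQF m F))).subgroupOf (GD (even_II m) hne)) ∧
    ((Odd m ∧ Fintype.card F % 4 = 1) → ∃ φ : ↥(GD (even_II m) hne) →* Multiplicative (ZMod 4), Function.Surjective φ ∧ φ.ker = (Cfsg.Inn (PO (hypQF m F))).subgroupOf (GD (even_II m) hne)) ∧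
    (Even m → ∃ φ : ↥(GD (even_II m) hne) →* Multiplicative (ZMod 2 × ZMod 2), Function.Surjective φ ∧ φ.ker = (Cfsg.Inn (PO (hypQF m F))).subgroupOf (GD (even_II m) hne)) := by
  have h2 := two_ne_zero_of_odd (F := F) hodd
  have : Good (hypQF m F) := good_hyp hm
  obtain ⟨ε, hε⟩ := exists_nonsq (F := F) h2
  obtain ⟨g, hg, s, hK, hsim, hs, hmu⟩ := plus_key h2 hm (nonsq_ne hε)
  rw [sgn_pow_nonsq hε] at hmu
  refine ⟨fun hc => gd_c2 h2 (even_II m) hne ?_, fun hc => ?_, fun hc => ?_⟩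
  · rw [Ne, hneg_plus_iff h2 hm, not_not]
    exact hc
  · have hneg := (hneg_plus_iff h2 hm).2 (fun h5 => by omega)
    exact gd_c4 h2 (even_II m) hne hneg hg hK (nonsq_ne hε) s hs (by rw [hmu, hc.1.neg_one_pow])
  · have hneg := (hneg_plus_iff h2 hm).2 (fun h5 => (Nat.not_even_iff_odd.2 h5.1) hc)
    exact gd_v4 h2 (even_II m) hne hneg hg hK hε hsim (nonsq_ne hε) s hs (by rw [hmu, hc.neg_one_pow])

theorem plus_inndiag (hodd : Odd (Fintype.card F)) (hm : 4 ≤ m) :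
    ((Odd m ∧ Fintype.card F % 4 = 3) → ∃ φ : ↥(Cfsg.inndiagPOmegaPlus m F : Subgroup (MulAut (PO (hypQF m F)))) →* Multiplicative (ZMod 2), Function.Surjective φ ∧ φ.ker = (Cfsg.Inn (PO (hypQF m F))).subgroupOf (Cfsg.inndiagPOmegaPlus m F : Subgroup (MulAut (PO (hypQF m F))))) ∧
    ((Odd m ∧ Fintype.card F % 4 = 1) → ∃ φ : ↥(Cfsg.inndiagPOmegaPlus m F : Subgroup (MulAut (PO (hypQF m F)))) →* Multiplicative (ZMod 4), Function.Surjective φ ∧ φ.ker = (Cfsg.Inn (PO (hypQF m F))).subgroupOf (Cfsg.inndiagPOmegaPlus m F : Subgroup (MulAut (PO (hypQF m F))))) ∧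
    (Even m → ∃ φ : ↥(Cfsg.inndiagPOmegaPlus m F : Subgroup (MulAut (PO (hypQF m F)))) →* Multiplicative (ZMod 2 × ZMod 2), Function.Surjective φ ∧ φ.ker = (Cfsg.Inn (PO (hypQF m F))).subgroupOf (Cfsg.inndiagPOmegaPlus m F : Subgroup (MulAut (PO (hypQF m F))))) := by
  have : Good (hypQF m F) := good_hyp hm
  have hne := ne_of_good (Q := hypQF m F)
  rw [inndiag_plus_eq (by omega) hne]
  exact plus_gd hodd hm hne

end plusFinal

section minusFinal

variable {a b : F}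

theorem minus_pgo_pso (hodd : Odd (Fintype.card F)) (hm : 3 ≤ m) (hab : ∀ z₁ z₂ : F, z₁ ^ 2 + a * z₁ * z₂ + b * z₂ ^ 2 = 0 → z₁ = 0 ∧ z₂ = 0) :
    ∃ φ : ↥(Cfsg.pgoAut F (⇑(minusQF m a b))) →* Multiplicative (ZMod 2 × ZMod 2), Function.Surjective φ ∧ φ.ker = (Cfsg.psoAut F (⇑(minusQF m a b))).subgroupOf (Cfsg.pgoAut F (⇑(minusQF m a b))) := by
  have h2 := two_ne_zero_of_odd (F := F) hodd
  have : Good (minusQF m a b) := good_minus hab hm
  exact pgo_mod_pso h2 (even_JJ m)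

theorem minus_relIndex (hodd : Odd (Fintype.card F)) (hm : 3 ≤ m) (hab : ∀ z₁ z₂ : F, z₁ ^ 2 + a * z₁ * z₂ + b * z₂ ^ 2 = 0 → z₁ = 0 ∧ z₂ = 0) :
    ((Even m ∧ Fintype.card F % 4 = 3) → (Cfsg.Inn (PO (minusQF m a b))).relIndex (Cfsg.psoAut F (⇑(minusQF m a b))) = 2) ∧
    (¬ (Even m ∧ Fintype.card F % 4 = 3) → (Cfsg.Inn (PO (minusQF m a b))).relIndex (Cfsg.psoAut F (⇑(minusQF m a b))) = 1) := by
  have h2 := two_ne_zero_of_odd (F := F) hodd
  have : Good (minusQF m a b) := good_minus hab hm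
  refine ⟨fun hc => relIndex_two h2 (even_JJ m) ((hneg_minus_iff h2 hab).2 hc), fun hc => relIndex_one h2 (even_JJ m) ?_⟩
  rw [Ne, hneg_minus_iff h2 hab]
  exact hc

theorem minus_pgo_inn (hodd : Odd (Fintype.card F)) (hm : 3 ≤ m) (hab : ∀ z₁ z₂ : F, z₁ ^ 2 + a * z₁ * z₂ + b * z₂ ^ 2 = 0 → z₁ = 0 ∧ z₂ = 0) :
    ((Even m ∧ Fintype.card F % 4 = 3) → ∃ φ : ↥(Cfsg.pgoAut F (⇑(minusQF m a b))) →* DihedralGroup 4, Function.Surjective φ ∧ φ.ker = (Cfsg.Inn (PO (minusQF m a b))).subgroupOf (Cfsg.pgoAut F (⇑(minusQF m a b)))) ∧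
    (¬ (Even m ∧ Fintype.card F % 4 = 3) → ∃ φ : ↥(Cfsg.pgoAut F (⇑(minusQF m a b))) →* Multiplicative (ZMod 2 × ZMod 2), Function.Surjective φ ∧ φ.ker = (Cfsg.Inn (PO (minusQF m a b))).subgroupOf (Cfsg.pgoAut F (⇑(minusQF m a b)))) := by
  have h2 := two_ne_zero_of_odd (F := F) hodd
  have : Good (minusQF m a b) := good_minus hab hm
  refine ⟨fun hc => pgo_mod_inn_d8 h2 (even_JJ m) ((hneg_minus_iff h2 hab).2 hc), fun hc => pgo_mod_inn_v4 h2 (even_JJ m) ?_⟩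
  rw [Ne, hneg_minus_iff h2 hab]
  exact hc

theorem minus_gd (hodd : Odd (Fintype.card F)) (hm : 3 ≤ m) (hab : ∀ z₁ z₂ : F, z₁ ^ 2 + a * z₁ * z₂ + b * z₂ ^ 2 = 0 → z₁ = 0 ∧ z₂ = 0) :
    ((Even m ∧ Fintype.card F % 4 = 3) → ∃ φ : ↥(GD (even_JJ m) (minus_ne a b)) →* Multiplicative (ZMod 4), Function.Surjective φ ∧ φ.ker = (Cfsg.Inn (PO (minusQF m a b))).subgroupOf (GD (even_JJ m) (minus_ne a b))) ∧
    (¬ (Even m ∧ Fintype.card F % 4 = 3) → ∃ φ : ↥(GD (even_JJ m) (minus_ne a b)) →* Multiplicative (ZMod 2), Function.Surjective φ ∧ φ.ker = (Cfsg.Inn (PO (minusQF m a b))).subgroupOf (GD (even_JJ m) (minus_ne a b))) := by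
  have h2 := two_ne_zero_of_odd (F := F) hodd
  have : Good (minusQF m a b) := good_minus hab hm
  obtain ⟨ε, hε⟩ := exists_nonsq (F := F) h2
  obtain ⟨g, hg, s, hK, hsim, hs, hmu⟩ := minus_key (m := m) h2 hab (nonsq_ne hε)
  rw [sgn_pow_nonsq hε] at hmu
  refine ⟨fun hc => ?_, fun hc => gd_c2 h2 (even_JJ m) _ ?_⟩
  · have hneg := (hneg_minus_iff h2 hab).2 hc
    exact gd_c4 h2 (even_JJ m) _ hneg hg hK (nonsq_ne hε) s hs (by rw [hmu, hc.1.add_one.neg_one_pow])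
  · rw [Ne, hneg_minus_iff h2 hab]
    exact hc

set_option maxHeartbeats 2000000 in
theorem minus_inndiag (hodd : Odd (Fintype.card F)) (hm : 3 ≤ m) (hab : ∀ z₁ z₂ : F, z₁ ^ 2 + a * z₁ * z₂ + b * z₂ ^ 2 = 0 → z₁ = 0 ∧ z₂ = 0) :
    ((Even m ∧ Fintype.card F % 4 = 3) → ∃ φ : ↥(Cfsg.inndiagPOmegaMinus m F a b : Subgroup (MulAut (PO (minusQF m a b)))) →* Multiplicative (ZMod 4), Function.Surjective φ ∧ φ.ker = (Cfsg.Inn (PO (minusQF m a b))).subgroupOf (Cfsg.inndiagPOmegaMinus m F a b : Subgroup (MulAut (PO (minusQF m a b))))) ∧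
    (¬ (Even m ∧ Fintype.card F % 4 = 3) → ∃ φ : ↥(Cfsg.inndiagPOmegaMinus m F a b : Subgroup (MulAut (PO (minusQF m a b)))) →* Multiplicative (ZMod 2), Function.Surjective φ ∧ φ.ker = (Cfsg.Inn (PO (minusQF m a b))).subgroupOf (Cfsg.inndiagPOmegaMinus m F a b : Subgroup (MulAut (PO (minusQF m a b))))) := by
  have e := inndiag_minus_eq hab (m := m) (by omega)
  rw [e]
  exact minus_gd hodd hm hab

end minusFinal

end final

end Cfsg.Agent.Lib.AutPOm
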