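import Cfsg.Agent.Lib.AutPOm.EvenInv

/-! The inner-diagonal group modulo the inner automorphisms, in even dimension and odd characteristic. -/

set_option autoImplicit false
set_option linter.unusedSimpArgs false
set_option linter.unusedVariables false
set_option linter.unusedSectionVars false

namespace Cfsg.Agent.Lib.AutPOm

open Matrix Module MulAction Cfsg.Agent.Lib.Classical
open Cfsg.Agent.Lib.AutPSL (sm sm_add sm_smul sm_symm_sm sm_sm_symm glMap glMap_coe semi_vec_ne_zero map_mulVec_sm coe_scalar_mul glMap_one)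
open Cfsg.Agent.Lib.ClassMax.OmegaCore (mem_iso_iff)
open Cfsg.Agent.Lib.Spinor (ndf rr rO lp nm invHom invHom_lp invL omega_eq_ker_invHom sgnF sgnF_of_sq sgnF_of_not_sq sgnF_eq_one_iff sgnF_mul exists_lp lp_mat lp_cons lp_nil rO_mat matrix_ext det_list_prod sq_mul_of_not_sq OG.mat lp_mem_omega_iff)
open Cfsg.Agent.Lib.Quad (NondegQ)
open scoped LinearAlgebra.Projectivization MatrixGroups

variable {F : Type*} [Field F] {ι : Type} [Fintype ι] [DecidableEq ι] {Q : QuadraticForm F (ι → F)}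

local notation "VV" => (ι → F)
local notation "MM" => Matrix ι ι F
local notation "GG" => GL ι F

section gd

variable [Fintype F] [h : Good Q]

omit [Fintype F] h in
theorem GD_le_pgo (he : Even (Fintype.card ι)) (hne : ∃ v : VV, Q v ≠ 0) : GD he hne ≤ Cfsg.pgoAut F (⇑Q) := by
  rw [pgoAut_eq_range]
  rintro _ ⟨g, rfl⟩
  exact ⟨⟨g.1, g.2.1⟩, rfl⟩

omit h in
theorem KP_so (h2 : (2 : F) ≠ 0) (s : ↥(SOg Q)) : KP Q s.1.1 := by
  refine Or.inl ⟨h2, 1, fun v => ?_, ?_⟩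
  · rw [one_mul]
    exact oM_Q s.1 v
  · rw [one_pow]
    exact (mem_SOg_iff _).1 s.2

omit h in
theorem pso_le_GD (h2 : (2 : F) ≠ 0) (he : Even (Fintype.card ι)) (hne : ∃ v : VV, Q v ≠ 0) : Cfsg.psoAut F (⇑Q) ≤ GD he hne := by
  rw [psoAut_eq_range]
  rintro _ ⟨s, rfl⟩
  exact mem_GD.2 ⟨s.1.1, og_le_sim s.1.2, KP_so h2 s, rfl⟩

/-- The element of the inner-diagonal group attached to a similarity. -/
theorem index_pso_GD (h2 : (2 : F) ≠ 0) (he : Even (Fintype.card ι)) (hne : ∃ v : VV, Q v ≠ 0) :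
    ((Cfsg.psoAut F (⇑Q)).subgroupOf (GD he hne)).index = 2 := by
  let μ : ↥(GD he hne) →* ℤˣ := (MonoidHom.fst ℤˣ ℤˣ).comp ((LamP he hne).comp (Subgroup.inclusion (GD_le_pgo he hne)))
  have hμ : ∀ (g : GG) (hg : g ∈ Sim Q) (hK : KP Q g), μ ⟨simAut ⟨g, hg⟩, mem_GD.2 ⟨g, hg, hK, rfl⟩⟩ = (Lam he hne ⟨g, hg⟩).1 := by
    intro g hg hK
    show (LamP he hne (simPgo ⟨g, hg⟩)).1 = _
    rw [LamP_simPgo]
  have hs : Function.Surjective μ := by
    intro a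
    rcases Int.units_eq_one_or a with rfl | rfl
    · exact ⟨1, map_one _⟩
    · obtain ⟨g, ε, hε, hg, hL⟩ := exists_delta (Q := Q) h2 he hne
      have hK : KP Q g.1 := (kapS_eq_one_iff he hne g).1 (congrArg Prod.snd hL)
      refine ⟨⟨simAut ⟨g.1, g.2⟩, mem_GD.2 ⟨g.1, g.2, hK, rfl⟩⟩, ?_⟩
      rw [hμ g.1 g.2 hK]
      exact congrArg Prod.fst hL
  have hk : μ.ker = (Cfsg.psoAut F (⇑Q)).subgroupOf (GD he hne) := by
    ext ⟨x, hx⟩
    obtain ⟨g, hg, hK, rfl⟩ := mem_GD.1 hx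
    rw [MonoidHom.mem_ker, Subgroup.mem_subgroupOf]
    have e1 := hμ g hg hK
    have e2 := simAut_mem_pso_iff (Q := Q) h2 he hne ⟨g, hg⟩
    have hsnd : (Lam he hne ⟨g, hg⟩).2 = 1 := (kapS_eq_one_iff he hne ⟨g, hg⟩).2 hK
    constructor
    · intro h3
      refine e2.2 (Prod.ext ?_ hsnd)
      rw [← e1]
      exact h3
    · intro h3
      have h4 := e2.1 h3
      show μ ⟨simAut ⟨g, hg⟩, _⟩ = 1
      rw [e1, h4]
      rfl
  rw [← hk, index_ker_surj μ hs, card_units_int]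

/-- The case of order two. -/
theorem gd_c2 (h2 : (2 : F) ≠ 0) (he : Even (Fintype.card ι)) (hne : ∃ v : VV, Q v ≠ 0) (hneg : muO (hq_of_good Q) (negS (Q := Q) he) ≠ 1) :
    ∃ φ : ↥(GD he hne) →* Multiplicative (ZMod 2), Function.Surjective φ ∧ φ.ker = (Cfsg.Inn (PO Q)).subgroupOf (GD he hne) := by
  have e : Cfsg.Inn (PO Q) = Cfsg.psoAut F (⇑Q) := le_antisymm (inn_le_pso h2) (pso_le_inn h2 he hneg)
  rw [e]
  exact hom_c2 _ (index_pso_GD h2 he hne)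

theorem index_inn_GD (h2 : (2 : F) ≠ 0) (he : Even (Fintype.card ι)) (hne : ∃ v : VV, Q v ≠ 0) (hneg : muO (hq_of_good Q) (negS (Q := Q) he) = 1) :
    ((Cfsg.Inn (PO Q)).subgroupOf (GD he hne)).index = 4 := by
  have h3 : (Cfsg.Inn (PO Q)).subgroupOf (GD he hne) ≤ (Cfsg.psoAut F (⇑Q)).subgroupOf (GD he hne) :=
    fun x hx => Subgroup.mem_subgroupOf.2 (inn_le_pso h2 (Subgroup.mem_subgroupOf.1 hx))
  rw [← Subgroup.relIndex_mul_index h3, index_pso_GD h2 he hne, Subgroup.relIndex_subgroupOf (pso_le_GD h2 he hne), relIndex_two h2 he hneg]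

/-- The key element: a similarity preserving the classes with non-square multiplier and the isometry attached to its square. -/
theorem sq_simAut {g : GG} (hg : g ∈ Sim Q) {t : F} (ht : t ≠ 0) (s : ↥(SOg Q)) (hs : ((g * g : GG) : MM) = t • oM s.1) :
    simAut ⟨g, hg⟩ * simAut ⟨g, hg⟩ = soAut s := by
  rw [← map_mul]
  exact psemiO_smul_eq _ _ _ hs ht

theorem gd_c4 (h2 : (2 : F) ≠ 0) (he : Even (Fintype.card ι)) (hne : ∃ v : VV, Q v ≠ 0) (hneg : muO (hq_of_good Q) (negS (Q := Q) he) = 1)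
    {g : GG} (hg : g ∈ Sim Q) (hK : KP Q g) {t : F} (ht : t ≠ 0) (s : ↥(SOg Q)) (hs : ((g * g : GG) : MM) = t • oM s.1) (hmu : muO (hq_of_good Q) s = -1) :
    ∃ φ : ↥(GD he hne) →* Multiplicative (ZMod 4), Function.Surjective φ ∧ φ.ker = (Cfsg.Inn (PO Q)).subgroupOf (GD he hne) := by
  refine hom_c4 _ (index_inn_GD h2 he hne hneg) (y := ⟨simAut ⟨g, hg⟩, mem_GD.2 ⟨g, hg, hK, rfl⟩⟩) ?_
  intro hin
  have h3 := Subgroup.mem_subgroupOf.1 hin
  have h4 : simAut ⟨g, hg⟩ * simAut ⟨g, hg⟩ ∈ Cfsg.Inn (PO Q) := h3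
  rw [sq_simAut hg ht s hs, soAut_mem_inn_iff h2 he hneg, hmu] at h4
  exact absurd h4 (by decide)

theorem gd_v4 (h2 : (2 : F) ≠ 0) (he : Even (Fintype.card ι)) (hne : ∃ v : VV, Q v ≠ 0) (hneg : muO (hq_of_good Q) (negS (Q := Q) he) = 1)
    {g : GG} (hg : g ∈ Sim Q) (hK : KP Q g) {ε : F} (hε : ¬ IsSquare ε) (hm : ∀ v : VV, Q ((g : MM) *ᵥ v) = ε * Q v) {t : F} (ht : t ≠ 0) (s : ↥(SOg Q)) (hs : ((g * g : GG) : MM) = t • oM s.1) (hmu : muO (hq_of_good Q) s = 1) :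
    ∃ φ : ↥(GD he hne) →* Multiplicative (ZMod 2 × ZMod 2), Function.Surjective φ ∧ φ.ker = (Cfsg.Inn (PO Q)).subgroupOf (GD he hne) := by
  refine hom_v4 _ (index_inn_GD h2 he hne hneg) (squares_of_index_four _ ((Cfsg.psoAut F (⇑Q)).subgroupOf (GD he hne)) (index_inn_GD h2 he hne hneg)
    (fun x hx => Subgroup.mem_subgroupOf.2 (inn_le_pso h2 (Subgroup.mem_subgroupOf.1 hx))) (index_pso_GD h2 he hne) ?_
    (y := ⟨simAut ⟨g, hg⟩, mem_GD.2 ⟨g, hg, hK, rfl⟩⟩) ?_ ?_)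
  · rintro ⟨x, hx⟩ hxp
    have h3 : x ∈ Cfsg.psoAut F (⇑Q) := Subgroup.mem_subgroupOf.1 hxp
    rw [psoAut_eq_range] at h3
    obtain ⟨s', rfl⟩ := h3
    apply Subgroup.mem_subgroupOf.2
    show soAut s' * soAut s' ∈ _
    rw [← map_mul, soAut_mem_inn_iff h2 he hneg, map_mul]
    exact Int.units_mul_self _
  · intro hy
    have h3 : simAut ⟨g, hg⟩ ∈ Cfsg.psoAut F (⇑Q) := Subgroup.mem_subgroupOf.1 hy
    rw [simAut_mem_pso_iff h2 he hne] at h3
    have h4 := congrArg Prod.fst h3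
    rw [Lam_fst, simMu_eq hne ⟨g, hg⟩ hm, sgnF_of_not_sq hε] at h4
    exact absurd h4 (by decide)
  · apply Subgroup.mem_subgroupOf.2
    show simAut ⟨g, hg⟩ * simAut ⟨g, hg⟩ ∈ _
    rw [sq_simAut hg ht s hs, soAut_mem_inn_iff h2 he hneg]
    exact hmu

end gd

end Cfsg.Agent.Lib.AutPOm
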