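import Cfsg.Agent.Lib.AutPOm.GfIndex

/-! The centraliser of a standard field automorphism of index two, and the number of classes. -/

set_option autoImplicit false
set_option linter.unusedSimpArgs false
set_option linter.unusedVariables false
set_option linter.unusedSectionVars false

namespace Cfsg.Agent.Lib.AutPOm

open Matrix Module MulAction Cfsg.Agent.Lib.Classical
open Cfsg.Agent.Lib.AutPSL (sm sm_apply sm_add sm_smul sm_symm_sm sm_sm_symm glMap glMap_coe semi_vec_ne_zero map_mulVec_sm coe_scalar_mul glMap_one exists_hom_of_rel exists_gal_equiv card_gal orderOf_conj' nrm isConjUnder_equiv)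
open Cfsg.Agent.Lib.ClassMax.OmegaCore (IsMaxTS imgOf mem_imgOf finrank_imgOf imgOf_mul imgOf_one imgOf_inf par_triple mem_iso_iff)
open Cfsg.Agent.Lib.Spinor (ndf rr rO lp nm U0 U0_maxTS mem_U0 finrank_U0 plusQF_nondeg rO_mat rO_inv matrix_ext lp_mat OG.mat exists_lp sgnF sgnF_of_sq sgnF_of_not_sq sgnF_eq_one_iff sgnF_mul sq_mul_of_not_sq invHom invHom_lp invL lp_cons lp_nil)
open Cfsg.Agent.Lib.Quad (NondegQ minusQF minusQF_apply plusQF plusQF_apply coe_plusQF exists_type_gen finrank_le_of_minus_singular anisotropic_of_zeta)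
open Cfsg.Agent.Lib.FieldAut (fixedField mem_fixedField)
open Cfsg.Agent.Lib.AutPSp (descent_gen)
open scoped LinearAlgebra.Projectivization MatrixGroups

section abs

theorem sup_eq_of_relIndex_two {G : Type*} [Group G] {T P C : Subgroup G} (hTP : T ≤ P) (hCP : C ≤ P) (h2 : T.relIndex P = 2) (hne : ¬ C ≤ T) : T ⊔ C = P := by
  have hTS : T ≤ T ⊔ C := le_sup_left
  have hSP : T ⊔ C ≤ P := sup_le hTP hCP
  have h3 := Subgroup.relIndex_mul_relIndex T (T ⊔ C) P hTS hSP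
  rw [h2] at h3
  have h4 : T.relIndex (T ⊔ C) ≠ 1 := by
    intro h5
    rw [Subgroup.relIndex_eq_one] at h5
    exact hne (le_trans le_sup_right h5)
  have h5 : (T ⊔ C).relIndex P = 1 := by
    have h6 := Nat.prime_two.eq_one_or_self_of_dvd _ (Dvd.intro _ h3)
    rcases h6 with h6 | h6
    · exact absurd h6 h4
    · rw [h6] at h3
      omega
  rw [Subgroup.relIndex_eq_one] at h5
  exact le_antisymm hSP h5

end abs

section gen

variable {F K : Type*} [Field F] [Field K] {ι : Type} [Fintype ι] [DecidableEq ι] {Q : QuadraticForm F (ι → F)} {Q₀ : QuadraticForm K (ι → K)}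

local notation "VV" => (ι → F)
local notation "MM" => Matrix ι ι F
local notation "GG" => GL ι F

variable [Fintype F] [Fintype K] [hF : Good Q] [hK : Good Q₀]

/-- The elements of the inner-diagonal group commuting with the standard field automorphism come from the fixed field. -/
theorem cent_mem {σ : F ≃+* F} (φ : K →+* F) (hφ : ∀ a, σ a = a → ∃ b, φ b = a) (hσ : ∀ v : VV, Q (sm σ v) = σ (Q v)) (hQ₀ : ∀ v, φ (Q₀ v) = Q (bc φ v))
    (he : Even (Fintype.card ι)) (hne : ∃ v : VV, Q v ≠ 0) (hne₀ : ∃ v, Q₀ v ≠ 0) {r : ℕ} (hr0 : 0 < r) (hr : orderOf σ = r)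
    {δ : MulAut (PO Q)} (hδ : δ ∈ GD he hne) (hc : δ ∈ Subgroup.centralizer {psemiO 1 σ (semi_std hσ)}) :
    ∃ (g₀ : GL ι K) (hg₀ : g₀ ∈ Sim Q₀), KP Q₀ g₀ ∧ δ = psemiO (Matrix.GeneralLinearGroup.map φ g₀) (RingEquiv.refl F) (semi_of_sim (map_mem_sim φ hQ₀ hg₀)) := by
  obtain ⟨g, hg, hK', rfl⟩ := mem_GD.1 hδ
  rw [comm_field_iff hσ] at hc
  obtain ⟨c, hc0, hc⟩ := hc
  have : Nontrivial ι := Fintype.one_lt_card_iff_nontrivial.1 (by have := hF.big; omega)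
  obtain ⟨b, g₀, hb⟩ := descent_gen σ φ hφ hr0 hr hc0 hc
  have hmap : Matrix.GeneralLinearGroup.map φ g₀ ∈ Sim Q := by
    have := Subgroup.mul_mem _ (sim_scalar (Q := Q) b⁻¹) hg
    rwa [hb, ← mul_assoc, ← map_mul, inv_mul_cancel, map_one, one_mul] at this
  have hKm : KP Q (Matrix.GeneralLinearGroup.map φ g₀) := by
    have := KP_mul (KP_scalar (Q := Q) he b⁻¹) hK'
    rwa [hb, ← mul_assoc, ← map_mul, inv_mul_cancel, map_one, one_mul] at this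
  have hg₀ : g₀ ∈ Sim Q₀ := mem_sim_of_map φ hQ₀ hne₀ hmap
  refine ⟨g₀, hg₀, KP_of_map φ hQ₀ he hF.nd (hq_of_good Q) hK.nd (hq_of_good Q₀) hne₀ hg₀ hKm, ?_⟩
  exact psemiO_smul_eq (RingEquiv.refl F) _ _ (c := (b : F)) (by rw [hb, coe_scalar_mul]) b.ne_zero

theorem map_comm {σ : F ≃+* F} (φ : K →+* F) (hφ' : ∀ b, σ (φ b) = φ b) (hσ : ∀ v : VV, Q (sm σ v) = σ (Q v)) (hQ₀ : ∀ v, φ (Q₀ v) = Q (bc φ v)) {g₀ : GL ι K} (hg₀ : g₀ ∈ Sim Q₀) :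
    psemiO (Matrix.GeneralLinearGroup.map φ g₀) (RingEquiv.refl F) (semi_of_sim (map_mem_sim φ hQ₀ hg₀)) ∈ Subgroup.centralizer {psemiO 1 σ (semi_std hσ)} := by
  rw [comm_field_iff hσ]
  refine ⟨1, one_ne_zero, ?_⟩
  rw [one_smul]
  ext i j
  exact (hφ' _).symm

theorem map_mem_GD (φ : K →+* F) (hQ₀ : ∀ v, φ (Q₀ v) = Q (bc φ v)) (he : Even (Fintype.card ι)) (hne : ∃ v : VV, Q v ≠ 0) {g₀ : GL ι K} (hg₀ : g₀ ∈ Sim Q₀) (hK' : KP Q₀ g₀) :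
    psemiO (Matrix.GeneralLinearGroup.map φ g₀) (RingEquiv.refl F) (semi_of_sim (map_mem_sim φ hQ₀ hg₀)) ∈ GD he hne :=
  mem_GD.2 ⟨_, map_mem_sim φ hQ₀ hg₀, KP_map φ hQ₀ hK', rfl⟩

/-- Elements from the fixed field lie in the image of the special orthogonal group. -/
theorem map_mem_pso (h2 : (2 : F) ≠ 0) (φ : K →+* F) (hQ₀ : ∀ v, φ (Q₀ v) = Q (bc φ v)) (he : Even (Fintype.card ι)) (hne : ∃ v : VV, Q v ≠ 0) (hsq : ∀ a : K, IsSquare (φ a))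
    {g₀ : GL ι K} (hg₀ : g₀ ∈ Sim Q₀) (hK' : KP Q₀ g₀) :
    psemiO (Matrix.GeneralLinearGroup.map φ g₀) (RingEquiv.refl F) (semi_of_sim (map_mem_sim φ hQ₀ hg₀)) ∈ Cfsg.psoAut F (⇑Q) := by
  have hm := map_mem_sim φ hQ₀ hg₀
  have e := simAut_mem_pso_iff (Q := Q) h2 he hne ⟨_, hm⟩
  rw [simAut_apply] at e
  refine e.2 (Prod.ext ?_ ((kapS_eq_one_iff he hne _).2 (KP_map φ hQ₀ hK')))
  obtain ⟨c, hc⟩ := hg₀
  rw [Lam_fst, simMu_eq hne ⟨_, hm⟩ (sim_descent φ hQ₀ hQ₀ g₀ c hc)]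
  exact sgnF_of_sq (hsq _)

/-- The image of minus one has trivial spinor norm. -/
theorem hneg_of_sq (h2 : (2 : F) ≠ 0) (φ : K →+* F) (hQ₀ : ∀ v, φ (Q₀ v) = Q (bc φ v)) (he : Even (Fintype.card ι)) (hsq : ∀ a : K, IsSquare (φ a)) :
    muO (hq_of_good Q) (negS (Q := Q) he) = 1 := by
  rw [muO_neg_iff h2 he]
  have e : Matrix.of (fun i j : ι => QuadraticMap.polar (⇑Q) (Pi.single i 1) (Pi.single j 1)) = (Matrix.of (fun i j : ι => QuadraticMap.polar (⇑Q₀) (Pi.single i 1) (Pi.single j 1))).map φ := by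
    ext i j
    show _ = φ (QuadraticMap.polar (⇑Q₀) (Pi.single i 1) (Pi.single j 1))
    rw [polar_comp_bc φ Q₀ Q hQ₀, bc_single, bc_single]
    rfl
  have h3 := RingHom.map_det φ (Matrix.of (fun i j : ι => QuadraticMap.polar (⇑Q₀) (Pi.single i 1) (Pi.single j 1)))
  rw [RingHom.mapMatrix_apply] at h3
  rw [e, ← h3]
  exact hsq _

/-- Elements with a square multiplier over the fixed field give inner automorphisms. -/
theorem map_mem_inn (h2 : (2 : F) ≠ 0) (he' : Even (Fintype.card ι)) (φ : K →+* F) (hQ₀ : ∀ v, φ (Q₀ v) = Q (bc φ v)) (hne₀ : ∃ v, Q₀ v ≠ 0) (hsq : ∀ a : K, IsSquare (φ a))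
    {g₀ : GL ι K} (hg₀ : g₀ ∈ Sim Q₀) (hK' : KP Q₀ g₀) {e : K} (he0 : e ≠ 0) (hc : ∀ v, Q₀ ((g₀ : Matrix ι ι K) *ᵥ v) = (e * e) * Q₀ v) :
    psemiO (Matrix.GeneralLinearGroup.map φ g₀) (RingEquiv.refl F) (semi_of_sim (map_mem_sim φ hQ₀ hg₀)) ∈ Cfsg.Inn (PO Q) := by
  have h2₀ : (2 : K) ≠ 0 := fun h0 => h2 ((two_iff φ hQ₀).1 h0)
  obtain ⟨eu, heu⟩ : ∃ eu : Kˣ, (eu : K) = e := ⟨Units.mk0 e he0, rfl⟩
  obtain ⟨s₀, hs₀⟩ : ∃ s₀ : GL ι K, s₀ = Matrix.GeneralLinearGroup.scalar ι eu⁻¹ * g₀ := ⟨_, rfl⟩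
  have hs₀c : (s₀ : Matrix ι ι K) = (eu⁻¹ : Kˣ).1 • (g₀ : Matrix ι ι K) := by
    rw [hs₀, coe_scalar_mul]
  have hiso : ∀ v, Q₀ ((s₀ : Matrix ι ι K) *ᵥ v) = Q₀ v := by
    intro v
    rw [hs₀c, Matrix.smul_mulVec, QuadraticMap.map_smul, hc, smul_eq_mul]
    simp only [Units.val_inv_eq_inv_val, heu]
    field_simp
  have hsK : KP Q₀ s₀ := by
    rw [hs₀]
    exact KP_mul (KP_scalar he' _) hK'
  have hdet : (s₀ : Matrix ι ι K).det = 1 := by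
    obtain ⟨c', hc', hd⟩ := KP_odd h2₀ hsK
    obtain ⟨v₀, hv₀⟩ := hne₀
    have h1 : c' = 1 := by
      have h3 := hc' v₀
      rw [hiso] at h3
      exact (mul_right_cancel₀ hv₀ (by rw [one_mul]; exact h3)).symm
    rw [hd, h1, one_pow]
  have hmem : s₀ ∈ Cfsg.isometryGroup K (⇑Q₀) := (mem_iso_iff _).2 hiso
  obtain ⟨vs, hvs, hel⟩ := exists_lp hK.nd (hq_of_good Q₀) (⟨s₀, hmem⟩ : OG Q₀)
  have hiso' : ∀ v, Q (((Matrix.GeneralLinearGroup.map φ s₀ : GL ι F) : Matrix ι ι F) *ᵥ v) = Q v := by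
    intro v
    have := sim_descent φ hQ₀ hQ₀ s₀ 1 (fun u => by rw [one_mul]; exact hiso u) v
    rwa [map_one, one_mul] at this
  have hmem' : Matrix.GeneralLinearGroup.map φ s₀ ∈ Cfsg.isometryGroup F (⇑Q) := (mem_iso_iff _).2 hiso'
  have hdet' : (OG.mat (⟨_, hmem'⟩ : OG Q)).det = 1 := by
    show ((s₀ : Matrix ι ι K).map φ).det = 1
    rw [← RingHom.mapMatrix_apply, ← RingHom.map_det, hdet, map_one]
  have hmemS : (⟨_, hmem'⟩ : OG Q) ∈ SOg Q := (mem_SOg_iff _).2 hdet'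
  have hvs' : ∀ v ∈ vs.map (bc φ), Q v ≠ 0 := by
    intro v hv1
    obtain ⟨w, hw, rfl⟩ := List.mem_map.1 hv1
    rw [← hQ₀]
    simpa using hvs w hw
  have hs1 : (⟨⟨_, hmem'⟩, hmemS⟩ : ↥(SOg Q)).1 = lp Q (vs.map (bc φ)) := by
    apply Cfsg.Agent.Lib.Spinor.OG.ext'
    rw [lp_bc_mat φ hQ₀ hvs, ← hel]
    rfl
  have hμ : muO (hq_of_good Q) (⟨⟨_, hmem'⟩, hmemS⟩ : ↥(SOg Q)) = 1 := by
    rw [muO_lp (hq_of_good Q) _ hvs' hs1, nm_bc φ hQ₀]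
    exact sgnF_of_sq (hsq _)
  have h3 := mem_inn_of_mu h2 (hq_of_good Q) _ hμ
  rw [soAut_apply] at h3
  convert h3 using 1
  have hφe : φ (eu : K) ≠ 0 := by simpa using eu.ne_zero
  refine psemiO_smul_eq _ _ _ (c := φ (eu : K)) ?_ hφe
  have h4 : (g₀ : Matrix ι ι K) = (eu : K) • (s₀ : Matrix ι ι K) := by
    rw [hs₀c, smul_smul]
    simp
  show (g₀ : Matrix ι ι K).map φ = φ (eu : K) • (s₀ : Matrix ι ι K).map φ
  rw [h4]
  ext i j
  simp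

/-- All the centraliser is inner as soon as one element with non-square multiplier is. -/
theorem cent_le_inn_of (h2 : (2 : F) ≠ 0) (he' : Even (Fintype.card ι)) (φ : K →+* F) (hQ₀ : ∀ v, φ (Q₀ v) = Q (bc φ v)) (hne₀ : ∃ v, Q₀ v ≠ 0) (hsq : ∀ a : K, IsSquare (φ a))
    {g₁ : GL ι K} (hg₁ : g₁ ∈ Sim Q₀) (hK₁ : KP Q₀ g₁) {ε : K} (hε : ¬ IsSquare ε) (hm₁ : ∀ v, Q₀ ((g₁ : Matrix ι ι K) *ᵥ v) = ε * Q₀ v)
    (hin : psemiO (Matrix.GeneralLinearGroup.map φ g₁) (RingEquiv.refl F) (semi_of_sim (map_mem_sim φ hQ₀ hg₁)) ∈ Cfsg.Inn (PO Q))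
    {g₀ : GL ι K} (hg₀ : g₀ ∈ Sim Q₀) (hK' : KP Q₀ g₀) :
    psemiO (Matrix.GeneralLinearGroup.map φ g₀) (RingEquiv.refl F) (semi_of_sim (map_mem_sim φ hQ₀ hg₀)) ∈ Cfsg.Inn (PO Q) := by
  have hne₀' := hne₀
  obtain ⟨v₀, hv₀⟩ := hne₀
  have hε0 : ε ≠ 0 := by
    rintro rfl
    exact hε IsSquare.zero
  obtain ⟨cu, hcu⟩ := id hg₀
  have hc0 : (cu : K) ≠ 0 := cu.ne_zero
  by_cases hsqc : IsSquare (cu : K)
  · obtain ⟨e, he⟩ := hsqc
    have he0 : e ≠ 0 := by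
      rintro rfl
      rw [mul_zero] at he
      exact hc0 he
    exact map_mem_inn h2 he' φ hQ₀ ⟨v₀, hv₀⟩ hsq hg₀ hK' he0 (fun v => by rw [hcu, he])
  · obtain ⟨e, he⟩ := sq_mul_of_not_sq hε hsqc
    have he0 : e ≠ 0 := by
      rintro rfl
      rw [mul_zero] at he
      exact (mul_ne_zero hε0 hc0) he
    have hg₂ : g₁⁻¹ * g₀ ∈ Sim Q₀ := Subgroup.mul_mem _ (Subgroup.inv_mem _ hg₁) hg₀
    have hne₂ : ∃ v, Q₀ v ≠ 0 := ⟨v₀, hv₀⟩
    have hK₂ : KP Q₀ (g₁⁻¹ * g₀) := KP_mul (KP_inv hne₂ hK₁) hK'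
    have hm₂ : ∀ v, Q₀ (((g₁⁻¹ * g₀ : GL ι K) : Matrix ι ι K) *ᵥ v) = ((e / ε) * (e / ε)) * Q₀ v := by
      intro v
      have h3 := hm₁ (((g₁⁻¹ * g₀ : GL ι K) : Matrix ι ι K) *ᵥ v)
      have h4 : (g₁ : Matrix ι ι K) *ᵥ (((g₁⁻¹ * g₀ : GL ι K) : Matrix ι ι K) *ᵥ v) = (g₀ : Matrix ι ι K) *ᵥ v := by
        rw [Units.val_mul, ← Matrix.mulVec_mulVec, gl_mul_inv]
      rw [h4, hcu] at h3
      have h5 : Q₀ (((g₁⁻¹ * g₀ : GL ι K) : Matrix ι ι K) *ᵥ v) = (cu : K) * Q₀ v / ε := by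
        rw [h3]
        field_simp
      rw [h5]
      field_simp
      linear_combination (Q₀ v) * he
    have h3 := map_mem_inn h2 he' φ hQ₀ hne₂ hsq hg₂ hK₂ (div_ne_zero he0 hε0) hm₂
    have e1 : psemiO (Matrix.GeneralLinearGroup.map φ g₀) (RingEquiv.refl F) (semi_of_sim (map_mem_sim φ hQ₀ hg₀)) =
        psemiO (Matrix.GeneralLinearGroup.map φ g₁) (RingEquiv.refl F) (semi_of_sim (map_mem_sim φ hQ₀ hg₁)) *
        psemiO (Matrix.GeneralLinearGroup.map φ (g₁⁻¹ * g₀)) (RingEquiv.refl F) (semi_of_sim (map_mem_sim φ hQ₀ hg₂)) := by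
      rw [psemiO_refl_mul (semi_of_sim (map_mem_sim φ hQ₀ hg₁)) (semi_of_sim (map_mem_sim φ hQ₀ hg₂)) (semi_of_sim (Subgroup.mul_mem _ (map_mem_sim φ hQ₀ hg₁) (map_mem_sim φ hQ₀ hg₂)))]
      exact psemiO_congr (by rw [map_mul, map_inv, mul_inv_cancel_left]) rfl
    rw [e1]
    exact Subgroup.mul_mem _ hin h3

/-- The count when the centraliser is inner. -/
theorem split_four (h2 : (2 : F) ≠ 0) (he : Even (Fintype.card ι)) (hne : ∃ v : VV, Q v ≠ 0) (hneg : muO (hq_of_good Q) (negS (Q := Q) he) = 1) (X : MulAut (PO Q))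
    (hC : ∀ δ ∈ GD he hne, δ ∈ Subgroup.centralizer {X} → δ ∈ Cfsg.Inn (PO Q)) : Cfsg.splitClassCount (GD he hne) (Cfsg.Inn (PO Q)) X = 4 := by
  have hI : (Cfsg.Inn (PO Q)).Normal := Cfsg.innNormal _
  rw [split_index _ _ (inn_le_GD he hne) X]
  have h1 : (Subgroup.centralizer {X}).subgroupOf (GD he hne) ≤ (Cfsg.Inn (PO Q)).subgroupOf (GD he hne) := by
    rintro ⟨δ, hδ⟩ hc
    exact Subgroup.mem_subgroupOf.2 (hC δ hδ (Subgroup.mem_subgroupOf.1 hc))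
  rw [sup_eq_left.2 h1]
  exact index_inn_GD h2 he hne hneg

/-- The count when the centraliser is not inner but inside the image of the special orthogonal group. -/
theorem split_two_gd (h2 : (2 : F) ≠ 0) (he : Even (Fintype.card ι)) (hne : ∃ v : VV, Q v ≠ 0) (hneg : muO (hq_of_good Q) (negS (Q := Q) he) = 1) (X : MulAut (PO Q))
    (hC : ∀ δ ∈ GD he hne, δ ∈ Subgroup.centralizer {X} → δ ∈ Cfsg.psoAut F (⇑Q))
    (hC' : ∃ δ ∈ GD he hne, δ ∈ Subgroup.centralizer {X} ∧ δ ∉ Cfsg.Inn (PO Q)) : Cfsg.splitClassCount (GD he hne) (Cfsg.Inn (PO Q)) X = 2 := by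
  have hI : (Cfsg.Inn (PO Q)).Normal := Cfsg.innNormal _
  rw [split_index _ _ (inn_le_GD he hne) X]
  have hTP : (Cfsg.Inn (PO Q)).subgroupOf (GD he hne) ≤ (Cfsg.psoAut F (⇑Q)).subgroupOf (GD he hne) :=
    fun x hx => Subgroup.mem_subgroupOf.2 (inn_le_pso h2 (Subgroup.mem_subgroupOf.1 hx))
  have hCP : (Subgroup.centralizer {X}).subgroupOf (GD he hne) ≤ (Cfsg.psoAut F (⇑Q)).subgroupOf (GD he hne) := by
    rintro ⟨δ, hδ⟩ hc
    exact Subgroup.mem_subgroupOf.2 (hC δ hδ (Subgroup.mem_subgroupOf.1 hc))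
  have hrel : ((Cfsg.Inn (PO Q)).subgroupOf (GD he hne)).relIndex ((Cfsg.psoAut F (⇑Q)).subgroupOf (GD he hne)) = 2 := by
    rw [Subgroup.relIndex_subgroupOf (pso_le_GD h2 he hne)]
    exact relIndex_two h2 he hneg
  have hnot : ¬ (Subgroup.centralizer {X}).subgroupOf (GD he hne) ≤ (Cfsg.Inn (PO Q)).subgroupOf (GD he hne) := by
    intro hle
    obtain ⟨δ, hδ, hc, hn⟩ := hC'
    exact hn (Subgroup.mem_subgroupOf.1 (hle (Subgroup.mem_subgroupOf.2 hc : (⟨δ, hδ⟩ : ↥(GD he hne)) ∈ _)))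
  rw [sup_eq_of_relIndex_two hTP hCP hrel hnot]
  exact index_pso_GD h2 he hne

end gen

end Cfsg.Agent.Lib.AutPOm
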