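import Cfsg.Agent.Lib.AutPOm.PlusCoset

/-! Counting classes by an index, and transport of the inner-diagonal group along a change of index type. -/

set_option autoImplicit false
set_option linter.unusedSimpArgs false
set_option linter.unusedVariables false
set_option linter.unusedSectionVars false

namespace Cfsg.Agent.Lib.AutPOm

open Matrix Module MulAction Cfsg.Agent.Lib.Classical
open Cfsg.Agent.Lib.AutPSL (sm sm_apply sm_add sm_smul sm_symm_sm sm_sm_symm glMap glMap_coe semi_vec_ne_zero map_mulVec_sm coe_scalar_mul glMap_one exists_hom_of_rel exists_gal_equiv card_gal orderOf_conj' nrm isConjUnder_equiv)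
open Cfsg.Agent.Lib.ClassMax.OmegaCore (IsMaxTS imgOf mem_imgOf finrank_imgOf imgOf_mul imgOf_one imgOf_inf par_triple mem_iso_iff)
open Cfsg.Agent.Lib.Spinor (ndf rr rO lp nm U0 U0_maxTS mem_U0 finrank_U0 plusQF_nondeg rO_mat rO_inv matrix_ext lp_mat OG.mat)
open Cfsg.Agent.Lib.Quad (NondegQ minusQF minusQF_apply plusQF plusQF_apply coe_plusQF exists_type_gen finrank_le_of_minus_singular anisotropic_of_zeta)
open Cfsg.Agent.Lib.FieldAut (fixedField mem_fixedField)
open scoped LinearAlgebra.Projectivization MatrixGroups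

section groups

variable {X : Type*} [Group X]

/-- The number of classes as an index. -/
theorem split_index (G T : Subgroup X) (hTG : T ≤ G) [hn : (T.subgroupOf G).Normal] (x : X) :
    Cfsg.splitClassCount G T x = ((T.subgroupOf G) ⊔ ((Subgroup.centralizer {x}).subgroupOf G)).index := by
  classical
  set H : Subgroup ↥G := (T.subgroupOf G) ⊔ ((Subgroup.centralizer {x}).subgroupOf G) with hH
  let r : {y : X // Cfsg.IsConjUnder G x y} → {y : X // Cfsg.IsConjUnder G x y} → Prop := fun y z => Cfsg.IsConjUnder T y.1 z.1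
  have hr : Equivalence r :=
    ⟨fun y => (isConjUnder_equiv _).refl y.1, fun h => (isConjUnder_equiv _).symm h, fun h k => (isConjUnder_equiv _).trans h k⟩
  let f₀ : ↥G → Quot r := fun g => Quot.mk r ⟨g.1 * x * g.1⁻¹, g.1, g.2, rfl⟩
  have key : ∀ g g' : ↥G, f₀ g = f₀ g' ↔ g⁻¹ * g' ∈ H := by
    intro g g'
    constructor
    · intro h
      have h1 : r _ _ := hr.eqvGen_iff.1 (Quot.eqvGen_exact h)
      obtain ⟨t, ht, he⟩ := h1
      have he' : g'.1 * x * g'.1⁻¹ = t * (g.1 * x * g.1⁻¹) * t⁻¹ := he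
      have htG : t ∈ G := hTG ht
      let t' : ↥G := ⟨t, htG⟩
      have ht' : t' ∈ T.subgroupOf G := Subgroup.mem_subgroupOf.2 ht
      have h2 : g⁻¹ * t' * g ∈ T.subgroupOf G := by
        have := hn.conj_mem t' ht' g⁻¹
        simpa using this
      let c : ↥G := g⁻¹ * t'⁻¹ * g'
      have hc : c ∈ (Subgroup.centralizer {x}).subgroupOf G := by
        apply Subgroup.mem_subgroupOf.2
        rw [Subgroup.mem_centralizer_singleton_iff]
        show g.1⁻¹ * t⁻¹ * g'.1 * x = x * (g.1⁻¹ * t⁻¹ * g'.1)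
        calc g.1⁻¹ * t⁻¹ * g'.1 * x = g.1⁻¹ * t⁻¹ * (g'.1 * x * g'.1⁻¹) * g'.1 := by group
          _ = g.1⁻¹ * t⁻¹ * (t * (g.1 * x * g.1⁻¹) * t⁻¹) * g'.1 := by rw [he']
          _ = x * (g.1⁻¹ * t⁻¹ * g'.1) := by group
      have e : g⁻¹ * g' = (g⁻¹ * t' * g) * c := by
        simp only [c]
        group
      rw [e]
      exact H.mul_mem (Subgroup.mem_sup_left h2) (Subgroup.mem_sup_right hc)
    · intro h
      have hset : g⁻¹ * g' ∈ ((H : Subgroup ↥G) : Set ↥G) := h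
      rw [hH, Subgroup.normal_mul] at hset
      obtain ⟨t, ht, c, hc, he⟩ := Set.mem_mul.1 hset
      have ht' : t.1 ∈ T := Subgroup.mem_subgroupOf.1 ht
      have hc' : c.1 ∈ Subgroup.centralizer {x} := Subgroup.mem_subgroupOf.1 hc
      have hc'' := Subgroup.mem_centralizer_singleton_iff.1 hc'
      have h2 : g * t * g⁻¹ ∈ T.subgroupOf G := hn.conj_mem t ht g
      have h3 : (g * t * g⁻¹).1 ∈ T := Subgroup.mem_subgroupOf.1 h2
      apply Quot.sound
      refine ⟨(g * t * g⁻¹).1, h3, ?_⟩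
      have e : g' = g * t * c := by
        rw [mul_assoc, he]
        group
      show g'.1 * x * g'.1⁻¹ = (g * t * g⁻¹).1 * (g.1 * x * g.1⁻¹) * (g * t * g⁻¹).1⁻¹
      rw [e]
      show g.1 * t.1 * c.1 * x * (g.1 * t.1 * c.1)⁻¹ = (g.1 * t.1 * g.1⁻¹) * (g.1 * x * g.1⁻¹) * (g.1 * t.1 * g.1⁻¹)⁻¹
      calc g.1 * t.1 * c.1 * x * (g.1 * t.1 * c.1)⁻¹ = g.1 * t.1 * (c.1 * x) * c.1⁻¹ * t.1⁻¹ * g.1⁻¹ := by group
        _ = g.1 * t.1 * (x * c.1) * c.1⁻¹ * t.1⁻¹ * g.1⁻¹ := by rw [hc'']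
        _ = _ := by group
  unfold Cfsg.splitClassCount
  rw [Subgroup.index]
  apply Nat.card_congr
  symm
  refine Equiv.ofBijective (Quotient.lift f₀ (fun a b hab => (key a b).2 (QuotientGroup.leftRel_apply.1 hab))) ⟨?_, ?_⟩
  · intro a b
    induction a using Quotient.inductionOn with
    | _ a =>
      induction b using Quotient.inductionOn with
      | _ b =>
        intro h
        exact Quotient.sound (QuotientGroup.leftRel_apply.2 ((key a b).1 h))
  · intro y
    induction y using Quot.inductionOn with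
    | _ y =>
      obtain ⟨y, g, hg, rfl⟩ := y
      exact ⟨Quotient.mk'' ⟨g, hg⟩, rfl⟩

/-- Class counts are carried along an isomorphism. -/
theorem split_tr {Y : Type*} [Group Y] (Φ : X ≃* Y) {G K : Subgroup X} {G' K' : Subgroup Y} (hG : ∀ a, Φ a ∈ G' ↔ a ∈ G) (hK : ∀ a, Φ a ∈ K' ↔ a ∈ K) (x : X) :
    Cfsg.splitClassCount G K x = Cfsg.splitClassCount G' K' (Φ x) := by
  unfold Cfsg.splitClassCount
  have hconj : ∀ (L : Subgroup X) (L' : Subgroup Y) (_ : ∀ a, Φ a ∈ L' ↔ a ∈ L) (a b : X), Cfsg.IsConjUnder L a b ↔ Cfsg.IsConjUnder L' (Φ a) (Φ b) := by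
    intro L L' hL a b
    constructor
    · rintro ⟨h, hh, rfl⟩
      exact ⟨Φ h, (hL h).2 hh, by simp⟩
    · rintro ⟨h, hh, he⟩
      refine ⟨Φ.symm h, (hL _).1 (by simpa using hh), ?_⟩
      apply Φ.injective
      simp [he]
  let e : {y : X // Cfsg.IsConjUnder G x y} ≃ {y : Y // Cfsg.IsConjUnder G' (Φ x) y} :=
    { toFun := fun y => ⟨Φ y.1, (hconj G G' hG _ _).1 y.2⟩
      invFun := fun y => ⟨Φ.symm y.1, (hconj G G' hG _ _).2 (by simpa using y.2)⟩
      left_inv := fun y => Subtype.ext (by simp)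
      right_inv := fun y => Subtype.ext (by simp) }
  exact Nat.card_congr (Quot.congr e (fun a b => hconj K K' hK a.1 b.1))

/-- Isomorphic sources with matching kernels have isomorphic images. -/
theorem range_equiv {G H A B : Type*} [Group G] [Group H] [Group A] [Group B] (f : G ≃* H) (a : G →* A) (b : H →* B) (h : ∀ g, a g = 1 ↔ b (f g) = 1) :
    Nonempty (a.range ≃* b.range) := by
  have e : a.ker.map f.toMonoidHom = b.ker := by
    ext y
    constructor
    · rintro ⟨g, hg, rfl⟩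
      exact (h g).1 hg
    · intro hy
      refine ⟨f.symm y, (h _).2 ?_, by simp⟩
      simpa using hy
  exact ⟨(QuotientGroup.quotientKerEquivRange a).symm.trans ((QuotientGroup.congr a.ker b.ker f e).trans (QuotientGroup.quotientKerEquivRange b))⟩

end groups

section indexTr

variable {K : Type*} [Field K] {ι κ : Type} [Fintype ι] [DecidableEq ι] [Fintype κ] [DecidableEq κ]

/-- Conjugating a matrix along a change of coordinates. -/
noncomputable def matT (E : (ι → K) ≃ₗ[K] (κ → K)) (A : Matrix κ κ K) : Matrix ι ι K :=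
  LinearMap.toMatrix' (E.symm.toLinearMap ∘ₗ Matrix.mulVecLin A ∘ₗ E.toLinearMap)

theorem matT_mulVec (E : (ι → K) ≃ₗ[K] (κ → K)) (A : Matrix κ κ K) (v : ι → K) : matT E A *ᵥ v = E.symm (A *ᵥ E v) := by
  rw [matT, LinearMap.toMatrix'_mulVec]
  rfl

theorem matT_mul (E : (ι → K) ≃ₗ[K] (κ → K)) (A B : Matrix κ κ K) : matT E (A * B) = matT E A * matT E B := matrix_ext fun v => by
  rw [matT_mulVec, ← Matrix.mulVec_mulVec, ← Matrix.mulVec_mulVec, matT_mulVec, matT_mulVec]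
  simp

theorem matT_one (E : (ι → K) ≃ₗ[K] (κ → K)) : matT E 1 = 1 := matrix_ext fun v => by
  simp [matT_mulVec]

theorem matT_smul (E : (ι → K) ≃ₗ[K] (κ → K)) (c : K) (A : Matrix κ κ K) : matT E (c • A) = c • matT E A := matrix_ext fun v => by
  simp [matT_mulVec, Matrix.smul_mulVec]

theorem matT_symm (E : (ι → K) ≃ₗ[K] (κ → K)) (A : Matrix κ κ K) : matT E.symm (matT E A) = A := matrix_ext fun v => by
  simp [matT_mulVec]

theorem matT_symm' (E : (ι → K) ≃ₗ[K] (κ → K)) (A : Matrix ι ι K) : matT E (matT E.symm A) = A := matrix_ext fun v => by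
  simp [matT_mulVec]

theorem det_matT (E : (ι → K) ≃ₗ[K] (κ → K)) (A : Matrix κ κ K) : (matT E A).det = A.det := by
  rw [matT, LinearMap.det_toMatrix']
  have h1 := LinearMap.det_conj (Matrix.mulVecLin A) E.symm
  rw [LinearEquiv.symm_symm] at h1
  rw [h1, ← Matrix.toLin'_apply', LinearMap.det_toLin']

/-- Conjugating an invertible matrix along a change of coordinates. -/
noncomputable def glT (E : (ι → K) ≃ₗ[K] (κ → K)) : GL κ K ≃* GL ι K where
  toFun g := ⟨matT E g.1, matT E g.2, by rw [← matT_mul, g.val_inv, matT_one], by rw [← matT_mul, g.inv_val, matT_one]⟩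
  invFun g := ⟨matT E.symm g.1, matT E.symm g.2, by rw [← matT_mul, g.val_inv, matT_one], by rw [← matT_mul, g.inv_val, matT_one]⟩
  left_inv g := Units.ext (matT_symm E _)
  right_inv g := Units.ext (matT_symm' E _)
  map_mul' g g' := Units.ext (matT_mul E _ _)

@[simp] theorem glT_coe (E : (ι → K) ≃ₗ[K] (κ → K)) (g : GL κ K) : ((glT E g : GL ι K) : Matrix ι ι K) = matT E (g : Matrix κ κ K) := rfl

@[simp] theorem glT_symm_coe (E : (ι → K) ≃ₗ[K] (κ → K)) (g : GL ι K) : (((glT E).symm g : GL κ K) : Matrix κ κ K) = matT E.symm (g : Matrix ι ι K) := rfl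

variable {Q₁ : QuadraticForm K (ι → K)} {Q₂ : QuadraticForm K (κ → K)}

theorem polar_E {E : (ι → K) ≃ₗ[K] (κ → K)} (hE : ∀ v, Q₂ (E v) = Q₁ v) (u v : ι → K) :
    QuadraticMap.polar (⇑Q₂) (E u) (E v) = QuadraticMap.polar (⇑Q₁) u v := by
  simp only [QuadraticMap.polar, ← map_add, hE]

theorem matT_rr {E : (ι → K) ≃ₗ[K] (κ → K)} (hE : ∀ v, Q₂ (E v) = Q₁ v) (u : κ → K) : matT E (rr Q₂ u) = rr Q₁ (E.symm u) := matrix_ext fun v => by
  rw [matT_mulVec, rr, rr, Cfsg.Agent.Lib.Classical.reflection_mulVec, Cfsg.Agent.Lib.Classical.reflection_mulVec, ← polar_E hE, ← hE (E.symm u), LinearEquiv.apply_symm_apply]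
  simp

theorem matT_list {E : (ι → K) ≃ₗ[K] (κ → K)} (hE : ∀ v, Q₂ (E v) = Q₁ v) (vs : List (κ → K)) :
    matT E ((vs.map (rr Q₂)).prod) = ((vs.map E.symm).map (rr Q₁)).prod := by
  induction vs with
  | nil => simp [matT_one]
  | cons v vs ih =>
    simp only [List.map_cons, List.prod_cons]
    rw [matT_mul, ih, matT_rr hE]

theorem sim_glT {E : (ι → K) ≃ₗ[K] (κ → K)} (hE : ∀ v, Q₂ (E v) = Q₁ v) {g : GL κ K} (hg : g ∈ Sim Q₂) : glT E g ∈ Sim Q₁ := by
  obtain ⟨c, hc⟩ := hg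
  refine ⟨c, fun v => ?_⟩
  rw [glT_coe, matT_mulVec, ← hE, LinearEquiv.apply_symm_apply, hc, hE]

theorem KP_glT (hcard : Fintype.card ι = Fintype.card κ) {E : (ι → K) ≃ₗ[K] (κ → K)} (hE : ∀ v, Q₂ (E v) = Q₁ v) {g : GL κ K} (h : KP Q₂ g) : KP Q₁ (glT E g) := by
  rcases h with ⟨h2, c, hc, hdet⟩ | ⟨h2, d, vs, hd, hv, hl, hg⟩
  · refine Or.inl ⟨h2, c, fun v => ?_, ?_⟩
    · rw [glT_coe, matT_mulVec, ← hE, LinearEquiv.apply_symm_apply, hc, hE]
    · rw [glT_coe, det_matT, hdet, hcard]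
  · have hv' : ∀ v ∈ vs.map E.symm, Q₁ v ≠ 0 := by
      intro v hv'
      obtain ⟨w, hw, rfl⟩ := List.mem_map.1 hv'
      rw [← hE, LinearEquiv.apply_symm_apply]
      exact hv w hw
    refine Or.inr ⟨h2, d, vs.map E.symm, hd, hv', by simpa using hl, ?_⟩
    rw [glT_coe, hg, matT_smul, lp_mat hv, lp_mat hv', matT_list hE]

theorem symm_E {E : (ι → K) ≃ₗ[K] (κ → K)} (hE : ∀ v, Q₂ (E v) = Q₁ v) (v : κ → K) : Q₁ (E.symm v) = Q₂ v := by
  rw [← hE, LinearEquiv.apply_symm_apply]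

section good

variable [Fintype K] {ι' : Type} [Fintype ι'] [DecidableEq ι'] {R : QuadraticForm K (ι' → K)} [hR : Good R]

theorem psemiO_eq_one_iff {g : GL ι' K} (hs : Cfsg.IsSemisimilarityPair (⇑R) g (RingEquiv.refl K)) :
    psemiO g (RingEquiv.refl K) hs = 1 ↔ ∃ c : K, c ≠ 0 ∧ (g : Matrix ι' ι' K) = c • (1 : Matrix ι' ι' K) := by
  constructor
  · intro h
    exact (psemiO_eq_one h).2
  · rintro ⟨c, hc0, hc⟩
    have hs1 : Cfsg.IsSemisimilarityPair (⇑R) (1 : GL ι' K) (RingEquiv.refl K) := semi_of_sim (Subgroup.one_mem _)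
    rw [← psemiO_one_refl hs1]
    exact psemiO_smul_eq (RingEquiv.refl K) _ _ (c := c) (by simpa using hc) hc0

end good

/-- The inner-diagonal groups of isometric forms are isomorphic, even after changing the index type. -/
theorem GD_index_equiv [Fintype K] [h₁ : Good Q₁] [h₂ : Good Q₂] (hcard : Fintype.card ι = Fintype.card κ) (he₁ : Even (Fintype.card ι)) (he₂ : Even (Fintype.card κ))
    (hne₁ : ∃ v : ι → K, Q₁ v ≠ 0) (hne₂ : ∃ v : κ → K, Q₂ v ≠ 0) (E : (ι → K) ≃ₗ[K] (κ → K)) (hE : ∀ v, Q₂ (E v) = Q₁ v) :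
    Nonempty (↥(GD (Q := Q₁) he₁ hne₁) ≃* ↥(GD (Q := Q₂) he₂ hne₂)) := by
  let f : ↥(DQ Q₂ he₂ hne₂) ≃* ↥(DQ Q₁ he₁ hne₁) :=
    { toFun := fun g => ⟨glT E g.1, sim_glT hE g.2.1, KP_glT hcard hE g.2.2⟩
      invFun := fun g => ⟨glT E.symm g.1, sim_glT (symm_E hE) g.2.1, KP_glT hcard.symm (symm_E hE) g.2.2⟩
      left_inv := fun g => Subtype.ext (Units.ext (matT_symm E _))
      right_inv := fun g => Subtype.ext (Units.ext (matT_symm' E _))
      map_mul' := fun g g' => Subtype.ext (map_mul (glT E) g.1 g'.1) }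
  have h := range_equiv f (autOn (DQ Q₂ he₂ hne₂) DQ_le) (autOn (DQ Q₁ he₁ hne₁) DQ_le) (by
    intro g
    rw [autOn_apply, autOn_apply, psemiO_eq_one_iff, psemiO_eq_one_iff]
    constructor
    · rintro ⟨c, hc0, hc⟩
      refine ⟨c, hc0, ?_⟩
      show matT E (g.1 : Matrix κ κ K) = _
      rw [hc, matT_smul, matT_one]
    · rintro ⟨c, hc0, hc⟩
      refine ⟨c, hc0, ?_⟩
      have h3 : matT E (g.1 : Matrix κ κ K) = c • 1 := hc
      have h4 := matT_symm E (g.1 : Matrix κ κ K)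
      rw [h3, matT_smul, matT_one] at h4
      exact h4.symm)
  obtain ⟨e⟩ := h
  exact ⟨e.symm⟩

end indexTr

end Cfsg.Agent.Lib.AutPOm
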