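import Cfsg.Agent.Lib.AutPOm.GfCent

/-! The spinor norm of the key element over a subfield of index two. -/

set_option autoImplicit false
set_option linter.unusedSimpArgs false
set_option linter.unusedVariables false
set_option linter.unusedSectionVars false

namespace Cfsg.Agent.Lib.AutPOm

open Matrix Module MulAction Cfsg.Agent.Lib.Classical
open Cfsg.Agent.Lib.AutPSL (sm sm_apply sm_add sm_smul sm_symm_sm sm_sm_symm glMap glMap_coe semi_vec_ne_zero map_mulVec_sm coe_scalar_mul glMap_one exists_hom_of_rel exists_gal_equiv card_gal orderOf_conj' nrm isConjUnder_equiv)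
open Cfsg.Agent.Lib.ClassMax.OmegaCore (IsMaxTS imgOf mem_imgOf finrank_imgOf imgOf_mul imgOf_one imgOf_inf par_triple mem_iso_iff)
open Cfsg.Agent.Lib.Spinor (ndf rr rO lp nm U0 U0_maxTS mem_U0 finrank_U0 plusQF_nondeg rO_mat rO_inv matrix_ext lp_mat OG.mat exists_lp sgnF sgnF_of_sq sgnF_of_not_sq sgnF_eq_one_iff sgnF_mul sq_mul_of_not_sq invHom invHom_lp invL lp_cons lp_nil)
open Cfsg.Agent.Lib.Quad (NondegQ minusQF minusQF_apply plusQF plusQF_apply coe_plusQF exists_type_gen finrank_le_of_minus_singular anisotropic_of_zeta not_isSquare_disc disc_ne_zero isSquare_mul_iff_of_nonsquare)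
open Cfsg.Agent.Lib.FieldAut (fixedField mem_fixedField)
open scoped LinearAlgebra.Projectivization MatrixGroups

section fieldLemmas

variable {K F : Type*} [Field K] [Field F] [Fintype K] [Fintype F]

/-- The involution over a subfield of index two is a power map. -/
theorem pow_card_eq_sigma (φ : K →+* F) {σ : F ≃+* F} (hφ : ∀ a, σ a = a → ∃ b, φ b = a) (hφ' : ∀ b, σ (φ b) = φ b) (hσ2 : ∀ y, σ (σ y) = y) (y : F) :
    y ^ Fintype.card K = σ y := by
  classical
  letI := φ.toAlgebra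
  have hfr : ∀ z : F, FiniteField.frobeniusAlgHom K F z = z ^ Fintype.card K := fun z => rfl
  obtain ⟨a, ha⟩ := hφ (y + σ y) (by rw [map_add, hσ2, add_comm])
  obtain ⟨b, hb⟩ := hφ (y * σ y) (by rw [map_mul, hσ2, mul_comm])
  have h1 : y ^ 2 - φ a * y + φ b = 0 := by
    rw [ha, hb]
    ring
  have h2 := congrArg (FiniteField.frobeniusAlgHom K F) h1
  have hφa : ∀ c : K, FiniteField.frobeniusAlgHom K F (φ c) = φ c := fun c => AlgHom.commutes _ c
  simp only [map_add, map_sub, map_mul, map_pow, hφa, map_zero] at h2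
  have h3 : (FiniteField.frobeniusAlgHom K F y - y) * (FiniteField.frobeniusAlgHom K F y - σ y) = 0 := by
    have : (FiniteField.frobeniusAlgHom K F y - y) * (FiniteField.frobeniusAlgHom K F y - σ y) =
        (FiniteField.frobeniusAlgHom K F y) ^ 2 - (y + σ y) * (FiniteField.frobeniusAlgHom K F y) + y * σ y := by ring
    rw [this, ← ha, ← hb]
    exact h2
  rcases mul_eq_zero.1 h3 with h4 | h4
  · have hzy : y ^ Fintype.card K = y := by
      rw [← hfr]
      exact sub_eq_zero.1 h4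
    have hmem : y ∈ Set.range φ := by
      by_contra hy
      let P : Polynomial F := Polynomial.X ^ Fintype.card K - Polynomial.X
      have hq : 1 < Fintype.card K := Fintype.one_lt_card
      have hP0 : P ≠ 0 := FiniteField.X_pow_card_sub_X_ne_zero F hq
      have hPd : P.natDegree = Fintype.card K := FiniteField.X_pow_card_sub_X_natDegree_eq F hq
      let S : Finset F := insert y (Finset.univ.image φ)
      have hS : S ⊆ P.roots.toFinset := by
        intro z hz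
        rw [Multiset.mem_toFinset, Polynomial.mem_roots hP0]
        simp only [P, Polynomial.IsRoot, Polynomial.eval_sub, Polynomial.eval_pow, Polynomial.eval_X]
        rcases Finset.mem_insert.1 hz with rfl | hz
        · rw [hzy, sub_self]
        · obtain ⟨c, -, rfl⟩ := Finset.mem_image.1 hz
          rw [← map_pow, FiniteField.pow_card, sub_self]
      have hcS : S.card = Fintype.card K + 1 := by
        rw [Finset.card_insert_of_notMem]
        · rw [Finset.card_image_of_injective _ φ.injective]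
          rfl
        · intro hz
          obtain ⟨c, -, hc⟩ := Finset.mem_image.1 hz
          exact hy ⟨c, hc⟩
      have h5 := Finset.card_le_card hS
      have h6 := Multiset.toFinset_card_le P.roots
      have h7 := Polynomial.card_roots' P
      omega
    obtain ⟨c, rfl⟩ := hmem
    rw [hφ', ← map_pow, FiniteField.pow_card]
  · rw [← hfr]
    exact sub_eq_zero.1 h4

/-- Squares in a quadratic extension are detected by the norm. -/
theorem square_iff_norm (φ : K →+* F) {σ : F ≃+* F} (hφ : ∀ a, σ a = a → ∃ b, φ b = a) (hφ' : ∀ b, σ (φ b) = φ b) (hσ2 : ∀ y, σ (σ y) = y) (hF : Fintype.card F = Fintype.card K ^ 2)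
    (hK2 : ringChar K ≠ 2) (hF2 : ringChar F ≠ 2) {y : F} (hy : y ≠ 0) {n : K} (hn : φ n = y * σ y) : IsSquare y ↔ IsSquare n := by
  classical
  have hσy : σ y ≠ 0 := by simpa using hy
  have hn0 : n ≠ 0 := by
    rintro rfl
    rw [map_zero] at hn
    exact mul_ne_zero hy hσy hn.symm
  rw [FiniteField.isSquare_iff hF2 hy, FiniteField.isSquare_iff hK2 hn0]
  have hqodd : Odd (Fintype.card K) := Nat.odd_iff.2 (FiniteField.odd_card_of_char_ne_two hK2)
  obtain ⟨t, ht⟩ := hqodd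
  have h1 : Fintype.card K / 2 = t := by omega
  have h2 : Fintype.card F / 2 = (Fintype.card K + 1) * t := by
    rw [hF, ht]
    have e : (2 * t + 1) ^ 2 = 2 * ((2 * t + 1 + 1) * t) + 1 := by ring
    rw [e]
    omega
  have h3 := pow_card_eq_sigma φ hφ hφ' hσ2 y
  rw [h1, h2, pow_mul, pow_succ, h3, mul_comm (σ y), ← hn, ← map_pow]
  constructor
  · intro h
    exact φ.injective (by rw [h, map_one])
  · intro h
    rw [h, map_one]

end fieldLemmas

section key

variable {K F : Type*} [Field K] [Field F] [Fintype K] [Fintype F] {m : ℕ}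

local notation "JJ" => ((Fin m ⊕ Fin m) ⊕ Fin 2)

theorem dlM_map (φ : K →+* F) {ζ ε α β : K} (he : α ^ 2 + 1 * α * β + ζ * β ^ 2 = ε) (hε : ε ≠ 0)
    (he' : φ α ^ 2 + 1 * φ α * φ β + φ ζ * φ β ^ 2 = φ ε) (hε' : φ ε ≠ 0) :
    Matrix.GeneralLinearGroup.map φ (dlM m 1 ζ ε α β he hε) = dlM m 1 (φ ζ) (φ ε) (φ α) (φ β) he' hε' := by
  apply Units.ext
  show ((dlM m 1 ζ ε α β he hε : GL ((Fin m ⊕ Fin m) ⊕ Fin 2) K) : Matrix ((Fin m ⊕ Fin m) ⊕ Fin 2) ((Fin m ⊕ Fin m) ⊕ Fin 2) K).map φ = _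
  rw [dlM_coe, dlM_coe]
  ext i j
  rcases i with i | i <;> rcases j with j | j
  · simp only [Matrix.map_apply, Matrix.fromBlocks_apply₁₁, Matrix.diagonal_apply]
    split_ifs with h
    · subst h
      rcases i with i | i <;> simp
    · simp
  · simp
  · simp
  · fin_cases i <;> fin_cases j <;> simp

/-- The list of reflections and its norm. -/
theorem key_list (φ : K →+* F) {σ : F ≃+* F} (hφ : ∀ a, σ a = a → ∃ b, φ b = a) (hφ' : ∀ b, σ (φ b) = φ b) (hσ2 : ∀ y, σ (σ y) = y) (hF : Fintype.card F = Fintype.card K ^ 2)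
    (hK2 : ringChar K ≠ 2) (hF2 : ringChar F ≠ 2) (h2 : (2 : F) ≠ 0) (h2₀ : (2 : K) ≠ 0) {ζ ε α β : K} (hab : ∀ z₁ z₂ : K, z₁ ^ 2 + 1 * z₁ * z₂ + ζ * z₂ ^ 2 = 0 → z₁ = 0 ∧ z₂ = 0)
    (hεn : ¬ IsSquare ε) (he : α ^ 2 + 1 * α * β + ζ * β ^ 2 = ε) (hε : ε ≠ 0) {d : Fˣ} (hd : (d : F) * d = φ ε) :
    ∃ L : List (JJ → F), (∀ v ∈ L, minusQF m 1 (φ ζ) v ≠ 0) ∧ Even L.length ∧
      (L.map (rr (minusQF m 1 (φ ζ)))).prod = ((Matrix.GeneralLinearGroup.scalar JJ d⁻¹ * Matrix.GeneralLinearGroup.map φ (dlM m 1 ζ ε α β he hε) : GL JJ F) : Matrix JJ JJ F) ∧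
      (IsSquare (-1 : K) → sgnF (nm (minusQF m 1 (φ ζ)) L) = (-1) ^ m) ∧ (¬ IsSquare (-1 : K) → sgnF (nm (minusQF m 1 (φ ζ)) L) = -1) := by
  have hd0 : (d : F) ≠ 0 := d.ne_zero
  have hβ : β ≠ 0 := by
    rintro rfl
    apply hεn
    refine ⟨α, ?_⟩
    rw [← he]
    ring
  have hφε : φ ε ≠ 0 := by simpa using hε
  have he' : φ α ^ 2 + 1 * φ α * φ β + φ ζ * φ β ^ 2 = φ ε := by
    rw [← he]
    simp
  have hσd : σ d = -(d : F) := by
    have h3 : (σ d - d) * (σ d + d) = 0 := by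
      have h4 : σ (d : F) * σ d = φ ε := by
        rw [← map_mul, hd, hφ']
      have : (σ (d : F) - d) * (σ d + d) = σ (d : F) * σ d - d * d := by ring
      rw [this, h4, hd, sub_self]
    rcases mul_eq_zero.1 h3 with h4 | h4
    · exfalso
      obtain ⟨d₀, hd₀⟩ := hφ _ (sub_eq_zero.1 h4)
      apply hεn
      refine ⟨d₀, φ.injective ?_⟩
      rw [map_mul, hd₀, hd]
    · exact eq_neg_of_add_eq_zero_left h4
  -- the norm of the last vector
  obtain ⟨ε', hε'def⟩ : ∃ ε' : F, ε' = (φ α + d) ^ 2 + 1 * (φ α + d) * φ β + φ ζ * φ β ^ 2 := ⟨_, rfl⟩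
  obtain ⟨T, hT⟩ : ∃ T : F, T = 2 * d + φ (2 * α + β) := ⟨_, rfl⟩
  have hε'T : ε' = d * T := by
    rw [hε'def, hT]
    simp only [map_add, map_mul, map_ofNat]
    linear_combination he' - hd
  have hσT : σ T = -2 * d + φ (2 * α + β) := by
    rw [hT, map_add, map_mul, hσd, hφ', map_ofNat]
    ring
  obtain ⟨n₁, hn₁⟩ : ∃ n₁ : K, n₁ = -(ε * (β ^ 2 * (1 ^ 2 - 4 * ζ))) := ⟨_, rfl⟩
  have hn₁0 : n₁ ≠ 0 := by
    rw [hn₁]
    exact neg_ne_zero.2 (mul_ne_zero hε (mul_ne_zero (pow_ne_zero _ hβ) (disc_ne_zero h2₀ 1 ζ hab)))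
  have hφn₁ : φ n₁ = ε' * σ ε' := by
    rw [hε'T, map_mul, hσd, hσT, hT, hn₁]
    have e1 : (2 * α + β) ^ 2 - 4 * ε = β ^ 2 * (1 ^ 2 - 4 * ζ) := by
      rw [← he]
      ring
    rw [← e1]
    simp only [map_neg, map_mul, map_sub, map_pow, map_add, map_ofNat]
    linear_combination ((2 * φ α + φ β) ^ 2 - 4 * (φ ε + d * d)) * hd
  have hε'0 : ε' ≠ 0 := by
    intro h0
    rw [h0, zero_mul] at hφn₁
    exact hn₁0 (φ.injective (by rw [hφn₁, map_zero]))
  have hT0 : T ≠ 0 := by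
    rintro rfl
    rw [mul_zero] at hε'T
    exact hε'0 hε'T
  -- signs
  have hsε' : IsSquare ε' ↔ IsSquare (-1 : K) := by
    rw [square_iff_norm φ hφ hφ' hσ2 hF hK2 hF2 hε'0 hφn₁]
    have hD := not_isSquare_disc h2₀ 1 ζ hab
    obtain ⟨s, hs⟩ := sq_mul_of_not_sq hεn hD
    have hs0 : s ≠ 0 := by
      rintro rfl
      rw [mul_zero] at hs
      exact mul_ne_zero hε (disc_ne_zero h2₀ 1 ζ hab) hs
    have e2 : n₁ = -1 * (s * β) ^ 2 := by
      rw [hn₁]
      linear_combination (-β ^ 2) * hs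
    rw [e2]
    constructor
    · rintro ⟨w, hw⟩
      refine ⟨w / (s * β), ?_⟩
      field_simp
      linear_combination hw
    · intro h
      exact h.mul (IsSquare.sq _)
  have hsd : IsSquare (d : F) ↔ ¬ IsSquare (-1 : K) := by
    have hn : φ (-1 * ε) = d * σ d := by
      rw [hσd]
      simp only [map_mul, map_neg, map_one]
      linear_combination hd
    rw [square_iff_norm φ hφ hφ' hσ2 hF hK2 hF2 hd0 hn]
    exact isSquare_mul_iff_of_nonsquare (-1) ε (neg_ne_zero.2 one_ne_zero) hε hεn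
  obtain ⟨vs, h1, h3, h4, h5⟩ := diag_levi_list (Q := minusQF m 1 (φ ζ)) (F := F) (fun j : Fin m => (Sum.inl (Sum.inl j) : (Fin m ⊕ Fin m) ⊕ Fin 2)) (fun j => Sum.inl (Sum.inr j))
    (Sum.elim (Sum.elim (fun j : Fin m => (j : ℕ)) (fun j : Fin m => (j : ℕ))) (fun _ : Fin 2 => m)) m (hypCoord_minus m 1 (φ ζ)) (fun j => rfl) (fun j => rfl)
    (by
      intro k j hj hk
      rcases k with (k | k) | k
      · left
        congr 2
        exact Fin.ext hk
      · right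
        congr 2
        exact Fin.ext hk
      · simp only [Sum.elim_inr] at hk
        omega) le_rfl hd0 (Sum.elim (Sum.elim (fun _ => (d : F)) (fun _ => (d : F)⁻¹)) (fun _ => 1)) (fun j => rfl) (fun j => rfl) m le_rfl
  have hw : minusQF m 1 (φ ζ) (wB m (φ α + d) (φ β)) = ε' := by rw [Q_wB, hε'def]
  have hone : minusQF m 1 (φ ζ) (wB m (1 : F) 0) = 1 := by
    rw [Q_wB]
    simp
  have hnm : nm (minusQF m 1 (φ ζ)) (vs ++ [wB m (φ α + d) (φ β), wB m 1 0]) = (d : F) ^ m * ε' := by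
    have h6 : (vs.map (fun v => minusQF m 1 (φ ζ) v)).prod = (d : F) ^ m := h5
    simp only [nm, List.map_append, List.map_cons, List.map_nil, List.prod_append, List.prod_cons, List.prod_nil, h6, hw, hone]
    ring
  have hsgn : sgnF (nm (minusQF m 1 (φ ζ)) (vs ++ [wB m (φ α + d) (φ β), wB m 1 0])) = (sgnF (d : F)) ^ m * sgnF ε' := by
    rw [hnm, sgnF_mul (pow_ne_zero _ hd0) hε'0, sgnF_pow _ hd0]
  have hdN : (d : F) * d = φ α ^ 2 + 1 * φ α * φ β + φ ζ * φ β ^ 2 := hd.trans he'.symm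
  have hTe : T = 2 * d + (2 * φ α + φ β) := by
    rw [hT]
    simp only [map_add, map_mul, map_ofNat]
  refine ⟨vs ++ [wB m (φ α + d) (φ β), wB m 1 0], ?_, ?_, ?_, ?_, ?_⟩
  · intro v hv
    simp only [List.mem_append, List.mem_cons, List.not_mem_nil, or_false] at hv
    rcases hv with hv | rfl | rfl
    · exact h1 v hv
    · rw [hw]
      exact hε'0
    · rw [hone]
      exact one_ne_zero
  · simp only [List.length_append, List.length_cons, List.length_nil, h4]
    exact ⟨m + 1, by ring⟩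
  · simp only [List.map_append, List.map_cons, List.map_nil, List.prod_append, List.prod_cons, List.prod_nil, h3, mul_one]
    rw [dlM_map φ he hε he' hφε]
    apply matrix_ext
    intro x
    rw [coe_scalar_mul, Matrix.smul_mulVec, ← Matrix.mulVec_mulVec, ← Matrix.mulVec_mulVec]
    funext k
    rw [Pi.smul_apply, Matrix.mulVec_diagonal, smul_eq_mul, Units.val_inv_eq_inv_val]
    rcases k with (k | k) | k
    · have hk : ((k : Fin m) : ℕ) < m := k.2
      rw [dlM_ll, rr_bin_inl]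
      simp only [Sum.elim_inl, hk, if_true]
      field_simp
      linear_combination (x (Sum.inl (Sum.inl k))) * hd
    · have hk : ((k : Fin m) : ℕ) < m := k.2
      rw [dlM_lr, rr_bin_inl]
      simp only [Sum.elim_inl, Sum.elim_inr, hk, if_true]
    · have hk : ¬ (Sum.elim (Sum.elim (fun j : Fin m => (j : ℕ)) (fun j : Fin m => (j : ℕ))) (fun _ : Fin 2 => m)) (Sum.inr k : (Fin m ⊕ Fin m) ⊕ Fin 2) < m := by
        simp
      rw [if_neg hk, one_mul]
      rcases (show k = 0 ∨ k = 1 from by fin_cases k <;> simp) with rfl | rfl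
      · have h7 := rr_bin_0 (m := m) (a := 1) (b := φ ζ) hε'def.symm hε'0 x
        rw [dlM_r0]
        have h8 : d * T * (rr (minusQF m 1 (φ ζ)) (wB m (φ α + d) (φ β)) *ᵥ (rr (minusQF m 1 (φ ζ)) (wB m 1 0) *ᵥ x)) (Sum.inr 0) = T * (φ α * x (Sum.inr 0) - φ ζ * φ β * x (Sum.inr 1)) := by
          rw [← hε'T, h7, hTe]
          linear_combination (x (Sum.inr 0)) * hdN
        have h9 := mul_left_cancel₀ hT0 (by linear_combination h8 : T * (d * (rr (minusQF m 1 (φ ζ)) (wB m (φ α + d) (φ β)) *ᵥ (rr (minusQF m 1 (φ ζ)) (wB m 1 0) *ᵥ x)) (Sum.inr 0)) = T * (φ α * x (Sum.inr 0) - φ ζ * φ β * x (Sum.inr 1)))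
        rw [← h9]
        field_simp
      · have h7 := rr_bin_1 (m := m) (a := 1) (b := φ ζ) hε'def.symm hε'0 x
        rw [dlM_r1]
        have h8 : d * T * (rr (minusQF m 1 (φ ζ)) (wB m (φ α + d) (φ β)) *ᵥ (rr (minusQF m 1 (φ ζ)) (wB m 1 0) *ᵥ x)) (Sum.inr 1) = T * (φ β * x (Sum.inr 0) + (φ α + 1 * φ β) * x (Sum.inr 1)) := by
          rw [← hε'T, h7, hTe]
          linear_combination (x (Sum.inr 1)) * hdN
        have h9 := mul_left_cancel₀ hT0 (by linear_combination h8 : T * (d * (rr (minusQF m 1 (φ ζ)) (wB m (φ α + d) (φ β)) *ᵥ (rr (minusQF m 1 (φ ζ)) (wB m 1 0) *ᵥ x)) (Sum.inr 1)) = T * (φ β * x (Sum.inr 0) + (φ α + 1 * φ β) * x (Sum.inr 1)))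
        rw [← h9]
        field_simp
  · intro hm1
    rw [hsgn, sgnF_of_not_sq (fun hc => (hsd.1 hc) hm1), sgnF_of_sq (hsε'.2 hm1), mul_one]
  · intro hm1
    rw [hsgn, sgnF_of_sq (hsd.2 hm1), sgnF_of_not_sq (fun hc => hm1 (hsε'.1 hc)), one_pow, one_mul]

end key

section transport

variable {K F : Type*} [Field K] [Field F] [Fintype K] [Fintype F] {ι : Type} [Fintype ι] [DecidableEq ι] {m : ℕ}

theorem matT_map (φ : K →+* F) (e : (ι → K) ≃ₗ[K] ((Fin m ⊕ Fin m) ⊕ Fin 2 → K)) (A : Matrix ((Fin m ⊕ Fin m) ⊕ Fin 2) ((Fin m ⊕ Fin m) ⊕ Fin 2) K) :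
    matT (bcEquiv φ e) (A.map φ) = (matT e A).map φ := by
  apply Matrix.ext_of_mulVec_single
  intro j
  rw [← bc_single φ j, matT_mulVec, bcEquiv_bc, map_mulVec_bc, map_mulVec_bc, matT_mulVec, LinearEquiv.symm_apply_eq, bcEquiv_bc, LinearEquiv.apply_symm_apply]

/-- The key element over the fixed field, and its spinor norm over the big field. -/
theorem gf_key {Q' : QuadraticForm F (ι → F)} {q₂ : QuadraticForm K (ι → K)} [hG : Good Q'] (φ : K →+* F) {σ : F ≃+* F} (hφ : ∀ a, σ a = a → ∃ b, φ b = a) (hφ' : ∀ b, σ (φ b) = φ b) (hσ2 : ∀ y, σ (σ y) = y)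
    (hF : Fintype.card F = Fintype.card K ^ 2) (h2 : (2 : F) ≠ 0) (hQφ : ∀ v, φ (q₂ v) = Q' (bc φ v)) {ζ : K} (hζ : ∀ t : K, t ^ 2 + t + ζ ≠ 0)
    (e : (ι → K) ≃ₗ[K] ((Fin m ⊕ Fin m) ⊕ Fin 2 → K)) (he : ∀ v, q₂ v = Cfsg.quadFormMinus m K 1 ζ (e v)) (hcard : Fintype.card ι = Fintype.card ((Fin m ⊕ Fin m) ⊕ Fin 2)) :
    ∃ (g₁ : GL ι K) (hg₁ : g₁ ∈ Sim q₂), KP q₂ g₁ ∧ ∃ ε : K, ¬ IsSquare ε ∧ (∀ v, q₂ ((g₁ : Matrix ι ι K) *ᵥ v) = ε * q₂ v) ∧
      ∃ s₁ : ↥(SOg Q'), psemiO (Matrix.GeneralLinearGroup.map φ g₁) (RingEquiv.refl F) (semi_of_sim (map_mem_sim φ hQφ hg₁)) = soAut s₁ ∧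
        (IsSquare (-1 : K) → muO (hq_of_good Q') s₁ = (-1) ^ m) ∧ (¬ IsSquare (-1 : K) → muO (hq_of_good Q') s₁ = -1) := by
  classical
  have h2₀ : (2 : K) ≠ 0 := fun h0 => h2 ((two_iff φ hQφ).1 h0)
  have hF2 : ringChar F ≠ 2 := fun hc => h2 (by
    have := CharP.cast_eq_zero F (ringChar F)
    rw [hc] at this
    exact_mod_cast this)
  have hK2 : ringChar K ≠ 2 := fun hc => h2₀ (by
    have := CharP.cast_eq_zero K (ringChar K)
    rw [hc] at this
    exact_mod_cast this)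
  have hab := anisotropic_of_zeta hζ
  obtain ⟨ε, hεn⟩ := FiniteField.exists_nonsquare hK2
  have hε : ε ≠ 0 := by
    rintro rfl
    exact hεn IsSquare.zero
  obtain ⟨α, β, heαβ⟩ := exists_bin_value hab hε
  obtain ⟨d₀, hd₀⟩ := isSquare_of_index_two φ hF hF2 ε
  have hd00 : d₀ ≠ 0 := by
    rintro rfl
    rw [mul_zero] at hd₀
    exact (by simpa using hε : φ ε ≠ 0) hd₀
  obtain ⟨d, hdd⟩ : ∃ d : Fˣ, (d : F) = d₀ := ⟨Units.mk0 d₀ hd00, rfl⟩
  have hd : (d : F) * d = φ ε := by rw [hdd, hd₀]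
  obtain ⟨L, hLne, hLeven, hLmat, hLs1, hLs2⟩ := key_list (m := m) φ hφ hφ' hσ2 hF hK2 hF2 h2 h2₀ hab hεn heαβ hε hd
  have hsimK := dlM_Q (m := m) heαβ hε
  have hKP : KP (minusQF m 1 ζ) (dlM m 1 ζ ε α β heαβ hε) := by
    refine Or.inl ⟨h2₀, ε, hsimK, ?_⟩
    rw [dlM_det, card_JJ]
    congr 1
    omega
  have hE : ∀ v, minusQF m 1 ζ (e v) = q₂ v := fun v => (he v).symm
  have hg₁ : glT e (dlM m 1 ζ ε α β heαβ hε) ∈ Sim q₂ := sim_glT hE ⟨Units.mk0 ε hε, hsimK⟩
  have hEF : ∀ v, minusQF m 1 (φ ζ) (bcEquiv φ e v) = Q' v := by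
    have key : (minusQF m 1 (φ ζ)).comp (bcEquiv φ e).toLinearMap = Q' := by
      apply quad_eq_of_bc φ
      intro v
      simp only [QuadraticMap.comp_apply, LinearEquiv.coe_coe]
      rw [bcEquiv_bc, ← hQφ, he]
      have := minusQF_bc (m := m) φ 1 ζ (e v)
      rw [map_one] at this
      exact this.symm
    intro v
    have := congrArg (fun P => P v) key
    simpa using this
  have hL'ne : ∀ v ∈ L.map (bcEquiv φ e).symm, Q' v ≠ 0 := by
    intro v hv
    obtain ⟨w, hw, rfl⟩ := List.mem_map.1 hv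
    rw [← hEF, LinearEquiv.apply_symm_apply]
    exact hLne w hw
  have hnm : nm Q' (L.map (bcEquiv φ e).symm) = nm (minusQF m 1 (φ ζ)) L := by
    simp only [nm, List.map_map]
    congr 1
    apply List.map_congr_left
    intro v _
    simp only [Function.comp_apply]
    rw [← hEF, LinearEquiv.apply_symm_apply]
  have hq := hq_of_good Q'
  have hinv : invHom hG.nd hq (lp Q' (L.map (bcEquiv φ e).symm)) = (1, sgnF (nm (minusQF m 1 (φ ζ)) L)) := by
    rw [invHom_lp hG.nd hq hL'ne, invL, hnm]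
    have : Even (L.map (bcEquiv φ e).symm).length := by simpa using hLeven
    rw [this.neg_one_pow]
  have hmem : lp Q' (L.map (bcEquiv φ e).symm) ∈ SOg Q' := by
    rw [mem_SOg_iff_fst h2 hq, hinv]
  obtain ⟨s₁, hs₁⟩ : ∃ s₁ : ↥(SOg Q'), s₁.1 = lp Q' (L.map (bcEquiv φ e).symm) := ⟨⟨_, hmem⟩, rfl⟩
  have hmu : muO hq s₁ = sgnF (nm (minusQF m 1 (φ ζ)) L) := by
    rw [muO_apply, hs₁, hinv]
  refine ⟨glT e (dlM m 1 ζ ε α β heαβ hε), hg₁, KP_glT hcard hE hKP, ε, hεn, ?_, s₁, ?_, ?_, ?_⟩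
  · intro v
    rw [glT_coe, matT_mulVec, ← hE, LinearEquiv.apply_symm_apply, hsimK, hE]
  · rw [soAut_apply]
    refine psemiO_smul_eq _ _ _ (c := (d : F)) ?_ d.ne_zero
    have e1 : OG.mat s₁.1 = (((L.map (bcEquiv φ e).symm).map (rr Q')).prod) := by
      rw [hs₁, lp_mat hL'ne]
    have e2 : ((L.map (bcEquiv φ e).symm).map (rr Q')).prod = ((d⁻¹ : Fˣ) : F) • (((glT e (dlM m 1 ζ ε α β heαβ hε) : GL ι K) : Matrix ι ι K).map φ) := by
      rw [← matT_list hEF, hLmat, coe_scalar_mul, matT_smul]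
      congr 1
      exact matT_map φ e _
    show (((glT e (dlM m 1 ζ ε α β heαβ hε) : GL ι K) : Matrix ι ι K).map φ) = (d : F) • OG.mat s₁.1
    rw [e1, e2, smul_smul, Units.val_inv_eq_inv_val, mul_inv_cancel₀ d.ne_zero, one_smul]
  · intro h
    rw [hmu]
    exact hLs1 h
  · intro h
    rw [hmu]
    exact hLs2 h

end transport

end Cfsg.Agent.Lib.AutPOm
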