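import Cfsg.Agent.Lib.AutPOm.GfKey

/-! Involutory graph-field automorphisms of the plus-type groups. -/

set_option autoImplicit false
set_option linter.unusedSimpArgs false
set_option linter.unusedVariables false
set_option linter.unusedSectionVars false

namespace Cfsg.Agent.Lib.AutPOm

open Matrix Module MulAction Cfsg.Agent.Lib.Classical
open Cfsg.Agent.Lib.AutPSL (sm sm_apply sm_add sm_smul sm_symm_sm sm_sm_symm glMap glMap_coe semi_vec_ne_zero map_mulVec_sm coe_scalar_mul glMap_one exists_hom_of_rel exists_gal_equiv card_gal orderOf_conj' nrm isConjUnder_equiv exists_gl_of_nrm_one split_conj centConj)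
open Cfsg.Agent.Lib.ClassMax.OmegaCore (IsMaxTS imgOf mem_imgOf finrank_imgOf imgOf_mul imgOf_one imgOf_inf par_triple mem_iso_iff)
open Cfsg.Agent.Lib.Spinor (ndf rr rO lp nm U0 U0_maxTS mem_U0 finrank_U0 plusQF_nondeg rO_mat rO_inv matrix_ext lp_mat OG.mat exists_lp sgnF sgnF_of_sq sgnF_of_not_sq sgnF_eq_one_iff sgnF_mul sq_mul_of_not_sq invHom invHom_lp invL lp_cons lp_nil)
open Cfsg.Agent.Lib.Quad (NondegQ minusQF minusQF_apply plusQF plusQF_apply coe_plusQF exists_type_gen finrank_le_of_minus_singular anisotropic_of_zeta not_isSquare_disc disc_ne_zero isSquare_mul_iff_of_nonsquare)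
open Cfsg.Agent.Lib.FieldAut (fixedField mem_fixedField card_fixedField)
open scoped LinearAlgebra.Projectivization MatrixGroups

section forms

variable {F K : Type*} [Field F] [Field K] {ι : Type} [Fintype ι] [DecidableEq ι] {Q : QuadraticForm F (ι → F)}

theorem nd_of_nondegQ {R : QuadraticForm F (ι → F)} (h : NondegQ R) : (QuadraticMap.polarBilin R).Nondegenerate :=
  ⟨fun x hx => h x hx, fun y hy => h y (fun w => by
    rw [QuadraticMap.polar_comm]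
    exact hy w)⟩

theorem nondegQ_comp (hQ : NondegQ Q) (x : GL ι F) : NondegQ (Q.comp (Matrix.mulVecLin (x : Matrix ι ι F))) := by
  intro a ha
  have h2 : ∀ w, QuadraticMap.polar (DFunLike.coe Q) ((x : Matrix ι ι F) *ᵥ a) w = 0 := by
    intro w
    have h3 := ha (((x⁻¹ : GL ι F) : Matrix ι ι F) *ᵥ w)
    have h4 : QuadraticMap.polar (Q.comp (Matrix.mulVecLin (x : Matrix ι ι F))) a (((x⁻¹ : GL ι F) : Matrix ι ι F) *ᵥ w) = QuadraticMap.polar (DFunLike.coe Q) ((x : Matrix ι ι F) *ᵥ a) w := by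
      simp only [QuadraticMap.polar, QuadraticMap.comp_apply, Matrix.mulVecLin_apply, Matrix.mulVec_add, gl_mul_inv]
    rw [h4] at h3
    exact h3
  have h3 := hQ _ h2
  rw [← gl_inv_mul x a, h3, Matrix.mulVec_zero]

/-- Hilbert 90 for isometries, with the descended form. -/
theorem h90_iso [Finite F] {σ : F ≃+* F} (φ : K →+* F) (hφ' : ∀ b, σ (φ b) = φ b) (hφ : ∀ a, σ a = a → ∃ b, φ b = a)
    (hσ : ∀ v : ι → F, Q (sm σ v) = σ (Q v)) (hQ : NondegQ Q)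
    {g : GL ι F} (hiso : ∀ v, Q ((g : Matrix ι ι F) *ᵥ v) = Q v) {r : ℕ} (hr0 : 0 < r) (hr : orderOf σ = r) (h1 : nrm g σ r = 1) :
    ∃ (x : GL ι F) (q₀ : QuadraticForm K (ι → K)), g = x * (glMap σ x)⁻¹ ∧ NondegQ q₀ ∧
      (∀ v, φ (q₀ v) = Q ((x : Matrix ι ι F) *ᵥ bc φ v)) ∧ ∀ u, (Q.comp (Matrix.mulVecLin (x : Matrix ι ι F))) (sm σ u) = σ ((Q.comp (Matrix.mulVecLin (x : Matrix ι ι F))) u) := by
  obtain ⟨x, hx⟩ := exists_gl_of_nrm_one g σ hr0 hr h1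
  have hxg : ∀ w : ι → F, (x : Matrix ι ι F) *ᵥ w = (g : Matrix ι ι F) *ᵥ ((glMap σ x : GL ι F).1 *ᵥ w) := by
    intro w
    rw [Matrix.mulVec_mulVec, ← Units.val_mul, hx, inv_mul_cancel_right]
  have e1 : ∀ w : ι → F, (glMap σ x : GL ι F).1 *ᵥ sm σ w = sm σ ((x : Matrix ι ι F) *ᵥ w) := by
    intro w
    rw [glMap_coe, map_mulVec_sm]
  have hfix : ∀ u, (Q.comp (Matrix.mulVecLin (x : Matrix ι ι F))) (sm σ u) = σ ((Q.comp (Matrix.mulVecLin (x : Matrix ι ι F))) u) := by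
    intro u
    simp only [QuadraticMap.comp_apply, Matrix.mulVecLin_apply]
    rw [hxg (sm σ u), hiso, e1, hσ]
  obtain ⟨q₀, hq₀⟩ := exists_descent σ φ hφ' hφ _ hfix
  exact ⟨x, q₀, hx, nondeg_descent φ hq₀ (nondegQ_comp hQ x), fun v => by rw [hq₀]; rfl, hfix⟩

end forms

section level

variable {F K : Type*} [Field F] [Field K] [Fintype F] [Fintype K] {ι : Type} [Fintype ι] [DecidableEq ι] {Q' : QuadraticForm F (ι → F)} {q₂ : QuadraticForm K (ι → K)} [hG : Good Q'] [hG₀ : Good q₂] {n : ℕ}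

/-- The class count, after transport. -/
theorem gf_split_level (he : Even (Fintype.card ι)) (hne : ∃ v : ι → F, Q' v ≠ 0) (hne₀ : ∃ v, q₂ v ≠ 0) (φ : K →+* F) {σ : F ≃+* F} (hφ : ∀ a, σ a = a → ∃ b, φ b = a) (hφ' : ∀ b, σ (φ b) = φ b) (hσ2 : ∀ y, σ (σ y) = y)
    (hord : orderOf σ = 2) (hF : Fintype.card F = Fintype.card K ^ 2) (h2 : (2 : F) ≠ 0) (hσ' : ∀ v : ι → F, Q' (sm σ v) = σ (Q' v)) (hQφ : ∀ v, φ (q₂ v) = Q' (bc φ v)) {ζ : K} (hζ : ∀ t : K, t ^ 2 + t + ζ ≠ 0)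
    (e : (ι → K) ≃ₗ[K] ((Fin n ⊕ Fin n) ⊕ Fin 2 → K)) (he' : ∀ v, q₂ v = Cfsg.quadFormMinus n K 1 ζ (e v)) (hcard : Fintype.card ι = Fintype.card ((Fin n ⊕ Fin n) ⊕ Fin 2)) :
    ((IsSquare (-1 : K) ∧ Even n) → Cfsg.splitClassCount (GD he hne) (Cfsg.Inn (PO Q')) (psemiO 1 σ (semi_std hσ')) = 4) ∧
    (¬ (IsSquare (-1 : K) ∧ Even n) → Cfsg.splitClassCount (GD he hne) (Cfsg.Inn (PO Q')) (psemiO 1 σ (semi_std hσ')) = 2) := by
  have hF2 : ringChar F ≠ 2 := fun hc => h2 (by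
    have := CharP.cast_eq_zero F (ringChar F)
    rw [hc] at this
    exact_mod_cast this)
  have hsq := isSquare_of_index_two φ hF hF2
  have hneg := hneg_of_sq (Q := Q') (Q₀ := q₂) h2 φ hQφ he hsq
  obtain ⟨g₁, hg₁, hK₁, ε, hεn, hm₁, s₁, hs₁, hμ1, hμ2⟩ := gf_key (m := n) φ hφ hφ' hσ2 hF h2 hQφ hζ e he' hcard
  constructor
  · rintro ⟨hsqm, hn⟩
    have hμ : muO (hq_of_good Q') s₁ = 1 := by
      rw [hμ1 hsqm, hn.neg_one_pow]
    have hin := mem_inn_of_mu h2 (hq_of_good Q') s₁ hμ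
    rw [← hs₁] at hin
    apply split_four h2 he hne hneg
    intro δ hδ hc
    obtain ⟨g₀, hg₀, hK₀, rfl⟩ := cent_mem φ hφ hσ' hQφ he hne hne₀ (by norm_num) hord hδ hc
    exact cent_le_inn_of h2 he φ hQφ hne₀ hsq hg₁ hK₁ hεn hm₁ hin hg₀ hK₀
  · intro hnot
    have hμ : muO (hq_of_good Q') s₁ = -1 := by
      by_cases hsqm : IsSquare (-1 : K)
      · have hodd : Odd n := by
          rcases Nat.even_or_odd n with h3 | h3
          · exact absurd ⟨hsqm, h3⟩ hnot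
          · exact h3
        rw [hμ1 hsqm, hodd.neg_one_pow]
      · exact hμ2 hsqm
    apply split_two_gd h2 he hne hneg
    · intro δ hδ hc
      obtain ⟨g₀, hg₀, hK₀, rfl⟩ := cent_mem φ hφ hσ' hQφ he hne hne₀ (by norm_num) hord hδ hc
      exact map_mem_pso h2 φ hQφ he hne hsq hg₀ hK₀
    · refine ⟨_, map_mem_GD φ hQφ he hne hg₁ hK₁, map_comm φ hφ' hσ' hQφ hg₁, ?_⟩
      rw [hs₁, soAut_mem_inn_iff h2 he hneg, hμ]
      decide

end level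

section assembly

variable {F K : Type*} [Field F] [Field K] [Fintype F] [Fintype K] {ι : Type} [Fintype ι] [DecidableEq ι] {Q : QuadraticForm F (ι → F)} [hG : Good Q] {n : ℕ}

/-- The structure of the centraliser and the class count, for a semilinear involution with an isometric linear part. -/
theorem gf_abs (hn3 : 3 ≤ n) (he : Even (Fintype.card ι)) (hne : ∃ v, Q v ≠ 0) (hN : (GD he hne).Normal)
    (x α : MulAut (PO Q)) {σ : F ≃+* F} {r₀ : GL ι F} (hs₀ : Cfsg.IsSemisimilarityPair (⇑Q) r₀ σ) (hαx : α * x * α⁻¹ = psemiO r₀ σ hs₀)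
    (hr₀ : ∀ v, Q ((r₀ : Matrix ι ι F) *ᵥ v) = Q v) (hσ : ∀ v : ι → F, Q (sm σ v) = σ (Q v))
    (hnrm : nrm r₀ σ 2 = 1) (hord : orderOf σ = 2) (φ : K →+* F) (hφ : ∀ a, σ a = a → ∃ b, φ b = a) (hφ' : ∀ b, σ (φ b) = φ b) (hFK : Fintype.card F = Fintype.card K ^ 2)
    (hcl : ∀ (x₂ : GL ι F) (q₀ : QuadraticForm K (ι → K)), r₀ = x₂ * (glMap σ x₂)⁻¹ → NondegQ q₀ → (∀ v, φ (q₀ v) = Q ((x₂ : Matrix ι ι F) *ᵥ bc φ v)) →
      ∃ (ζ : K) (_ : ∀ t : K, t ^ 2 + t + ζ ≠ 0) (e : (ι → K) ≃ₗ[K] ((Fin n ⊕ Fin n) ⊕ Fin 2 → K)), ∀ v, q₀ v = Cfsg.quadFormMinus n K 1 ζ (e v))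
    (hcard : Fintype.card ι = Fintype.card ((Fin n ⊕ Fin n) ⊕ Fin 2)) :
    (∃ (ζ : K) (_ : ∀ z₁ z₂ : K, z₁ ^ 2 + 1 * z₁ * z₂ + ζ * z₂ ^ 2 = 0 → z₁ = 0 ∧ z₂ = 0),
      Nonempty (↥(GD he hne ⊓ Subgroup.centralizer {x}) ≃* ↥(GD (Q := minusQF n 1 ζ) (even_JJ n) (minus_ne 1 ζ)))) ∧
    ((2 : F) ≠ 0 → (IsSquare (-1 : K) ∧ Even n) → Cfsg.splitClassCount (GD he hne) (Cfsg.Inn (PO Q)) x = 4) ∧
    ((2 : F) ≠ 0 → ¬ (IsSquare (-1 : K) ∧ Even n) → Cfsg.splitClassCount (GD he hne) (Cfsg.Inn (PO Q)) x = 2) := by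
  have hσ2 : ∀ y, σ (σ y) = y := by
    intro y
    have h1 : σ * σ = 1 := by
      rw [← pow_two, ← hord, pow_orderOf_eq_one]
    have := congrArg (fun τ : F ≃+* F => τ y) h1
    exact this
  obtain ⟨x₂, q₂, hx₂, hn₂, hq₂, hfix⟩ := h90_iso φ hφ' hφ hσ (NondegQ.of_polarBilin hG.nd) hr₀ (by norm_num) hord hnrm
  obtain ⟨ζ, hζ, e, he'⟩ := hcl x₂ q₂ hx₂ hn₂ hq₂
  obtain ⟨Q', hQ'⟩ : ∃ Q' : QuadraticForm F (ι → F), Q' = Q.comp (Matrix.mulVecLin (x₂ : Matrix ι ι F)) := ⟨_, rfl⟩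
  have hH : ∀ v, Q ((x₂ : Matrix ι ι F) *ᵥ v) = Q' v := fun v => by rw [hQ']; rfl
  have hσ' : ∀ v : ι → F, Q' (sm σ v) = σ (Q' v) := fun v => by rw [hQ']; exact hfix v
  have hQφ : ∀ v, φ (q₂ v) = Q' (bc φ v) := fun v => by rw [hq₂, hH]
  have hnd' : NondegQ Q' := by
    rw [hQ']
    exact nondegQ_comp (NondegQ.of_polarBilin hG.nd) x₂
  haveI hG' : Good Q' := ⟨nd_of_nondegQ hnd', hG.big⟩
  haveI hG₀ : Good q₂ := ⟨nd_of_nondegQ hn₂, hG.big⟩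
  have hne' := ne_of_good (Q := Q')
  have hne₀ := ne_of_good (Q := q₂)
  have hT1 : MulAut.congr (poTr x₂ hH) (psemiO 1 σ (semi_std hσ')) = psemiO r₀ σ hs₀ := by
    rw [poTr_conj]
    exact psemiO_congr (by rw [mul_one, ← hx₂]) rfl
  obtain ⟨Ψ, hΨ⟩ : ∃ Ψ : MulAut (PO Q) ≃* MulAut (PO Q'), Ψ = (MulAut.conj α).trans (MulAut.congr (poTr x₂ hH)).symm := ⟨_, rfl⟩
  have hΨc : ∀ y, MulAut.congr (poTr x₂ hH) (Ψ y) = MulAut.conj α y := by
    intro y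
    rw [hΨ]
    exact MulEquiv.apply_symm_apply _ _
  have hΨx : Ψ x = psemiO 1 σ (semi_std hσ') := by
    apply (MulAut.congr (poTr x₂ hH)).injective
    rw [hΨc, hT1, ← hαx]
    rfl
  have hconjG : ∀ y, MulAut.conj α y ∈ GD he hne ↔ y ∈ GD he hne := by
    intro y
    constructor
    · intro hy
      have h1 := hN.conj_mem _ hy α⁻¹
      have e1 : α⁻¹ * (MulAut.conj α y) * α⁻¹⁻¹ = y := by
        rw [MulAut.conj_apply]
        group
      rwa [e1] at h1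
    · intro hy
      exact hN.conj_mem _ hy α
  have hGΨ : ∀ y, Ψ y ∈ GD (Q := Q') he hne' ↔ y ∈ GD he hne := by
    intro y
    rw [← GD_tr x₂ hH he hne hne', hΨc, hconjG]
  have hIΨ : ∀ y, Ψ y ∈ Cfsg.Inn (PO Q') ↔ y ∈ Cfsg.Inn (PO Q) := by
    intro y
    rw [← inn_congr (poTr x₂ hH), hΨc, inn_conj]
  have hE : ∀ v, minusQF n 1 ζ (e v) = q₂ v := fun v => (he' v).symm
  have hab := anisotropic_of_zeta hζ
  haveI hGm : Good (minusQF n 1 ζ) := good_minus hab hn3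
  have hsplit : (2 : F) ≠ 0 → _ := fun h2 => gf_split_level (n := n) he hne' hne₀ φ hφ hφ' hσ2 hord hFK h2 hσ' hQφ hζ e he' hcard
  have hcount := split_tr Ψ hGΨ hIΨ x
  rw [hΨx] at hcount
  refine ⟨⟨ζ, hab, ?_⟩, fun h2 h3 => ?_, fun h2 h3 => ?_⟩
  · obtain ⟨e₁⟩ := centTr Ψ (GD he hne) (GD (Q := Q') he hne') hGΨ x
    rw [hΨx] at e₁
    obtain ⟨e₂⟩ := cent_equiv_gen φ hφ' hφ hσ' hQφ hne₀ (DQ Q' he hne') DQ_le (DQ q₂ he hne₀) DQ_le
      (fun g hg => ⟨map_mem_sim φ hQφ hg.1, KP_map φ hQφ hg.2⟩)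
      (fun g hg h => ⟨hg, KP_of_map φ hQφ he hG'.nd (hq_of_good Q') hG₀.nd (hq_of_good q₂) hne₀ hg h.2⟩)
      (fun t => scalar_mem_DQ he hne' t) (by norm_num) hord
    obtain ⟨e₃⟩ := GD_index_equiv hcard he (even_JJ n) hne₀ (minus_ne 1 ζ) e hE
    exact ⟨e₁.trans (e₂.trans e₃)⟩
  · rw [hcount]
    exact (hsplit h2).1 h3
  · rw [hcount]
    exact (hsplit h2).2 h3

end assembly

section unique

theorem eq_of_order_two {G : Type*} [Group G] [Finite G] (hcyc : IsCyclic G) {a b : G} (ha : orderOf a = 2) (hb : orderOf b = 2) : a = b := by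
  classical
  have : Fintype G := Fintype.ofFinite G
  have h2 : 2 ∣ Fintype.card G := by
    rw [← ha]
    exact orderOf_dvd_card
  have h := IsCyclic.card_orderOf_eq_totient h2
  rw [Nat.totient_two] at h
  exact Finset.card_le_one.1 (le_of_eq h) a (by simp [ha]) b (by simp [hb])

variable {F : Type*} [Field F] [Fintype F] {m : ℕ}

theorem sim_of_semi_hyp {g : GL (Fin m ⊕ Fin m) F} {τ : F ≃+* F} (hs : Cfsg.IsSemisimilarityPair (⇑(hypQF m F)) g τ) : g ∈ Sim (hypQF m F) := by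
  obtain ⟨c, hc⟩ := semi_Q hs
  refine ⟨c, fun v => ?_⟩
  have h1 := hc (sm τ.symm v)
  rw [sm_sm_symm] at h1
  rw [h1, ← hyp_sm, sm_sm_symm]

theorem glMap_symm_glMap_hyp (τ : F ≃+* F) (g : GL (Fin m ⊕ Fin m) F) : glMap τ.symm (glMap τ g) = g := by
  apply Units.ext
  rw [glMap_coe, glMap_coe]
  ext i j
  simp

theorem glMap_mem_sim (τ : F ≃+* F) {g : GL (Fin m ⊕ Fin m) F} (hg : g ∈ Sim (hypQF m F)) : glMap τ g ∈ Sim (hypQF m F) := by
  obtain ⟨c, hc⟩ := hg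
  refine ⟨Units.map (τ : F →* F) c, fun v => ?_⟩
  exact mult_glMap (hyp_sm τ) hc v

theorem KP_glMap (hm : 4 ≤ m) (τ : F ≃+* F) {g : GL (Fin m ⊕ Fin m) F} (hg : g ∈ Sim (hypQF m F)) (hK : KP (hypQF m F) g) : KP (hypQF m F) (glMap τ g) := by
  have : Good (hypQF m F) := good_hyp hm
  have := KP_conj hg hK (semi_std (hyp_sm (m := m) τ))
  simpa using this

theorem KP_glMap_iff (hm : 4 ≤ m) (τ : F ≃+* F) {g : GL (Fin m ⊕ Fin m) F} (hg : g ∈ Sim (hypQF m F)) : KP (hypQF m F) (glMap τ g) ↔ KP (hypQF m F) g := by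
  constructor
  · intro h
    have := KP_glMap hm τ.symm (glMap_mem_sim τ hg) h
    rwa [glMap_symm_glMap_hyp] at this
  · exact KP_glMap hm τ hg

theorem KP_mul_iff (hm : 4 ≤ m) {a b : GL (Fin m ⊕ Fin m) F} (ha : a ∈ Sim (hypQF m F)) (hb : b ∈ Sim (hypQF m F)) :
    KP (hypQF m F) (a * b) ↔ (KP (hypQF m F) a ↔ KP (hypQF m F) b) := by
  have : Good (hypQF m F) := good_hyp hm
  have hne := ne_of_good (Q := hypQF m F)
  constructor
  · intro h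
    exact ⟨fun h1 => KP_of_mul_left (even_II m) hne h1 h, fun h1 => KP_of_mul_right (even_II m) hne h1 h⟩
  · intro h
    by_cases h1 : KP (hypQF m F) a
    · exact KP_mul h1 (h.1 h1)
    · exact KP_mul_of_not (even_II m) hne ha hb h1 (fun h3 => h1 (h.2 h3))

/-- Conjugates of a graph-field involution by automorphisms of the group are conjugate by the inner-diagonal group. -/
theorem gf_unique_core (hm : 5 ≤ m) (hcyc : IsCyclic (F ≃+* F)) {σ σ₁ : F ≃+* F} (hord : orderOf σ = 2) (hord₁ : orderOf σ₁ = 2) {v v₁ : Fin m ⊕ Fin m → F}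
    (hv : hypQF m F v ≠ 0) (hv₁ : hypQF m F v₁ ≠ 0) (hfix : sm σ v = v) (hs₀ : Cfsg.IsSemisimilarityPair (⇑(hypQF m F)) (rO (hypQF m F) v).1 σ)
    (hs₁ : Cfsg.IsSemisimilarityPair (⇑(hypQF m F)) (rO (hypQF m F) v₁).1 σ₁) (A y' : MulAut (PO (hypQF m F))) (hy' : y' = A * psemiO (rO (hypQF m F) v₁).1 σ₁ hs₁ * A⁻¹) (hy2 : y' ^ 2 = 1) :
    ∃ (z : GL (Fin m ⊕ Fin m) F) (hz : z ∈ Sim (hypQF m F)), KP (hypQF m F) z ∧
      y' = psemiO z (RingEquiv.refl F) (semi_of_sim hz) * psemiO (rO (hypQF m F) v).1 σ hs₀ * (psemiO z (RingEquiv.refl F) (semi_of_sim hz))⁻¹ := by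
  have hm4 : 4 ≤ m := by omega
  have : Good (hypQF m F) := good_hyp hm4
  have : Finite (F ≃+* F) := Finite.of_injective (fun s : F ≃+* F => (s : F → F)) DFunLike.coe_injective
  have hσ₁ : σ₁ = σ := eq_of_order_two hcyc hord₁ hord
  subst hσ₁
  obtain ⟨M, τ', hsM, hA⟩ := hall_plus hm A
  obtain ⟨g', τ, hs', hY⟩ := hall_plus hm y'
  subst hA hY
  have h1 : psemiO g' τ hs' * psemiO M τ' hsM = psemiO M τ' hsM * psemiO (rO (hypQF m F) v₁).1 σ₁ hs₁ := by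
    rw [hy']
    group
  rw [psemiO_mul, psemiO_mul] at h1
  obtain ⟨hτ, c, hc0, hc⟩ := psemiO_inj h1
  have hcomm : ∀ a b : F ≃+* F, a * b = b * a := fun a b => (IsCyclic.commGroup (α := F ≃+* F)).mul_comm a b
  have hτσ : τ = σ₁ := by
    have h3 : τ * τ' = σ₁ * τ' := by
      have h4 : τ * τ' = τ' * σ₁ := hτ
      rw [h4, hcomm]
    exact mul_right_cancel h3
  subst hτσ
  have hg'S := sim_of_semi_hyp hs'
  have hMS := sim_of_semi_hyp hsM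
  have hr₁S : (rO (hypQF m F) v₁).1 ∈ Sim (hypQF m F) := og_le_sim (rO (hypQF m F) v₁).2
  have hr₁K : ¬ KP (hypQF m F) (rO (hypQF m F) v₁).1 := not_KP_rO (hypQF_nd m) (hq_of_good (hypQF m F)) hv₁
  have hL : KP (hypQF m F) (g' * glMap τ M) ↔ (KP (hypQF m F) g' ↔ KP (hypQF m F) M) := by
    rw [KP_mul_iff hm4 hg'S (glMap_mem_sim τ hMS), KP_glMap_iff hm4 τ hMS]
  have hR : KP (hypQF m F) (M * glMap τ' (rO (hypQF m F) v₁).1) ↔ (KP (hypQF m F) M ↔ KP (hypQF m F) (rO (hypQF m F) v₁).1) := by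
    rw [KP_mul_iff hm4 hMS (glMap_mem_sim τ' hr₁S), KP_glMap_iff hm4 τ' hr₁S]
  have hsc : g' * glMap τ M = Matrix.GeneralLinearGroup.scalar _ (Units.mk0 c hc0) * (M * glMap τ' (rO (hypQF m F) v₁).1) := by
    apply Units.ext
    rw [coe_scalar_mul]
    exact hc
  have hLR : KP (hypQF m F) (g' * glMap τ M) ↔ KP (hypQF m F) (M * glMap τ' (rO (hypQF m F) v₁).1) := by
    rw [hsc]
    have hne := ne_of_good (Q := hypQF m F)
    exact ⟨fun h => KP_of_mul_left (even_II m) hne (KP_scalar (even_II m) _) h, fun h => KP_mul (KP_scalar (even_II m) _) h⟩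
  have hK' : ¬ KP (hypQF m F) g' := by
    intro h3
    by_cases h4 : KP (hypQF m F) M
    · have h5 := hL.2 ⟨fun _ => h4, fun _ => h3⟩
      exact hr₁K ((hR.1 (hLR.1 h5)).1 h4)
    · have h5 : ¬ KP (hypQF m F) (g' * glMap τ M) := fun h6 => h4 ((hL.1 h6).1 h3)
      have h6 : KP (hypQF m F) (M * glMap τ' (rO (hypQF m F) v₁).1) := hR.2 ⟨fun h => absurd h h4, fun h => absurd h hr₁K⟩
      exact h5 (hLR.2 h6)
  exact plus_gf_core (by omega) hv hfix hord hg'S hK' hs' hy2 hs₀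

end unique

section final

variable {F : Type*} [Field F] [Fintype F] {m : ℕ}

/-- Unwrapping a graph-field automorphism of prime order. -/
theorem gf_setup_aux (hm : 4 ≤ m) (x : MulAut (PO (hypQF m F))) {r : ℕ} (hr : r.Prime) (hxr : orderOf x = r)
    (α γ φ : MulAut (PO (hypQF m F))) (σ : F ≃+* F) (v : Fin m ⊕ Fin m → F) (r₀ : GL (Fin m ⊕ Fin m) F) (hσ1 : σ ≠ RingEquiv.refl F) (hv' : hypQF m F v ≠ 0) (hvfix : ∀ i, σ (v i) = v i)
    (hr₀ : (r₀ : Matrix _ _ F) = Cfsg.reflectionMatrix (⇑(hypQF m F)) v) (hγ : Cfsg.IsInducedBySemilinearPOmega (⇑(hypQF m F)) r₀ (RingEquiv.refl F) γ)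
    (hφ : Cfsg.IsFieldAutPOmegaOf (⇑(hypQF m F)) σ φ) (hαx : α * x * α⁻¹ = γ * φ) :
    ∃ hs₀ : Cfsg.IsSemisimilarityPair (⇑(hypQF m F)) (rO (hypQF m F) v).1 σ, sm σ v = v ∧ r = 2 ∧ orderOf σ = 2 ∧ α * x * α⁻¹ = psemiO (rO (hypQF m F) v).1 σ hs₀ := by
  have : Good (hypQF m F) := good_hyp hm
  have hσ := hyp_sm (m := m) σ
  have hφ' := stdField_eq hσ hφ
  subst hφ'
  have hfix : sm σ v = v := funext hvfix
  have hrr : r₀ = (rO (hypQF m F) v).1 := by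
    apply Units.ext
    rw [hr₀]
    exact (rO_mat hv').symm
  subst hrr
  have hγ' := induced_eq (Q := hypQF m F) (hs := semi_of_og _) hγ
  subst hγ'
  have hs₁ : Cfsg.IsSemisimilarityPair (⇑(hypQF m F)) ((rO (hypQF m F) v).1 * 1) σ := by
    have := semi_mul_mem (semi_of_og (rO (hypQF m F) v)) (semi_std hσ)
    rwa [glMap_one] at this
  have hs₀ : Cfsg.IsSemisimilarityPair (⇑(hypQF m F)) (rO (hypQF m F) v).1 σ := by rwa [mul_one] at hs₁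
  have e1 : α * x * α⁻¹ = psemiO (rO (hypQF m F) v).1 σ hs₀ := by
    rw [hαx, psemiO_refl_mul (semi_of_og _) (semi_std hσ) hs₁]
    exact psemiO_congr (mul_one _) rfl
  have hxr' : orderOf (psemiO (rO (hypQF m F) v).1 σ hs₀) = r := by
    rw [← e1, orderOf_conj', hxr]
  obtain ⟨hr2, hordσ⟩ := gf_order hm hσ1 hv' hfix hs₀ hr hxr'
  exact ⟨hs₀, hfix, hr2, hordσ, e1⟩

theorem gf_setup (hm : 4 ≤ m) (x : MulAut (PO (hypQF m F))) (hx : Cfsg.IsGraphFieldAutClassPOmegaPlus m x) {r : ℕ} (hr : r.Prime) (hxr : orderOf x = r) :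
    ∃ (α : MulAut (PO (hypQF m F))) (σ : F ≃+* F) (v : Fin m ⊕ Fin m → F) (hs₀ : Cfsg.IsSemisimilarityPair (⇑(hypQF m F)) (rO (hypQF m F) v).1 σ),
      hypQF m F v ≠ 0 ∧ sm σ v = v ∧ r = 2 ∧ orderOf σ = 2 ∧ α * x * α⁻¹ = psemiO (rO (hypQF m F) v).1 σ hs₀ := by
  obtain ⟨α, γ, φ, σ, v, r₀, hσ1, hv, hvfix, hr₀, hγ, hφ, hαx⟩ := hx
  obtain ⟨hs₀, h1, h2, h3, h4⟩ := gf_setup_aux hm x hr hxr α γ φ σ v r₀ hσ1 hv hvfix hr₀ hγ hφ hαx
  exact ⟨α, σ, v, hs₀, hv, h1, h2, h3, h4⟩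

end final

section result

theorem conj_back {G : Type*} [Group G] {D : Subgroup G} (hN : D.Normal) {x y α X₀ Z : G} (hx₀ : α * x * α⁻¹ = X₀) (hZ : Z ∈ D) (he : α * y * α⁻¹ = Z * X₀ * Z⁻¹) : Cfsg.IsConjUnder D x y := by
  refine ⟨α⁻¹ * Z * α, ?_, ?_⟩
  · have := hN.conj_mem Z hZ α⁻¹
    simpa using this
  · have h4 : y = α⁻¹ * (α * y * α⁻¹) * α := by group
    rw [h4, he, ← hx₀]
    group

variable {F : Type*} [Field F] [Fintype F] {m : ℕ}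

/-- Any two graph-field involutions are conjugate. -/
theorem gf_unique (hm : 5 ≤ m) (hcyc : IsCyclic (F ≃+* F)) {hne : ∃ v : Fin m ⊕ Fin m → F, hypQF m F v ≠ 0} (hN : (GD (even_II m) hne).Normal) {x α : MulAut (PO (hypQF m F))} {σ : F ≃+* F} {v : Fin m ⊕ Fin m → F} (hv : hypQF m F v ≠ 0) (hfix : sm σ v = v)
    (hs₀ : Cfsg.IsSemisimilarityPair (⇑(hypQF m F)) (rO (hypQF m F) v).1 σ) (hord : orderOf σ = 2) (hαx : α * x * α⁻¹ = psemiO (rO (hypQF m F) v).1 σ hs₀)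
    (y : MulAut (PO (hypQF m F))) (hy : Cfsg.IsGraphFieldAutClassPOmegaPlus m y) (hy2 : orderOf y = 2) : Cfsg.IsConjUnder (GD (even_II m) hne) x y := by
  have hm4 : 4 ≤ m := by omega
  have hG : Good (hypQF m F) := good_hyp hm4
  obtain ⟨β, σ₁, v₁, hs₁, hv₁, hfix₁, -, hord₁, hβy⟩ := gf_setup hm4 y hy Nat.prime_two hy2
  obtain ⟨y', hy'def⟩ : ∃ y' : MulAut (PO (hypQF m F)), y' = α * y * α⁻¹ := ⟨_, rfl⟩
  have hy' : y' = (α * β⁻¹) * psemiO (rO (hypQF m F) v₁).1 σ₁ hs₁ * (α * β⁻¹)⁻¹ := by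
    rw [← hβy, hy'def]
    group
  have hy2' : y' ^ 2 = 1 := by
    rw [hy'def, ← hy2, ← orderOf_conj' α y, pow_orderOf_eq_one]
  obtain ⟨z, hz, hKz, hhe⟩ := gf_unique_core hm hcyc hord hord₁ hv hv₁ hfix hs₀ hs₁ _ y' hy' hy2'
  exact conj_back hN hαx (mem_GD.2 ⟨z, hz, hKz, rfl⟩) (by rw [← hy'def]; exact hhe)

/-- `S2717`. -/
theorem gf_main {p f : ℕ} [Fact p.Prime] (hF : Fintype.card F = p ^ f) (hf : 1 ≤ f) (hm : 5 ≤ m) (x : MulAut (Cfsg.POmega F (Cfsg.quadFormPlus m F))) (hx : Cfsg.IsGraphFieldAutClassPOmegaPlus m x) (hx2 : orderOf x = 2)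
    (F₀ : Type*) [Field F₀] [Fintype F₀] (hF₀ : Fintype.card F₀ = p ^ (f / 2)) :
    Even f ∧ (∀ y : MulAut (Cfsg.POmega F (Cfsg.quadFormPlus m F)), Cfsg.IsGraphFieldAutClassPOmegaPlus m y → orderOf y = 2 → Cfsg.IsConjUnder (Cfsg.inndiagPOmegaPlus m F) x y) ∧
    (∃ a₀ b₀ : F₀, (∀ z₁ z₂ : F₀, z₁ ^ 2 + a₀ * z₁ * z₂ + b₀ * z₂ ^ 2 = 0 → z₁ = 0 ∧ z₂ = 0) ∧ Nonempty (↥(Cfsg.inndiagPOmegaPlus m F ⊓ Subgroup.centralizer {x}) ≃* ↥(Cfsg.inndiagPOmegaMinus (m - 1) F₀ a₀ b₀))) ∧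
    (p = 2 → Cfsg.splitClassCount (Cfsg.inndiagPOmegaPlus m F) (Cfsg.Inn (Cfsg.POmega F (Cfsg.quadFormPlus m F))) x = 1) ∧
    ((p ≠ 2 ∧ Odd m ∧ p ^ (f / 2) % 4 = 1) → Cfsg.splitClassCount (Cfsg.inndiagPOmegaPlus m F) (Cfsg.Inn (Cfsg.POmega F (Cfsg.quadFormPlus m F))) x = 4) ∧
    ((p ≠ 2 ∧ ¬ (Odd m ∧ p ^ (f / 2) % 4 = 1)) → Cfsg.splitClassCount (Cfsg.inndiagPOmegaPlus m F) (Cfsg.Inn (Cfsg.POmega F (Cfsg.quadFormPlus m F))) x = 2) := by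
  classical
  have hp : p.Prime := Fact.out
  have hm4 : 4 ≤ m := by omega
  have hG : Good (hypQF m F) := good_hyp hm4
  have hne := ne_of_good (Q := hypQF m F)
  have einn := inndiag_plus_eq (F := F) (m := m) (by omega) hne
  obtain ⟨α, σ, v, hs₀, hv, hfix, -, hord, hαx⟩ := gf_setup hm4 x hx Nat.prime_two hx2
  have hN := GD_normal (even_II m) hne (hall_plus hm)
  have hgal := card_gal (F := F) hf hF
  have h2f : 2 ∣ f := by
    rw [← hgal.2, ← hord]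
    exact orderOf_dvd_natCard σ
  have hfr : 2 * (f / 2) = f := Nat.mul_div_cancel' h2f
  have hF1 : Fintype.card F = (p ^ (f / 2)) ^ 2 := by
    rw [hF, ← pow_mul, mul_comm, hfr]
  have hK1 : Nat.card (fixedField σ) = p ^ (f / 2) := card_fixedField two_ne_zero hF1 σ hord
  have : Fintype (fixedField σ) := Fintype.ofFinite _
  have e₀ : F₀ ≃+* fixedField σ := FiniteField.ringEquivOfCardEq (by
    rw [hF₀, ← Nat.card_eq_fintype_card, hK1])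
  obtain ⟨φ, hφdef⟩ : ∃ φ : F₀ →+* F, φ = (fixedField σ).subtype.comp (e₀ : F₀ →+* fixedField σ) := ⟨_, rfl⟩
  have hφ' : ∀ b, σ (φ b) = φ b := fun b => by
    rw [hφdef]
    exact mem_fixedField.1 (e₀ b).2
  have hφ : ∀ a, σ a = a → ∃ b, φ b = a := fun a ha => ⟨e₀.symm ⟨a, mem_fixedField.2 ha⟩, by
    rw [hφdef]
    show ((e₀ (e₀.symm ⟨a, mem_fixedField.2 ha⟩) : fixedField σ) : F) = a
    rw [e₀.apply_symm_apply]⟩
  have hFK : Fintype.card F = Fintype.card F₀ ^ 2 := by rw [hF₀]; exact hF1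
  have hσ := hyp_sm (m := m) σ
  have hr₀s : (rO (hypQF m F) v).1 ∈ Sim (hypQF m F) := og_le_sim (rO (hypQF m F) v).2
  have hr₀K : ¬ KP (hypQF m F) (rO (hypQF m F) v).1 := not_KP_rO (hypQF_nd m) (hq_of_good (hypQF m F)) hv
  have hr₀n : nrm (rO (hypQF m F) v).1 σ 2 = 1 := by
    have e1 := glMap_rO hσ hv hfix
    have e2 : (rO (hypQF m F) v).1 * (rO (hypQF m F) v).1 = 1 := congrArg Subtype.val (Cfsg.Agent.Lib.Spinor.rO_mul_self v)
    simp only [nrm, map_mul, map_one, mul_one, e1, e2]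
  have hcard : Fintype.card (Fin m ⊕ Fin m) = Fintype.card ((Fin (m - 1) ⊕ Fin (m - 1)) ⊕ Fin 2) := by
    simp only [Fintype.card_sum, Fintype.card_fin]
    omega
  obtain ⟨hc1, hc2, hc3⟩ := gf_abs (n := m - 1) (Q := hypQF m F) (K := F₀) (by omega) (even_II m) hne hN x α hs₀ hαx (fun w => oM_Q (rO (hypQF m F) v) w) hσ hr₀n hord φ hφ hφ' hFK
    (fun x₂ q₀ hx₂ hn hq => type_of_not_KP (m := m) (by omega) φ hφ' hn (b := 1) one_ne_zero (fun w => by rw [hq, inv_one, one_mul]) (hx₂ ▸ hr₀s) (hx₂ ▸ hr₀K)) hcard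
  have hchar : CharP F p := Cfsg.Agent.Lib.AutPSL.charP_of_card hf hF
  have h2iff : (2 : F) ≠ 0 ↔ p ≠ 2 := by
    constructor
    · rintro h3 rfl
      apply h3
      exact_mod_cast CharP.cast_eq_zero F 2
    · intro h3 h4
      have h5 : p ∣ 2 := (CharP.cast_eq_zero_iff F p 2).1 (by exact_mod_cast h4)
      exact h3 ((Nat.prime_dvd_prime_iff_eq hp Nat.prime_two).1 h5)
  refine ⟨even_iff_two_dvd.2 h2f, ?_, ?_, ?_, ?_, ?_⟩
  · intro y hy hy2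
    rw [einn]
    exact gf_unique hm hgal.1 hN hv hfix hs₀ hord hαx y hy hy2
  · obtain ⟨ζ, hab, he⟩ := hc1
    refine ⟨1, ζ, hab, ?_⟩
    rw [einn, inndiag_minus_eq hab (m := m - 1) (by omega)]
    exact he
  · rintro rfl
    have h2 : (2 : F) = 0 := by exact_mod_cast CharP.cast_eq_zero F 2
    rw [einn]
    apply split_one_of_fact
    intro δ hδ
    obtain ⟨g, hg, hK, rfl⟩ := mem_GD.1 hδ
    exact ⟨_, (KP_iff_inn h2 hg).2 hK, 1, Subgroup.one_mem _, Subgroup.one_mem _, (mul_one _).symm⟩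
  · rintro ⟨h3, h4, h5⟩
    rw [einn]
    refine hc2 (h2iff.2 h3) ⟨?_, ?_⟩
    · rw [FiniteField.isSquare_neg_one_iff, hF₀]
      omega
    · obtain ⟨k, hk⟩ := h4
      exact ⟨k, by omega⟩
  · rintro ⟨h3, h4⟩
    rw [einn]
    refine hc3 (h2iff.2 h3) ?_
    rintro ⟨h5, h6⟩
    apply h4
    rw [FiniteField.isSquare_neg_one_iff, hF₀] at h5
    have hpo : Odd (p ^ (f / 2)) := (hp.odd_of_ne_two h3).pow
    have hpo' := Nat.odd_iff.1 hpo
    refine ⟨?_, by omega⟩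
    obtain ⟨k, hk⟩ := h6
    exact ⟨k, by omega⟩

end result

end Cfsg.Agent.Lib.AutPOm
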