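import Cfsg.Agent.Lib.AutPOm.GrBase

/-! Elements with non-square spinor norm commuting with an involutory similarity. -/

set_option autoImplicit false
set_option linter.unusedSimpArgs false
set_option linter.unusedVariables false
set_option linter.unusedSectionVars false

namespace Cfsg.Agent.Lib.AutPOm

open Matrix Module MulAction Cfsg.Agent.Lib.Classical
open Cfsg.Agent.Lib.ClassMax.OmegaCore (mem_iso_iff)
open Cfsg.Agent.Lib.Spinor (ndf rr rO lp nm invL sgnF sgnF_of_sq sgnF_of_not_sq sgnF_eq_one_iff sgnF_mul exists_lp lp_mat lp_cons lp_nil rO_mat matrix_ext OG.mat)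
open scoped MatrixGroups

variable {F : Type*} [Field F] {ι : Type} [Fintype ι] [DecidableEq ι] {Q : QuadraticForm F (ι → F)}

local notation "VV" => (ι → F)
local notation "MM" => Matrix ι ι F
local notation "GG" => GL ι F
local notation "bb" => QuadraticMap.polar (DFunLike.coe Q)

/-- The eigenspace. -/
def eigW (g : MM) (d : F) : Submodule F VV := LinearMap.ker (g - d • (1 : MM)).mulVecLin

theorem mem_eigW {g : MM} {d : F} {x : VV} : x ∈ eigW g d ↔ g *ᵥ x = d • x := by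
  rw [eigW, LinearMap.mem_ker, Matrix.mulVecLin_apply, Matrix.sub_mulVec, Matrix.smul_mulVec, Matrix.one_mulVec, sub_eq_zero]

theorem eig_comm {g : GG} {c d : F} (hc0 : c ≠ 0) (hc : ∀ v, Q ((g : MM) *ᵥ v) = c * Q v) (hd : d ≠ 0) {a : VV} (ha : a ∈ eigW (g : MM) d) (hQ : Q a ≠ 0) :
    (g : MM) * rr Q a = rr Q a * (g : MM) := by
  rw [rr_conj' hc0 hc hQ, mem_eigW.1 ha, rr_smul hd]

theorem eig_split (h2 : (2 : F) ≠ 0) {g : MM} {l d : F} (hd0 : d ≠ 0) (hd : d * d = l) (hgg : g * g = l • (1 : MM)) (y : VV) :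
    ∃ y₁ y₂ : VV, y₁ ∈ eigW g d ∧ y₂ ∈ eigW g (-d) ∧ y = y₁ + y₂ := by
  have hgg' : ∀ x : VV, g *ᵥ (g *ᵥ x) = l • x := by
    intro x
    rw [Matrix.mulVec_mulVec, hgg, Matrix.smul_mulVec, Matrix.one_mulVec]
  have h2d : 2 * d ≠ 0 := mul_ne_zero h2 hd0
  refine ⟨(2 * d)⁻¹ • (g *ᵥ y + d • y), (2 * d)⁻¹ • (d • y - g *ᵥ y), ?_, ?_, ?_⟩
  · apply mem_eigW.2
    rw [Matrix.mulVec_smul, Matrix.mulVec_add, Matrix.mulVec_smul, hgg', ← hd]
    module
  · apply mem_eigW.2
    rw [Matrix.mulVec_smul, Matrix.mulVec_sub, Matrix.mulVec_smul, hgg', ← hd]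
    module
  · rw [← smul_add]
    have : (g *ᵥ y + d • y) + (d • y - g *ᵥ y) = (2 * d) • y := by
      rw [two_mul, add_smul]
      abel
    rw [this, smul_smul, inv_mul_cancel₀ h2d, one_smul]

section bad

variable [Fintype F] [h : Good Q]

/-- The eigenspace case. -/
theorem bad_eig (h2 : (2 : F) ≠ 0) {g : GG} {l d : F} (hl : l ≠ 0) (hc : ∀ v, Q ((g : MM) *ᵥ v) = l * Q v) (hadj : ∀ x y : VV, bb ((g : MM) *ᵥ x) y = bb x ((g : MM) *ᵥ y))
    (hgg : (g : MM) * (g : MM) = l • (1 : MM)) (hd : d * d = l) (hfin : 2 ≤ Module.finrank F (eigW (g : MM) d)) :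
    ∃ a b : VV, Q a ≠ 0 ∧ Q b ≠ 0 ∧ ¬ IsSquare (Q a * Q b) ∧ (g : MM) * (rr Q a * rr Q b) = (rr Q a * rr Q b) * (g : MM) := by
  classical
  have hd0 : d ≠ 0 := by
    rintro rfl
    apply hl
    rw [← hd, mul_zero]
  have hgg' : ∀ x : VV, (g : MM) *ᵥ ((g : MM) *ᵥ x) = l • x := by
    intro x
    rw [Matrix.mulVec_mulVec, hgg, Matrix.smul_mulVec, Matrix.one_mulVec]
  set W := eigW (g : MM) d with hWdef
  have hW : ∀ x ∈ W, (∀ y ∈ W, bb x y = 0) → x = 0 := by
    intro x hx hxy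
    apply h.nd.1 x
    intro y
    show bb x y = 0
    have hgx : (g : MM) *ᵥ x = d • x := mem_eigW.1 hx
    obtain ⟨y₁, y₂, hgy₁, hy₂, hy⟩ := eig_split h2 hd0 hd hgg y
    have h2d : 2 * d ≠ 0 := mul_ne_zero h2 hd0
    have hgy₂ : (g : MM) *ᵥ y₂ = (-d) • y₂ := mem_eigW.1 hy₂
    have h1 : bb x y₂ = 0 := by
      have h3 := hadj x y₂
      rw [hgx, hgy₂, QuadraticMap.polar_smul_left, QuadraticMap.polar_smul_right, smul_eq_mul, smul_eq_mul] at h3
      have h4 : (2 * d) * bb x y₂ = 0 := by linear_combination h3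
      exact (mul_eq_zero.1 h4).resolve_left h2d
    rw [hy, QuadraticMap.polar_add_right, hxy _ hgy₁, h1, add_zero]
  obtain ⟨a₀, ha₀, hQa⟩ := exists_nonsing hW (ne_bot_of_finrank (by omega))
  have hW₁ := perp_nondeg h2 hW ha₀ hQa
  have hfin₁ := finrank_perp (Q := Q) W a₀
  obtain ⟨b₀, hb₀, hQb⟩ := exists_nonsing hW₁ (ne_bot_of_finrank (by omega))
  obtain ⟨hb₀W, hb₀a⟩ := Submodule.mem_inf.1 hb₀
  have hab : bb a₀ b₀ = 0 := hb₀a
  obtain ⟨ν, hν⟩ := FiniteField.exists_nonsquare (F := F) (fun hch => h2 (by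
    have := ringChar.Nat.cast_ringChar (R := F)
    rw [hch] at this
    exact_mod_cast this))
  obtain ⟨α, β, hαβ⟩ := exists_two_sq h2 hQa hQb (ν * Q a₀)
  set x : VV := α • a₀ + β • b₀ with hx
  have hQx : Q x = ν * Q a₀ := by
    rw [hx, QuadraticMap.map_add Q, QuadraticMap.map_smul, QuadraticMap.map_smul, QuadraticMap.polar_smul_left, QuadraticMap.polar_smul_right, hab]
    simp only [smul_eq_mul]
    linear_combination hαβ
  have hν0 : ν ≠ 0 := by
    rintro rfl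
    exact hν IsSquare.zero
  have hQx0 : Q x ≠ 0 := by
    rw [hQx]
    exact mul_ne_zero hν0 hQa
  have hxW : x ∈ W := W.add_mem (W.smul_mem _ ha₀) (W.smul_mem _ hb₀W)
  refine ⟨a₀, x, hQa, hQx0, ?_, ?_⟩
  · rw [hQx]
    rintro ⟨r, hr⟩
    apply hν
    refine ⟨r / Q a₀, ?_⟩
    field_simp
    linear_combination hr
  · have hl0 : l ≠ 0 := hl
    rw [← mul_assoc, eig_comm hl0 hc hd0 ha₀ hQa, mul_assoc, eig_comm hl0 hc hd0 hxW hQx0, mul_assoc]

/-- A vector non-singular for `Q` on which `x ↦ B(x, g x)` vanishes. -/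
theorem exists_w (h2 : (2 : F) ≠ 0) {g : GG} {l : F} (hl : l ≠ 0) (hls : ¬ IsSquare l) (hc : ∀ v, Q ((g : MM) *ᵥ v) = l * Q v) (hadj : ∀ x y : VV, bb ((g : MM) *ᵥ x) y = bb x ((g : MM) *ᵥ y))
    (hgg : (g : MM) * (g : MM) = l • (1 : MM)) : ∃ w : VV, Q w ≠ 0 ∧ bb w ((g : MM) *ᵥ w) = 0 := by
  classical
  have hgg' : ∀ x : VV, (g : MM) *ᵥ ((g : MM) *ᵥ x) = l • x := by
    intro x
    rw [Matrix.mulVec_mulVec, hgg, Matrix.smul_mulVec, Matrix.one_mulVec]
  have hsp := sim_polar (Q := Q) hc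
  obtain ⟨z, hz⟩ := ne_of_good (Q := Q)
  by_cases hp : bb z ((g : MM) *ᵥ z) = 0
  · exact ⟨z, hz, hp⟩
  set p := bb z ((g : MM) *ᵥ z) with hpdef
  set s := p / (2 * Q z) with hs
  have h2z : 2 * Q z ≠ 0 := mul_ne_zero h2 hz
  have hzz : bb z z = 2 * Q z := polar_self_eq Q z
  set z₂ : VV := (g : MM) *ᵥ z - s • z with hz₂
  have hzz₂ : bb z z₂ = 0 := by
    rw [hz₂, QuadraticMap.polar_sub_right, QuadraticMap.polar_smul_right, smul_eq_mul, hzz, ← hpdef, hs]
    field_simp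
    ring
  have hQz₂ : Q z₂ ≠ 0 := by
    intro h0
    rw [hz₂, Q_sub_smul, hc, ← hpdef] at h0
    apply hls
    refine ⟨s, ?_⟩
    have hps : p = s * (2 * Q z) := by
      rw [hs]
      field_simp
    rw [hps] at h0
    have h3 : Q z * (l - s * s) = 0 := by linear_combination h0
    have h4 := (mul_eq_zero.1 h3).resolve_left hz
    linear_combination h4
  have hW₀ : ∀ x ∈ (⊤ : Submodule F VV), (∀ y ∈ (⊤ : Submodule F VV), bb x y = 0) → x = 0 :=
    fun x _ hx => h.nd.1 x (fun y => hx y trivial)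
  have hW₁ := perp_nondeg h2 hW₀ (Submodule.mem_top (x := z)) hz
  have hW₂ := perp_nondeg h2 hW₁ (a := z₂) (Submodule.mem_inf.2 ⟨trivial, hzz₂⟩) hQz₂
  have hf₁ := finrank_perp (Q := Q) (⊤ : Submodule F VV) z
  have hf₂ := finrank_perp (Q := Q) ((⊤ : Submodule F VV) ⊓ LinearMap.ker (QuadraticMap.polarBilin Q z)) z₂
  have hcard : Module.finrank F (⊤ : Submodule F VV) = Fintype.card ι := by
    rw [finrank_top, Module.finrank_fintype_fun_eq_card]
  have hbig := h.big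
  obtain ⟨v₀, hv₀, hQv₀⟩ := exists_nonsing hW₂ (ne_bot_of_finrank (by omega))
  obtain ⟨hv₁, hv₂⟩ := Submodule.mem_inf.1 hv₀
  obtain ⟨-, hv₃⟩ := Submodule.mem_inf.1 hv₁
  have hzv : bb z v₀ = 0 := hv₃
  have hz₂v : bb z₂ v₀ = 0 := hv₂
  have hgzv : bb ((g : MM) *ᵥ z) v₀ = 0 := by
    have e : (g : MM) *ᵥ z = z₂ + s • z := by
      rw [hz₂]
      abel
    rw [e, QuadraticMap.polar_add_left, QuadraticMap.polar_smul_left, hz₂v, hzv]
    simp
  by_cases hp₀ : bb v₀ ((g : MM) *ᵥ v₀) = 0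
  · exact ⟨v₀, hQv₀, hp₀⟩
  set p₀ := bb v₀ ((g : MM) *ᵥ v₀) with hp₀def
  -- the vector `u`
  have h2z₂ : 2 * Q z₂ ≠ 0 := mul_ne_zero h2 hQz₂
  set u : VV := (2 * Q z₂)⁻¹ • z₂ with hu
  have hzu : bb z u = 0 := by
    rw [hu, QuadraticMap.polar_smul_right, hzz₂, smul_zero]
  have hgzu : bb ((g : MM) *ᵥ z) u = 1 := by
    have e : (g : MM) *ᵥ z = z₂ + s • z := by
      rw [hz₂]
      abel
    rw [hu, QuadraticMap.polar_smul_right, e, QuadraticMap.polar_add_left, QuadraticMap.polar_smul_left, hzz₂, polar_self_eq]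
    simp only [smul_eq_mul, mul_zero, add_zero]
    field_simp
  -- solving the equation on the plane of `v₀`
  set κ := - bb u ((g : MM) *ᵥ u) with hκ
  have hgv : bb ((g : MM) *ᵥ v₀) ((g : MM) *ᵥ v₀) = 2 * (l * Q v₀) := by
    rw [polar_self_eq, hc]
  have hgvv : bb ((g : MM) *ᵥ v₀) v₀ = p₀ := by
    rw [QuadraticMap.polar_comm]
  have hvv : bb v₀ v₀ = 2 * Q v₀ := polar_self_eq Q v₀
  set Bc := 4 * l * Q v₀ with hBc
  have hδ : l * p₀ - Bc ^ 2 / (4 * p₀) ≠ 0 := by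
    intro h0
    apply hls
    refine ⟨p₀ / (2 * Q v₀), ?_⟩
    have h4 : (4 : F) ≠ 0 := by
      have : (4 : F) = 2 * 2 := by norm_num
      rw [this]
      exact mul_ne_zero h2 h2
    have h3 : l * p₀ * (4 * p₀) = Bc ^ 2 := by
      have h5 : 4 * p₀ ≠ 0 := mul_ne_zero h4 hp₀
      field_simp at h0
      linear_combination h0
    rw [hBc] at h3
    have h6 : l * (p₀ * p₀ - l * (4 * Q v₀ * Q v₀)) * 4 = 0 := by linear_combination h3
    have h7 : p₀ * p₀ - l * (4 * Q v₀ * Q v₀) = 0 := by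
      have := (mul_eq_zero.1 h6).resolve_right h4
      exact (mul_eq_zero.1 this).resolve_left hl
    have h8 : 2 * Q v₀ ≠ 0 := mul_ne_zero h2 hQv₀
    field_simp
    linear_combination -h7
  obtain ⟨X, b, hXb⟩ := exists_two_sq h2 hp₀ hδ κ
  set a := X - Bc * b / (2 * p₀) with ha
  have h2p₀ : 2 * p₀ ≠ 0 := mul_ne_zero h2 hp₀
  have h4' : (4 : F) ≠ 0 := by
    have : (4 : F) = 2 * 2 := by norm_num
    rw [this]
    exact mul_ne_zero h2 h2
  have hab : p₀ * a ^ 2 + Bc * a * b + l * p₀ * b ^ 2 = κ := by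
    rw [← hXb, ha]
    field_simp
    ring
  set v : VV := a • v₀ + b • (g : MM) *ᵥ v₀ with hv
  have hgv' : (g : MM) *ᵥ v = a • (g : MM) *ᵥ v₀ + (b * l) • v₀ := by
    rw [hv, Matrix.mulVec_add, Matrix.mulVec_smul, Matrix.mulVec_smul, hgg', smul_smul]
  have hPv : bb v ((g : MM) *ᵥ v) = κ := by
    rw [hgv', hv]
    simp only [QuadraticMap.polar_add_left, QuadraticMap.polar_add_right, QuadraticMap.polar_smul_left, QuadraticMap.polar_smul_right, smul_eq_mul, hgv, hgvv, hvv, ← hp₀def]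
    rw [← hab, hBc]
    ring
  have hzgv : bb z ((g : MM) *ᵥ v₀) = 0 := by
    rw [← hadj, hgzv]
  have hgzgv : bb ((g : MM) *ᵥ z) ((g : MM) *ᵥ v₀) = 0 := by
    rw [hsp, hzv, mul_zero]
  have hzv' : bb z v = 0 := by
    rw [hv, QuadraticMap.polar_add_right, QuadraticMap.polar_smul_right, QuadraticMap.polar_smul_right, hzv, hzgv]
    simp
  have hgzv' : bb ((g : MM) *ᵥ z) v = 0 := by
    rw [hv, QuadraticMap.polar_add_right, QuadraticMap.polar_smul_right, QuadraticMap.polar_smul_right, hgzv, hgzgv]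
    simp
  have hguv : bb ((g : MM) *ᵥ u) v = 0 := by
    have e1 : (g : MM) *ᵥ z₂ = l • z - s • (g : MM) *ᵥ z := by
      rw [hz₂, Matrix.mulVec_sub, Matrix.mulVec_smul, hgg']
    rw [hu, Matrix.mulVec_smul, QuadraticMap.polar_smul_left, e1, QuadraticMap.polar_sub_left, QuadraticMap.polar_smul_left, QuadraticMap.polar_smul_left, hzv', hgzv']
    simp
  set y : VV := u + v with hy
  have hPy : bb y ((g : MM) *ᵥ y) = 0 := by
    rw [hy, Matrix.mulVec_add, QuadraticMap.polar_add_left, QuadraticMap.polar_add_right, QuadraticMap.polar_add_right, hPv]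
    have e1 : bb u ((g : MM) *ᵥ v) = 0 := by rw [← hadj, hguv]
    have e2 : bb v ((g : MM) *ᵥ u) = 0 := by rw [QuadraticMap.polar_comm, hguv]
    rw [e1, e2, hκ]
    ring
  have hzy : bb z y = 0 := by
    rw [hy, QuadraticMap.polar_add_right, hzu, hzv', add_zero]
  have hgzy : bb ((g : MM) *ᵥ z) y = 1 := by
    rw [hy, QuadraticMap.polar_add_right, hgzu, hgzv', add_zero]
  by_cases hQy : Q y = 0
  · set τ := - p / 2 with hτ
    refine ⟨z + τ • y, ?_, ?_⟩
    · rw [QuadraticMap.map_add Q, QuadraticMap.map_smul, QuadraticMap.polar_smul_right, hzy, hQy]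
      simpa using hz
    · have e1 : bb y ((g : MM) *ᵥ z) = 1 := by rw [QuadraticMap.polar_comm, hgzy]
      have e2 : bb z ((g : MM) *ᵥ y) = 1 := by rw [← hadj, hgzy]
      rw [Matrix.mulVec_add, Matrix.mulVec_smul]
      simp only [QuadraticMap.polar_add_left, QuadraticMap.polar_add_right, QuadraticMap.polar_smul_left, QuadraticMap.polar_smul_right, smul_eq_mul, e1, e2, hPy, ← hpdef]
      rw [hτ]
      field_simp
      ring
  · exact ⟨y, hQy, hPy⟩

/-- The element with non-square spinor norm. -/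
theorem exists_bad (h2 : (2 : F) ≠ 0) (he : Even (Fintype.card ι)) {g : GG} (hg : g ∈ Sim Q) (hK : ¬ KP Q g) {l : F} (hgg : (g : MM) * (g : MM) = l • (1 : MM)) :
    ∃ a b : VV, Q a ≠ 0 ∧ Q b ≠ 0 ∧ ¬ IsSquare (Q a * Q b) ∧ (g : MM) * (rr Q a * rr Q b) = (rr Q a * rr Q b) * (g : MM) := by
  classical
  obtain ⟨c, hc⟩ := hg
  have hgg' : ∀ x : VV, (g : MM) *ᵥ ((g : MM) *ᵥ x) = l • x := by
    intro x
    rw [Matrix.mulVec_mulVec, hgg, Matrix.smul_mulVec, Matrix.one_mulVec]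
  obtain ⟨v₀, hv₀⟩ := ne_of_good (Q := Q)
  have hcl : (c : F) * c = l * l := by
    have h1 := hc ((g : MM) *ᵥ v₀)
    rw [hgg', QuadraticMap.map_smul, hc] at h1
    have h3 : (l * l - c * c) * Q v₀ = 0 := by
      simp only [smul_eq_mul] at h1
      linear_combination h1
    have h4 := (mul_eq_zero.1 h3).resolve_right hv₀
    linear_combination -h4
  have hl : l ≠ 0 := by
    rintro rfl
    rw [mul_zero] at hcl
    exact (mul_ne_zero c.ne_zero c.ne_zero) hcl
  have hsp := sim_polar (Q := Q) hc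
  have hcases : (c : F) = l ∨ (c : F) = -l := by
    have h1 : ((c : F) - l) * ((c : F) + l) = 0 := by linear_combination hcl
    rcases mul_eq_zero.1 h1 with h3 | h3
    · exact Or.inl (sub_eq_zero.1 h3)
    · exact Or.inr (eq_neg_of_add_eq_zero_left h3)
  rcases hcases with hcl' | hcl'
  · have hc' : ∀ v, Q ((g : MM) *ᵥ v) = l * Q v := by
      intro v
      rw [hc, hcl']
    have hadj : ∀ x y : VV, bb ((g : MM) *ᵥ x) y = bb x ((g : MM) *ᵥ y) := by
      intro x y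
      have h1 := hsp x ((g : MM) *ᵥ y)
      rw [hgg', QuadraticMap.polar_smul_right, smul_eq_mul, hcl'] at h1
      exact mul_left_cancel₀ hl h1
    by_cases hls : IsSquare l
    · obtain ⟨d, hd⟩ := hls
      have hd0 : d ≠ 0 := by
        rintro rfl
        apply hl
        rw [hd, mul_zero]
      -- one of the two eigenspaces is large
      have h2d : 2 * d ≠ 0 := mul_ne_zero h2 hd0
      have hsup : eigW (g : MM) d ⊔ eigW (g : MM) (-d) = ⊤ := by
        rw [eq_top_iff]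
        intro y _
        obtain ⟨y₁, y₂, h₁, h₂, hy⟩ := eig_split h2 hd0 hd.symm hgg y
        rw [hy]
        exact Submodule.add_mem_sup h₁ h₂
      have hf := Submodule.finrank_add_le_finrank_add_finrank (eigW (g : MM) d) (eigW (g : MM) (-d))
      rw [hsup, finrank_top, Module.finrank_fintype_fun_eq_card] at hf
      have hbig := h.big
      by_cases hfd : 2 ≤ Module.finrank F (eigW (g : MM) d)
      · exact bad_eig h2 hl hc' hadj hgg hd.symm hfd
      · exact bad_eig h2 hl hc' hadj hgg (d := -d) (by rw [hd]; ring) (by omega)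
    · obtain ⟨w, hw, hw0⟩ := exists_w h2 hl hls hc' hadj hgg
      have hQgw : Q ((g : MM) *ᵥ w) = l * Q w := hc' w
      refine ⟨w, (g : MM) *ᵥ w, hw, by rw [hQgw]; exact mul_ne_zero hl hw, ?_, ?_⟩
      · rw [hQgw]
        rintro ⟨r, hr⟩
        apply hls
        refine ⟨r / Q w, ?_⟩
        field_simp
        linear_combination hr
      · have e1 := rr_conj' hl hc' hw
        have e2 := rr_conj' hl hc' (a := (g : MM) *ᵥ w) (by rw [hQgw]; exact mul_ne_zero hl hw)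
        rw [hgg', rr_smul hl] at e2
        rw [← mul_assoc, e1, mul_assoc, e2, ← mul_assoc, rr_comm (Q := Q) hw0]
  · exfalso
    apply hK
    have hs : ∀ x y : VV, bb ((g : MM) *ᵥ x) y = - bb x ((g : MM) *ᵥ y) := by
      intro x y
      have h1 := hsp x ((g : MM) *ᵥ y)
      rw [hgg', QuadraticMap.polar_smul_right, smul_eq_mul, hcl'] at h1
      have h3 : l * (bb ((g : MM) *ᵥ x) y + bb x ((g : MM) *ᵥ y)) = 0 := by linear_combination h1
      have h4 := (mul_eq_zero.1 h3).resolve_left hl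
      linear_combination h4
    have hdet := det_of_charpoly_neg h2 he hgg (charpoly_neg_of_skew h.nd hs)
    refine Or.inl ⟨h2, c, hc, ?_⟩
    rw [hdet, hcl']

end bad

end Cfsg.Agent.Lib.AutPOm
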