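import Cfsg.Agent.Lib.AutPOm.GfCent

/-! Involutory similarities: reflections, subspaces and determinants. -/

set_option autoImplicit false
set_option linter.unusedSimpArgs false
set_option linter.unusedVariables false
set_option linter.unusedSectionVars false

namespace Cfsg.Agent.Lib.AutPOm

open Matrix Module MulAction Cfsg.Agent.Lib.Classical
open Cfsg.Agent.Lib.ClassMax.OmegaCore (mem_iso_iff)
open Cfsg.Agent.Lib.Spinor (ndf rr rO lp nm invL sgnF sgnF_of_sq sgnF_of_not_sq sgnF_eq_one_iff sgnF_mul exists_lp lp_mat lp_cons lp_nil rO_mat matrix_ext OG.mat)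
open scoped MatrixGroups Polynomial

variable {F : Type*} [Field F] {ι : Type} [Fintype ι] [DecidableEq ι] {Q : QuadraticForm F (ι → F)}

local notation "VV" => (ι → F)
local notation "MM" => Matrix ι ι F
local notation "GG" => GL ι F
local notation "bb" => QuadraticMap.polar (DFunLike.coe Q)

section refl

theorem sim_polar {g : MM} {c : F} (hc : ∀ v, Q (g *ᵥ v) = c * Q v) (x y : VV) :
    bb (g *ᵥ x) (g *ᵥ y) = c * bb x y := by
  simp only [QuadraticMap.polar, ← Matrix.mulVec_add, hc]
  ring

theorem rr_conj' {g : GG} {c : F} (hc0 : c ≠ 0) (hc : ∀ v, Q ((g : MM) *ᵥ v) = c * Q v) {a : VV} (ha : Q a ≠ 0) :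
    (g : MM) * rr Q a = rr Q ((g : MM) *ᵥ a) * (g : MM) := by
  apply matrix_ext
  intro v
  rw [← Matrix.mulVec_mulVec, ← Matrix.mulVec_mulVec, reflection_mulVec, reflection_mulVec, Matrix.mulVec_sub,
    Matrix.mulVec_smul, sim_polar hc, hc]
  congr 2
  field_simp

theorem rr_smul {c : F} (hc0 : c ≠ 0) (a : VV) : rr Q (c • a) = rr Q a := by
  by_cases ha : Q a = 0
  · apply matrix_ext
    intro v
    rw [reflection_mulVec, reflection_mulVec, QuadraticMap.map_smul, ha]
    simp
  apply matrix_ext
  intro v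
  rw [reflection_mulVec, reflection_mulVec, QuadraticMap.map_smul, QuadraticMap.polar_smul_left, smul_eq_mul, smul_eq_mul, smul_smul]
  congr 2
  field_simp

theorem rr_comm {a b : VV} (hab : bb a b = 0) : rr Q a * rr Q b = rr Q b * rr Q a := by
  have hba : bb b a = 0 := by rw [QuadraticMap.polar_comm]; exact hab
  apply matrix_ext
  intro v
  rw [← Matrix.mulVec_mulVec, ← Matrix.mulVec_mulVec, reflection_mulVec, reflection_mulVec, reflection_mulVec, reflection_mulVec]
  simp only [QuadraticMap.polar_sub_right, QuadraticMap.polar_smul_right, hab, hba, smul_eq_mul, mul_zero, sub_zero]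
  abel

end refl

section sub

variable (hnd : (QuadraticMap.polarBilin Q).Nondegenerate)

/-- A submodule carrying a non-degenerate restriction contains a non-singular vector. -/
theorem exists_nonsing {W : Submodule F VV} (hW : ∀ x ∈ W, (∀ y ∈ W, bb x y = 0) → x = 0) (hne : W ≠ ⊥) :
    ∃ a ∈ W, Q a ≠ 0 := by
  obtain ⟨x, hx, hx0⟩ := (Submodule.ne_bot_iff W).1 hne
  by_contra hcon
  push Not at hcon
  apply hx0
  apply hW x hx
  intro y hy
  have h1 := hcon x hx
  have h2 := hcon y hy
  have h3 := hcon (x + y) (W.add_mem hx hy)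
  simp only [QuadraticMap.polar, h1, h2, h3, sub_zero]

/-- The perpendicular of a non-singular vector in a non-degenerate subspace. -/
theorem perp_nondeg (h2 : (2 : F) ≠ 0) {W : Submodule F VV} (hW : ∀ x ∈ W, (∀ y ∈ W, bb x y = 0) → x = 0)
    {a : VV} (ha : a ∈ W) (hQa : Q a ≠ 0) :
    ∀ x ∈ W ⊓ LinearMap.ker (QuadraticMap.polarBilin Q a), (∀ y ∈ W ⊓ LinearMap.ker (QuadraticMap.polarBilin Q a), bb x y = 0) → x = 0 := by
  intro x hx hxy
  obtain ⟨hxW, hxa⟩ := Submodule.mem_inf.1 hx
  have hxa' : bb a x = 0 := hxa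
  apply hW x hxW
  intro y hy
  have hQ2 : bb a a ≠ 0 := by
    rw [polar_self_eq]
    exact mul_ne_zero h2 hQa
  set t := bb a y / bb a a with ht
  have hy' : y - t • a ∈ W ⊓ LinearMap.ker (QuadraticMap.polarBilin Q a) := by
    refine Submodule.mem_inf.2 ⟨W.sub_mem hy (W.smul_mem _ ha), ?_⟩
    show bb a (y - t • a) = 0
    rw [QuadraticMap.polar_sub_right, QuadraticMap.polar_smul_right, smul_eq_mul, ht]
    field_simp
    ring
  have h3 := hxy _ hy'
  have hax : bb x a = 0 := by
    rw [QuadraticMap.polar_comm]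
    exact hxa'
  rw [QuadraticMap.polar_sub_right, QuadraticMap.polar_smul_right, smul_eq_mul, hax, mul_zero, sub_zero] at h3
  exact h3

theorem finrank_perp (W : Submodule F VV) (a : VV) :
    Module.finrank F W ≤ Module.finrank F (W ⊓ LinearMap.ker (QuadraticMap.polarBilin Q a) : Submodule F VV) + 1 := by
  let f : W →ₗ[F] F := (QuadraticMap.polarBilin Q a).domRestrict W
  have h1 := LinearMap.finrank_range_add_finrank_ker f
  have h2 : Module.finrank F (LinearMap.range f) ≤ 1 := by
    have := Submodule.finrank_le (LinearMap.range f)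
    simpa using this
  have h3 : Module.finrank F (LinearMap.ker f) ≤ Module.finrank F (W ⊓ LinearMap.ker (QuadraticMap.polarBilin Q a) : Submodule F VV) := by
    let e : LinearMap.ker f →ₗ[F] (W ⊓ LinearMap.ker (QuadraticMap.polarBilin Q a) : Submodule F VV) :=
      { toFun := fun x => ⟨x.1.1, Submodule.mem_inf.2 ⟨x.1.2, x.2⟩⟩
        map_add' := fun x y => rfl
        map_smul' := fun c x => rfl }
    apply LinearMap.finrank_le_finrank_of_injective (f := e)
    intro x y hxy
    apply Subtype.ext
    apply Subtype.ext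
    exact congrArg (fun z => z.1) hxy
  omega

theorem ne_bot_of_finrank {W : Submodule F VV} (h : 1 ≤ Module.finrank F W) : W ≠ ⊥ := by
  rintro rfl
  simp at h

end sub

section twoSq

variable [Fintype F]

/-- Two non-zero diagonal squares represent everything. -/
theorem exists_two_sq (h2 : (2 : F) ≠ 0) {A B : F} (hA : A ≠ 0) (hB : B ≠ 0) (t : F) : ∃ x y : F, A * x ^ 2 + B * y ^ 2 = t := by
  open Polynomial in
  have hcard : Fintype.card F % 2 = 1 := by
    have hch : ringChar F ≠ 2 := by
      intro h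
      apply h2
      have := ringChar.Nat.cast_ringChar (R := F)
      rw [h] at this
      exact_mod_cast this
    exact FiniteField.odd_card_of_char_ne_two hch
  have hf : (C A * X ^ 2 : F[X]).degree = 2 := by
    rw [degree_C_mul_X_pow 2 hA]
    rfl
  have hg : (C B * X ^ 2 - C t : F[X]).degree = 2 := by
    rw [degree_sub_C (by rw [degree_C_mul_X_pow 2 hB]; norm_num)]
    rw [degree_C_mul_X_pow 2 hB]
    rfl
  obtain ⟨a, b, hab⟩ := FiniteField.exists_root_sum_quadratic hf hg hcard
  refine ⟨a, b, ?_⟩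
  simp only [eval_mul, eval_C, eval_pow, eval_X, eval_sub] at hab
  linear_combination hab

end twoSq

section detSec

open Polynomial

/-- The product formula for characteristic polynomials. -/
theorem charpoly_mul_neg {g : MM} {l : F} (hg : g * g = l • (1 : MM)) :
    g.charpoly * (-g).charpoly = (X ^ 2 - C l : F[X]) ^ Fintype.card ι := by
  rw [Matrix.charpoly, Matrix.charpoly, ← Matrix.det_mul]
  have h1 : charmatrix g * charmatrix (-g) = Matrix.scalar ι (X ^ 2 - C l : F[X]) := by
    have e1 : charmatrix g = Matrix.scalar ι (X : F[X]) - (C : F →+* F[X]).mapMatrix g := rfl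
    have e2 : charmatrix (-g) = Matrix.scalar ι (X : F[X]) + (C : F →+* F[X]).mapMatrix g := by
      show Matrix.scalar ι (X : F[X]) - (C : F →+* F[X]).mapMatrix (-g) = _
      rw [map_neg, sub_neg_eq_add]
    have hcomm : Matrix.scalar ι (X : F[X]) * (C : F →+* F[X]).mapMatrix g = (C : F →+* F[X]).mapMatrix g * Matrix.scalar ι (X : F[X]) := by
      exact (Matrix.scalar_commute (X : F[X]) (fun r => Commute.all _ _) _).eq
    have hsq : (C : F →+* F[X]).mapMatrix g * (C : F →+* F[X]).mapMatrix g = Matrix.scalar ι (C l : F[X]) := by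
      rw [← map_mul, hg]
      ext i j
      simp only [RingHom.mapMatrix_apply, Matrix.map_apply, Matrix.smul_apply, Matrix.scalar_apply, Matrix.one_apply, Matrix.diagonal_apply, smul_eq_mul]
      split_ifs <;> simp
    rw [e1, e2, mul_add, sub_mul, sub_mul, hcomm, hsq, map_sub, map_pow]
    noncomm_ring
  rw [h1, Matrix.scalar_apply, Matrix.det_diagonal]
  simp
  
/-- The determinant when the characteristic polynomial is even. -/
theorem det_of_charpoly_neg (h2 : (2 : F) ≠ 0) (he : Even (Fintype.card ι)) {g : MM} {l : F} (hg : g * g = l • (1 : MM))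
    (hc : (-g).charpoly = g.charpoly) : g.det = (-l) ^ (Fintype.card ι / 2) := by
  obtain ⟨n, hn⟩ := he
  have hdiv : Fintype.card ι / 2 = n := by omega
  rw [hdiv]
  set r : F[X] := (X ^ 2 - C l) ^ n with hr
  have hrm : r.Monic := (monic_X_pow_sub_C l (by norm_num)).pow n
  have h1 := charpoly_mul_neg hg
  rw [hc, hn, pow_add, ← hr] at h1
  have h3 := mul_self_eq_mul_self_iff.1 h1
  have hp : g.charpoly = r := by
    rcases h3 with h3 | h3
    · exact h3
    · exfalso
      have hm := Matrix.charpoly_monic g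
      rw [h3] at hm
      have hl1 : (-r).leadingCoeff = 1 := hm
      rw [leadingCoeff_neg, hrm.leadingCoeff] at hl1
      apply h2
      linear_combination -hl1
  rw [Matrix.det_eq_sign_charpoly_coeff, hp, hn, Even.neg_one_pow ⟨n, rfl⟩, one_mul, coeff_zero_eq_eval_zero, hr]
  simp

/-- The determinant when the square of `g` is a non-square scalar. -/
theorem det_of_nonsq (he : Even (Fintype.card ι)) {g : MM} {l : F} (hg : g * g = l • (1 : MM)) (hl : ¬ IsSquare l) :
    g.det = (-l) ^ (Fintype.card ι / 2) := by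
  obtain ⟨n, hn⟩ := he
  have hdiv : Fintype.card ι / 2 = n := by omega
  rw [hdiv]
  set r₀ : F[X] := X ^ 2 - C l with hr₀
  have hm₀ : r₀.Monic := monic_X_pow_sub_C l (by norm_num)
  have hd₀ : r₀.natDegree = 2 := natDegree_X_pow_sub_C
  have hirr : Irreducible r₀ := by
    rw [hm₀.irreducible_iff_roots_eq_zero_of_degree_le_three (by omega) (by omega)]
    rw [Multiset.eq_zero_iff_forall_notMem]
    intro x hx
    have hne : r₀ ≠ 0 := hm₀.ne_zero
    rw [mem_roots hne] at hx
    apply hl
    have : x ^ 2 - l = 0 := by simpa [hr₀] using hx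
    exact ⟨x, by linear_combination -this⟩
  have h1 := charpoly_mul_neg hg
  have hdvd : g.charpoly ∣ r₀ ^ Fintype.card ι := Dvd.intro _ h1
  obtain ⟨i, -, hi⟩ := (dvd_prime_pow hirr.prime _).1 hdvd
  have hpi : g.charpoly = r₀ ^ i := eq_of_monic_of_associated (Matrix.charpoly_monic g) (hm₀.pow i) hi
  have hdeg : 2 * i = 2 * n := by
    have h3 := Matrix.charpoly_natDegree_eq_dim g
    rw [hpi, hm₀.natDegree_pow, hd₀, hn] at h3
    omega
  have hin : i = n := by omega
  rw [Matrix.det_eq_sign_charpoly_coeff, hpi, hin, hn, Even.neg_one_pow ⟨n, rfl⟩, one_mul, coeff_zero_eq_eval_zero]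
  simp [hr₀]

/-- A skew-adjoint matrix has an even characteristic polynomial. -/
theorem charpoly_neg_of_skew (hnd : (QuadraticMap.polarBilin Q).Nondegenerate) {g : MM} (hs : ∀ x y : VV, bb (g *ᵥ x) y = - bb x (g *ᵥ y)) :
    (-g).charpoly = g.charpoly := by
  have hu : IsUnit (gramQ Q) := by
    rw [← Matrix.mulVec_injective_iff_isUnit]
    show Function.Injective (Matrix.mulVecLin (gramQ Q))
    rw [injective_iff_map_eq_zero]
    intro y hy
    have hy' : gramQ Q *ᵥ y = 0 := hy
    apply hnd.2 y
    intro x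
    show bb x y = 0
    rw [polar_eq_gram, hy', dotProduct_zero]
  obtain ⟨A, hA⟩ := hu
  have h1 : gramQ Q * g = (-g)ᵀ * gramQ Q := by
    ext i j
    have h3 := hs (Pi.single i 1) (Pi.single j 1)
    rw [polar_eq_gram, polar_eq_gram] at h3
    have e1 : (gramQ Q * g) i j = Pi.single i 1 ⬝ᵥ gramQ Q *ᵥ (g *ᵥ Pi.single j 1) := by
      rw [Matrix.mulVec_mulVec, single_one_dotProduct, mulVec_single_one]
      rfl
    have e2 : ((-g)ᵀ * gramQ Q) i j = - ((g *ᵥ Pi.single i 1) ⬝ᵥ gramQ Q *ᵥ Pi.single j 1) := by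
      have e3 : (g *ᵥ Pi.single i 1) = (g *ᵥ Pi.single i (1 : F)) := rfl
      rw [Matrix.mul_apply, mulVec_single_one, dotProduct, ← Finset.sum_neg_distrib]
      apply Finset.sum_congr rfl
      intro k _
      rw [mulVec_single_one]
      simp
    rw [e1, e2, h3, neg_neg]
  have h2 : (A : MM) * g * ((A⁻¹ : MMˣ) : MM) = (-g)ᵀ := by
    rw [hA, h1, mul_assoc, ← hA, Units.mul_inv, mul_one]
  have h3 := Matrix.charpoly_units_conj A g
  rw [← Matrix.coe_units_inv, h2, Matrix.charpoly_transpose] at h3
  exact h3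

end detSec

end Cfsg.Agent.Lib.AutPOm
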