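import Cfsg.Agent.Lib.AutPOm.GrOdd4

/-! Products of reflections attached to a family with invertible Gram matrix. -/

set_option autoImplicit false
set_option linter.unusedSimpArgs false
set_option linter.unusedVariables false
set_option linter.unusedSectionVars false

namespace Cfsg.Agent.Lib.AutPOm

open Matrix Module
open Cfsg.Agent.Lib.Classical (polar_self_eq reflection_Q reflection_fix)
open Cfsg.Agent.Lib.Spinor (rr rO rO_mat matrix_ext OG.mat nm lp lp_mat)

variable {F : Type*} [Field F] {ι : Type} [Fintype ι] [DecidableEq ι] {Q : QuadraticForm F (ι → F)}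

local notation "VV" => (ι → F)
local notation "MM" => Matrix ι ι F
local notation "bb" => QuadraticMap.polar (DFunLike.coe Q)

variable {κ : Type} [Fintype κ] [DecidableEq κ]

theorem polar_sum_right (x : VV) (c : κ → F) (B : κ → VV) : bb x (∑ i, c i • B i) = ∑ i, c i * bb x (B i) := by
  change (QuadraticMap.polarBilin Q x) (∑ i, c i • B i) = _
  rw [map_sum]
  apply Finset.sum_congr rfl
  intro i _
  rw [map_smul, smul_eq_mul]
  rfl

theorem polar_sum_left (x : VV) (c : κ → F) (B : κ → VV) : bb (∑ i, c i • B i) x = ∑ i, c i * bb (B i) x := by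
  rw [QuadraticMap.polar_comm, polar_sum_right]
  apply Finset.sum_congr rfl
  intro i _
  rw [QuadraticMap.polar_comm]

/-- The Gram matrix of a family. -/
noncomputable def GramF (Q : QuadraticForm F (ι → F)) (B : κ → ι → F) : Matrix κ κ F := Matrix.of fun i j => QuadraticMap.polar (DFunLike.coe Q) (B i) (B j)

/-- Orthogonal projection onto a family with invertible Gram matrix. -/
theorem gram_decomp {B : κ → VV} (hdet : (GramF Q B).det ≠ 0) (x : VV) : ∃ c : κ → F, ∀ j, bb (x - ∑ i, c i • B i) (B j) = 0 := by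
  have hu : IsUnit (GramF Q B).det := isUnit_iff_ne_zero.2 hdet
  obtain ⟨c, hc⟩ : ∃ c, GramF Q B *ᵥ c = fun j => bb (B j) x :=
    ⟨(GramF Q B)⁻¹ *ᵥ (fun j => bb (B j) x), by rw [Matrix.mulVec_mulVec, Matrix.mul_nonsing_inv _ hu, Matrix.one_mulVec]⟩
  refine ⟨c, fun j => ?_⟩
  have h3 := congrFun hc j
  simp only [Matrix.mulVec, dotProduct, GramF, Matrix.of_apply] at h3
  rw [QuadraticMap.polar_sub_left, polar_sum_left, QuadraticMap.polar_comm]
  have h4 : ∑ i, c i * bb (B i) (B j) = bb (B j) x := by
    rw [← h3]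
    apply Finset.sum_congr rfl
    intro i _
    rw [mul_comm, QuadraticMap.polar_comm]
  rw [h4, sub_self]

/-- Vanishing of coefficients. -/
theorem gram_inj {B : κ → VV} (hdet : (GramF Q B).det ≠ 0) {c : κ → F} (hc : ∀ j, bb (B j) (∑ i, c i • B i) = 0) : c = 0 := by
  apply Matrix.eq_zero_of_mulVec_eq_zero hdet
  funext j
  have h3 := hc j
  rw [polar_sum_right] at h3
  simp only [Matrix.mulVec, dotProduct, GramF, Matrix.of_apply, Pi.zero_apply]
  rw [← h3]
  apply Finset.sum_congr rfl
  intro i _
  rw [mul_comm]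

theorem prod_fix {L : List VV} {x : VV} (h : ∀ v ∈ L, bb v x = 0) : (L.map (rr Q)).prod *ᵥ x = x := by
  induction L with
  | nil => simp
  | cons a L ih =>
    simp only [List.map_cons, List.prod_cons]
    rw [← Matrix.mulVec_mulVec, ih (fun v hv => h v (List.mem_cons_of_mem _ hv)), rr, reflection_fix Q _ _ (h a List.mem_cons_self)]

/-- The product of reflections in an orthogonal basis of the span of a family. -/
theorem fam_list [Finite F] (h2 : (2 : F) ≠ 0) {n : ℕ} (hκ : Fintype.card κ = n + 1) {B : κ → VV} (hdet : (GramF Q B).det ≠ 0) :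
    ∃ L : List VV, (∀ v ∈ L, Q v ≠ 0) ∧ L.length = n + 1 ∧ (∀ i, (L.map (rr Q)).prod *ᵥ B i = - B i) ∧ (∀ x, (∀ i, bb (B i) x = 0) → (L.map (rr Q)).prod *ᵥ x = x) ∧
      ∃ d : F, d ≠ 0 ∧ (2 : F) ^ (n + 1) * nm Q L = (GramF Q B).det * d ^ 2 := by
  classical
  have hli : LinearIndependent F B := by
    rw [Fintype.linearIndependent_iff]
    intro c hc i
    have h1 : c = 0 := gram_inj (Q := Q) hdet (c := c) (fun j => by
      rw [hc]
      simp)
    rw [h1]
    rfl
  let Y : Submodule F VV := Submodule.span F (Set.range B)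
  let e : Basis κ F Y := Basis.span hli
  have he : ∀ i, ((e i : Y) : VV) = B i := fun i => congrArg Subtype.val (Basis.span_apply hli i)
  have hfin : Module.finrank F Y = n + 1 := by
    rw [Module.finrank_eq_card_basis e, hκ]
  let QY : QuadraticForm F Y := Q.comp Y.subtype
  have hpol : ∀ x y : Y, QuadraticMap.polar QY x y = bb (x : VV) (y : VV) := by
    intro x y
    simp [QuadraticMap.polar, QY]
  have hsum : ∀ x : Y, (x : VV) = ∑ i, (e.repr x i) • B i := by
    intro x
    conv_lhs => rw [← e.sum_repr x]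
    rw [Submodule.coe_sum]
    apply Finset.sum_congr rfl
    intro i _
    rw [Submodule.coe_smul, he]
  have hnd : Cfsg.Agent.Lib.Quad.NondegQ QY := by
    intro x hx
    have h1 : e.repr x = 0 := by
      have : (e.repr x : κ → F) = 0 := gram_inj (Q := Q) hdet (c := e.repr x) (fun j => by
        rw [← hsum x, ← he j, ← hpol]
        rw [QuadraticMap.polar_comm]
        exact hx _)
      exact Finsupp.coe_eq_zero.1 this
    simpa using h1
  obtain ⟨b, hb1, hb2, hb3, hb4⟩ := Cfsg.Agent.Lib.Quad.exists_orthogonal_basis (n := n) h2 (V := Y) hfin QY hnd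
  have hb0 : ∀ i, Q ((b i : Y) : VV) ≠ 0 := by
    intro i
    rcases i with i | i
    · have := hb1 i
      show QY (b _) ≠ 0
      rw [this]
      exact one_ne_zero
    · exact hb4
  have ho : ∀ i j, i ≠ j → bb ((b i : Y) : VV) ((b j : Y) : VV) = 0 := by
    intro i j hij
    rw [← hpol]
    rcases i with i | i <;> rcases j with j | j
    · exact hb2 i j (fun h => hij (by rw [h]))
    · exact hb3 i
    · rw [QuadraticMap.polar_comm]
      exact hb3 j
    · exact absurd rfl hij
  let l : List (Fin n ⊕ Unit) := Finset.univ.toList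
  have hl : l.Nodup := Finset.nodup_toList _
  have hmem : ∀ t, t ∈ l := fun t => Finset.mem_toList.2 (Finset.mem_univ t)
  let bv : Fin n ⊕ Unit → VV := fun i => ((b i : Y) : VV)
  let vs : List VV := l.map bv
  have hvs : ∀ v ∈ vs, Q v ≠ 0 := by
    intro v hv
    obtain ⟨i, -, rfl⟩ := List.mem_map.1 hv
    exact hb0 i
  have hlen : vs.length = n + 1 := by
    simp [vs, l, Finset.length_toList, ← Fintype.card_eq_nat_card]
  have hact : ∀ y : Y, (vs.map (rr Q)).prod *ᵥ (y : VV) = - (y : VV) := by
    intro y
    have key : (Matrix.mulVecLin ((vs.map (rr Q)).prod)) ∘ₗ Y.subtype = - Y.subtype := by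
      apply b.ext
      intro t
      simp only [LinearMap.comp_apply, Matrix.mulVecLin_apply, LinearMap.neg_apply, Submodule.subtype_apply]
      have := Cfsg.Agent.Lib.Spinor.prod_on_basis' (Q := Q) bv hb0 ho l hl t
      rw [if_pos (hmem t)] at this
      exact this
    have := LinearMap.congr_fun key y
    simpa using this
  have hnm : nm Q vs = ∏ i, Q (bv i) := by
    simp only [nm, vs, List.map_map]
    exact Finset.prod_map_toList _ _
  refine ⟨vs, hvs, hlen, ?_, ?_, ?_⟩
  · intro i
    have := hact (e i)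
    rwa [he] at this
  · intro x hx
    apply prod_fix
    intro v hv
    obtain ⟨i, -, rfl⟩ := List.mem_map.1 hv
    show bb ((b i : Y) : VV) x = 0
    rw [hsum (b i), polar_sum_left]
    exact Finset.sum_eq_zero (fun j _ => by rw [hx j, mul_zero])
  · obtain ⟨d, hd, hd2⟩ := Cfsg.Agent.Lib.Quad.gram_det_change (QuadraticMap.polarBilin QY) b e
    refine ⟨d, hd, ?_⟩
    have hG : LinearMap.BilinForm.toMatrix e (QuadraticMap.polarBilin QY) = GramF Q B := by
      ext i j
      rw [LinearMap.BilinForm.toMatrix_apply]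
      show QuadraticMap.polar QY (e i) (e j) = _
      rw [hpol, he, he]
      rfl
    have hD : LinearMap.BilinForm.toMatrix b (QuadraticMap.polarBilin QY) = Matrix.diagonal (fun i => 2 * Q (bv i)) := by
      ext i j
      rw [LinearMap.BilinForm.toMatrix_apply]
      show QuadraticMap.polar QY (b i) (b j) = _
      rw [hpol]
      by_cases hij : i = j
      · subst hij
        rw [Matrix.diagonal_apply_eq]
        exact polar_self_eq Q _
      · rw [Matrix.diagonal_apply_ne _ hij]
        exact ho i j hij
    rw [hG, hD, Matrix.det_diagonal, Finset.prod_mul_distrib, Finset.prod_const, Finset.card_univ, Fintype.card_sum, Fintype.card_fin, Fintype.card_unit] at hd2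
    rw [hnm]
    exact hd2

end Cfsg.Agent.Lib.AutPOm
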