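import Cfsg.Agent.Lib.AutPOm.GrFam

/-! Data from a residue field, and the action of the group ring on a cyclic submodule. -/

set_option autoImplicit false
set_option linter.unusedSimpArgs false
set_option linter.unusedVariables false
set_option linter.unusedSectionVars false

namespace Cfsg.Agent.Lib.AutPOm

open Matrix Module
open Cfsg.Agent.Lib.Classical (polar_self_eq reflection_Q reflection_fix)
open Cfsg.Agent.Lib.Spinor (rr rO rO_mat matrix_ext OG.mat nm lp lp_mat)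

section algebra

variable {F : Type*} [Field F] {S : Type*} [CommRing S] [Algebra F S]

/-- Coordinates modulo a maximal ideal in which some multiplication has non-square determinant. -/
theorem exists_field_data [Finite F] [Finite S] (I : Ideal S) [hI : I.IsMaximal] {ν : F} (hν : ¬ IsSquare ν) :
    ∃ (d : ℕ) (e : Fin d → S) (b : S) (M : Matrix (Fin d) (Fin d) F), ¬ IsSquare M.det ∧ b ∉ I ∧ (∀ j, b * e j - ∑ k, M k j • e k ∈ I) ∧
      (∀ s, ∃ ρ : Fin d → F, s - ∑ i, ρ i • e i ∈ I) ∧ (∀ c : Fin d → F, ∑ i, c i • e i ∈ I → c = 0) := by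
  classical
  let _ : Field (S ⧸ I) := Ideal.Quotient.field I
  have : Finite (S ⧸ I) := Finite.of_surjective _ (Ideal.Quotient.mk_surjective (I := I))
  have : Module.Finite F (S ⧸ I) := Module.Finite.of_finite
  let π : S →ₐ[F] S ⧸ I := Ideal.Quotient.mkₐ F I
  have hπ : ∀ z, π z = 0 → z ∈ I := fun z hz => Ideal.Quotient.eq_zero_iff_mem.1 hz
  have hπs : Function.Surjective π := Ideal.Quotient.mkₐ_surjective F I
  let bs := Module.finBasis F (S ⧸ I)
  obtain ⟨e, he⟩ : ∃ e : Fin (Module.finrank F (S ⧸ I)) → S, ∀ i, π (e i) = bs i := ⟨fun i => Function.surjInv hπs (bs i), fun i => Function.surjInv_eq hπs _⟩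
  obtain ⟨b₀, hb₀⟩ := FiniteField.norm_surjective F (S ⧸ I) ν
  obtain ⟨b, hb⟩ := hπs b₀
  refine ⟨_, e, b, Algebra.leftMulMatrix bs b₀, ?_, ?_, ?_, ?_, ?_⟩
  · rw [← Algebra.norm_eq_matrix_det bs b₀, hb₀]
    exact hν
  · intro hbI
    have h0 : b₀ = 0 := by
      rw [← hb]
      exact Ideal.Quotient.eq_zero_iff_mem.2 hbI
    rw [h0, Algebra.norm_zero] at hb₀
    rw [← hb₀] at hν
    exact hν IsSquare.zero
  · intro j
    apply hπ
    rw [map_sub, map_mul, hb, he, map_sum, sub_eq_zero]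
    conv_lhs => rw [← bs.sum_repr (b₀ * bs j)]
    apply Finset.sum_congr rfl
    intro k _
    rw [map_smul, he, Algebra.leftMulMatrix_eq_repr_mul]
  · intro s
    refine ⟨bs.repr (π s), ?_⟩
    apply hπ
    rw [map_sub, map_sum, sub_eq_zero]
    conv_lhs => rw [← bs.sum_repr (π s)]
    apply Finset.sum_congr rfl
    intro k _
    rw [map_smul, he]
  · intro c hc
    have h1 : ∑ i, c i • bs i = 0 := by
      have : π (∑ i, c i • e i) = 0 := Ideal.Quotient.eq_zero_iff_mem.2 hc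
      rw [map_sum] at this
      rw [← this]
      apply Finset.sum_congr rfl
      intro k _
      rw [map_smul, he]
    funext i
    exact (Fintype.linearIndependent_iff.1 bs.linearIndependent) c h1 i

/-- The pairing induced by a non-zero functional on a residue field is non-degenerate. -/
theorem gram_field {I : Ideal S} (hI : I.IsMaximal) {d : ℕ} {e : Fin d → S} (hsp : ∀ s, ∃ ρ : Fin d → F, s - ∑ i, ρ i • e i ∈ I) (hind : ∀ c : Fin d → F, ∑ i, c i • e i ∈ I → c = 0)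
    (l : S →ₗ[F] F) (hl : ∀ z ∈ I, l z = 0) {s₀ : S} (hs₀ : l s₀ ≠ 0) : (Matrix.of fun i j => l (e i * e j)).det ≠ 0 := by
  intro h0
  obtain ⟨c, hc0, hMc⟩ := Matrix.exists_mulVec_eq_zero_iff.2 h0
  set z : S := ∑ j, c j • e j with hz
  have hzI : z ∉ I := fun hmem => hc0 (hind c hmem)
  have h1 : ∀ i, l (e i * z) = 0 := by
    intro i
    have h3 := congrFun hMc i
    simp only [Matrix.mulVec, dotProduct, Matrix.of_apply, Pi.zero_apply] at h3
    rw [hz, Finset.mul_sum, map_sum, ← h3]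
    apply Finset.sum_congr rfl
    intro j _
    rw [mul_smul_comm, map_smul, smul_eq_mul, mul_comm]
  have h3 : ∀ s, l (s * z) = 0 := by
    intro s
    obtain ⟨ρ, hρ⟩ := hsp s
    have e1 : s * z = (s - ∑ i, ρ i • e i) * z + ∑ i, ρ i • (e i * z) := by
      rw [sub_mul, Finset.sum_mul]
      simp only [smul_mul_assoc]
      ring
    rw [e1, map_add, hl _ (I.mul_mem_right _ hρ), zero_add, map_sum]
    exact Finset.sum_eq_zero (fun i _ => by rw [map_smul, h1, smul_zero])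
  obtain ⟨y, i, hi, hyi⟩ := hI.exists_inv hzI
  apply hs₀
  have e2 : s₀ = (s₀ * y) * z + s₀ * i := by
    have : s₀ = s₀ * (y * z + i) := by rw [hyi, mul_one]
    rw [mul_add, ← mul_assoc] at this
    exact this
  rw [e2, map_add, h3, hl _ (I.mul_mem_left _ hi), add_zero]

end algebra

variable {F : Type*} [Field F] {ι : Type} [Fintype ι] [DecidableEq ι] {Q : QuadraticForm F (ι → F)}

local notation "VV" => (ι → F)
local notation "MM" => Matrix ι ι F
local notation "bb" => QuadraticMap.polar (DFunLike.coe Q)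

section phi

variable {r : ℕ}

/-- The difference of the generator and its inverse. -/
noncomputable def thR (r : ℕ) (F : Type*) [Field F] : RR r F := tt - tauR tt

theorem tau_thR (hr : 2 ≤ r) : tauR (thR r F) = - thR r F := by
  rw [thR, map_sub, tauR_tauR hr]
  ring

/-- Decomposition of the group ring. -/
theorem exists_dec [Finite F] (h2 : (2 : F) ≠ 0) (hr : 2 ≤ r) (x : RR r F) : ∃ β₀ β₁ : R0 r F, x = (β₀ : RR r F) + (β₁ : RR r F) * thR r F := by
  obtain ⟨p, rfl⟩ := mkR_surj x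
  have hω : tauR (thR r F * thR r F) = thR r F * thR r F := by
    rw [map_mul, tau_thR hr]
    ring
  let ω : R0 r F := ⟨thR r F * thR r F, hω⟩
  let y : R0 r F := yy hr
  have hy : (y : RR r F) = tt + tauR tt := rfl
  have hω' : (ω : RR r F) = thR r F * thR r F := rfl
  have htt : (tt : RR r F) = algebraMap F (RR r F) 2⁻¹ * ((y : RR r F) + thR r F) := by
    have e : (y : RR r F) + thR r F = algebraMap F (RR r F) 2 * tt := by
      rw [hy, thR, map_ofNat]
      ring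
    rw [e, ← mul_assoc, ← map_mul, inv_mul_cancel₀ h2, map_one, one_mul]
  have hstep : ∀ x : RR r F, (∃ β₀ β₁ : R0 r F, x = (β₀ : RR r F) + (β₁ : RR r F) * thR r F) → ∃ β₀ β₁ : R0 r F, tt * x = (β₀ : RR r F) + (β₁ : RR r F) * thR r F := by
    rintro x ⟨β₀, β₁, rfl⟩
    refine ⟨(2⁻¹ : F) • (y * β₀ + ω * β₁), (2⁻¹ : F) • (β₀ + y * β₁), ?_⟩
    have e1 : (((2⁻¹ : F) • (y * β₀ + ω * β₁) : R0 r F) : RR r F) = algebraMap F (RR r F) 2⁻¹ * ((y : RR r F) * β₀ + (ω : RR r F) * β₁) := by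
      rw [← Algebra.smul_def]
      rfl
    have e2 : (((2⁻¹ : F) • (β₀ + y * β₁) : R0 r F) : RR r F) = algebraMap F (RR r F) 2⁻¹ * ((β₀ : RR r F) + (y : RR r F) * β₁) := by
      rw [← Algebra.smul_def]
      rfl
    rw [e1, e2, hω']
    nth_rewrite 1 [htt]
    ring
  induction p using Polynomial.induction_on with
  | C a =>
    refine ⟨algebraMap F (R0 r F) a, 0, ?_⟩
    rw [mkR_C]
    simp
  | add p q hp hq =>
    obtain ⟨a₀, a₁, ha⟩ := hp
    obtain ⟨b₀, b₁, hb⟩ := hq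
    refine ⟨a₀ + b₀, a₁ + b₁, ?_⟩
    rw [mkR_add, ha, hb]
    simp only [Subalgebra.coe_add]
    ring
  | monomial n a hp =>
    have e : mkR (r := r) (Polynomial.C a * Polynomial.X ^ (n + 1)) = tt * mkR (Polynomial.C a * Polynomial.X ^ n) := by
      rw [mkR_mul, mkR_mul, mkR_pow, mkR_pow, mkR_X]
      ring
    rw [e]
    exact hstep _ hp

variable (Φ : RR r F →ₐ[F] Matrix ι ι F)

theorem Phi_mulv (x x' : RR r F) (v : VV) : Φ (x * x') *ᵥ v = Φ x *ᵥ (Φ x' *ᵥ v) := by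
  rw [map_mul, Matrix.mulVec_mulVec]

theorem polar_Phi (hadj : ∀ (x : RR r F) (u w : VV), bb (Φ x *ᵥ u) w = bb u (Φ (tauR x) *ᵥ w)) (x x' : RR r F) (p q : VV) :
    bb (Φ x *ᵥ p) (Φ x' *ᵥ q) = bb p (Φ (tauR x * x') *ᵥ q) := by
  rw [hadj, Phi_mulv]

theorem polar_anti (h2 : (2 : F) ≠ 0) (hadj : ∀ (x : RR r F) (u w : VV), bb (Φ x *ᵥ u) w = bb u (Φ (tauR x) *ᵥ w)) {x : RR r F} (hx : tauR x = - x) (v : VV) : bb v (Φ x *ᵥ v) = 0 := by
  have h1 := hadj x v v
  rw [hx, map_neg, Matrix.neg_mulVec, QuadraticMap.polar_neg_right, QuadraticMap.polar_comm] at h1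
  have h3 : (2 : F) * bb v (Φ x *ᵥ v) = 0 := by linear_combination h1
  exact (mul_eq_zero.1 h3).resolve_left h2

/-- The action of an involution attached to a family. -/
theorem act_fam (h2 : (2 : F) ≠ 0) (hr : 2 ≤ r) [Finite F] (hadj : ∀ (x : RR r F) (u w : VV), bb (Φ x *ᵥ u) w = bb u (Φ (tauR x) *ᵥ w)) {v : VV}
    {a : RR r F} {b : R0 r F} (hnorm : ∀ z : VV, Φ (a * tauR a) *ᵥ z = Φ b *ᵥ z) {κ : Type} [Fintype κ] {e : κ → R0 r F}
    (hsp : ∀ s : R0 r F, ∃ ρ : κ → F, Φ s *ᵥ v = ∑ i, ρ i • (Φ (e i) *ᵥ v)) {P : MM}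
    (h1 : ∀ i, P *ᵥ (Φ (a * e i * thR r F) *ᵥ v) = - (Φ (a * e i * thR r F) *ᵥ v))
    (h3 : ∀ x, (∀ i, bb (Φ (a * e i * thR r F) *ᵥ v) x = 0) → P *ᵥ x = x) (β : RR r F) :
    P *ᵥ (Φ (a * β) *ᵥ v) = Φ (a * tauR β) *ᵥ v := by
  obtain ⟨β₀, β₁, rfl⟩ := exists_dec h2 hr β
  have hp1 : P *ᵥ (Φ (a * β₀) *ᵥ v) = Φ (a * β₀) *ᵥ v := by
    apply h3
    intro i
    have e1 : a * (e i : RR r F) * thR r F = a * ((e i : RR r F) * thR r F) := by ring
    rw [e1, Phi_mulv, Phi_mulv Φ a (β₀ : RR r F), polar_Phi Φ hadj a a, mul_comm (tauR a) a, hnorm, ← Phi_mulv, polar_Phi Φ hadj]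
    apply polar_anti Φ h2 hadj
    simp only [map_mul, tauR_tauR hr, tau_thR hr, tau_val, map_neg]
    ring
  obtain ⟨ρ, hρ⟩ := hsp β₁
  have hp2 : Φ (a * ((β₁ : RR r F) * thR r F)) *ᵥ v = ∑ i, ρ i • (Φ (a * e i * thR r F) *ᵥ v) := by
    have e1 : a * ((β₁ : RR r F) * thR r F) = (a * thR r F) * β₁ := by ring
    rw [e1, Phi_mulv, hρ, Matrix.mulVec_sum]
    apply Finset.sum_congr rfl
    intro i _
    rw [Matrix.mulVec_smul, ← Phi_mulv]
    congr 3
    ring
  have hp3 : P *ᵥ (Φ (a * ((β₁ : RR r F) * thR r F)) *ᵥ v) = - (Φ (a * ((β₁ : RR r F) * thR r F)) *ᵥ v) := by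
    rw [hp2, Matrix.mulVec_sum, ← Finset.sum_neg_distrib]
    apply Finset.sum_congr rfl
    intro i _
    rw [Matrix.mulVec_smul, h1, smul_neg]
  have e1 : Φ (a * ((β₀ : RR r F) + (β₁ : RR r F) * thR r F)) *ᵥ v = Φ (a * β₀) *ᵥ v + Φ (a * ((β₁ : RR r F) * thR r F)) *ᵥ v := by
    rw [mul_add, map_add, Matrix.add_mulVec]
  have e2 : Φ (a * tauR ((β₀ : RR r F) + (β₁ : RR r F) * thR r F)) *ᵥ v = Φ (a * β₀) *ᵥ v - Φ (a * ((β₁ : RR r F) * thR r F)) *ᵥ v := by
    have e3 : tauR ((β₀ : RR r F) + (β₁ : RR r F) * thR r F) = (β₀ : RR r F) - (β₁ : RR r F) * thR r F := by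
      rw [map_add, map_mul, tau_val, tau_val, tau_thR hr]
      ring
    rw [e3, ← Matrix.sub_mulVec, ← map_sub]
    congr 2
    ring
  rw [e1, e2, Matrix.mulVec_add, hp1, hp3, sub_eq_add_neg]

end phi

end Cfsg.Agent.Lib.AutPOm
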