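import Cfsg.Agent.Lib.AutPOm.GrFam2

/-! A product of reflections commuting with the group ring, of non-square norm. -/

set_option autoImplicit false
set_option linter.unusedSimpArgs false
set_option linter.unusedVariables false
set_option linter.unusedSectionVars false
set_option maxHeartbeats 1000000

namespace Cfsg.Agent.Lib.AutPOm

open Matrix Module
open Cfsg.Agent.Lib.Classical (polar_self_eq reflection_Q reflection_fix)
open Cfsg.Agent.Lib.Spinor (rr rO rO_mat matrix_ext OG.mat nm lp lp_mat nm_append)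

variable {F : Type*} [Field F] {ι : Type} [Fintype ι] [DecidableEq ι] {Q : QuadraticForm F (ι → F)}

local notation "VV" => (ι → F)
local notation "MM" => Matrix ι ι F
local notation "bb" => QuadraticMap.polar (DFunLike.coe Q)

variable {r : ℕ} (Φ : RR r F →ₐ[F] Matrix ι ι F)

/-- The functional attached to a vector and an element. -/
noncomputable def lfun (Q : QuadraticForm F (ι → F)) (Φ : RR r F →ₐ[F] Matrix ι ι F) (v : ι → F) (t : RR r F) : R0 r F →ₗ[F] F where
  toFun z := QuadraticMap.polar (DFunLike.coe Q) v (Φ (t * z) *ᵥ v)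
  map_add' x y := by
    rw [Subalgebra.coe_add, mul_add, map_add, Matrix.add_mulVec, QuadraticMap.polar_add_right]
  map_smul' c x := by
    rw [Subalgebra.coe_smul, mul_smul_comm, map_smul, Matrix.smul_mulVec, QuadraticMap.polar_smul_right]
    rfl

theorem lfun_apply (v : VV) (t : RR r F) (z : R0 r F) : lfun Q Φ v t z = bb v (Φ (t * z) *ᵥ v) := rfl

/-- The core construction. -/
theorem exists_refl_pair [Finite F] (h2 : (2 : F) ≠ 0) (hr3 : 3 ≤ r) (hro : Odd r) (hrF : (r : F) ≠ 0)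
    (hadj : ∀ (x : RR r F) (u w : VV), bb (Φ x *ᵥ u) w = bb u (Φ (tauR x) *ᵥ w))
    (hN : ∀ a b : RR r F, (a * tauR a - b) * (tt + tauR tt - 2) = 0 → ∀ z : VV, Φ (a * tauR a) *ᵥ z = Φ b *ᵥ z)
    (hθ : ∀ x : VV, Φ (thR r F) *ᵥ x = 0 → x = 0) {v : VV} (hQv : Q v ≠ 0) (I : Ideal (R0 r F)) (hI : I.IsMaximal) (hann : ∀ z ∈ I, Φ (z : RR r F) *ᵥ v = 0) :
    ∃ L : List VV, (∀ u ∈ L, Q u ≠ 0) ∧ Even L.length ∧ ¬ IsSquare (nm Q L) ∧ (L.map (rr Q)).prod * Φ tt = Φ tt * (L.map (rr Q)).prod := by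
  classical
  have hr2 : 2 ≤ r := by omega
  have hfR : Finite (RR r F) := finite_RR (by omega)
  have hfS : Finite (R0 r F) := Subtype.finite
  have hF' : Fintype F := Fintype.ofFinite F
  obtain ⟨ν, hν⟩ := FiniteField.exists_nonsquare (F := F) (fun hch => h2 (by
    have := ringChar.Nat.cast_ringChar (R := F)
    rw [hch] at this
    exact_mod_cast this))
  have : I.IsMaximal := hI
  obtain ⟨d, e, b, M, hMsq, hbI, hMb, hsp, hind⟩ := exists_field_data I hν
  obtain ⟨α, β, hαβ⟩ := exists_norm hr3 hro h2 hrF b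
  set a : RR r F := (α : RR r F) + (β : RR r F) * tt with ha
  have hnorm : ∀ z : VV, Φ (a * tauR a) *ᵥ z = Φ (b : RR r F) *ᵥ z := hN a b hαβ
  have hcoe : ∀ c : Fin d → F, ((∑ i, c i • e i : R0 r F) : RR r F) = ∑ i, c i • (e i : RR r F) := by
    intro c
    rw [AddSubmonoidClass.coe_finsetSum]
    rfl
  have hΦsum : ∀ (c : Fin d → F) (t : RR r F), Φ (t * ((∑ i, c i • e i : R0 r F) : RR r F)) *ᵥ v = ∑ i, c i • (Φ (t * e i) *ᵥ v) := by
    intro c t
    rw [hcoe, Finset.mul_sum, map_sum, Matrix.sum_mulVec]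
    apply Finset.sum_congr rfl
    intro i _
    rw [mul_smul_comm, map_smul, Matrix.smul_mulVec]
  have hsub : ∀ s s' : R0 r F, s - s' ∈ I → Φ (s : RR r F) *ᵥ v = Φ (s' : RR r F) *ᵥ v := by
    intro s s' hs
    have h1 := hann _ hs
    rw [Subalgebra.coe_sub, map_sub, Matrix.sub_mulVec] at h1
    exact sub_eq_zero.1 h1
  have hCsp : ∀ s : R0 r F, ∃ ρ : Fin d → F, Φ (s : RR r F) *ᵥ v = ∑ i, ρ i • (Φ (e i : RR r F) *ᵥ v) := by
    intro s
    obtain ⟨ρ, hρ⟩ := hsp s
    refine ⟨ρ, ?_⟩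
    rw [hsub _ _ hρ]
    have := hΦsum ρ 1
    simpa using this
  have hMv : ∀ j, Φ ((b : RR r F) * e j) *ᵥ v = ∑ k, M k j • (Φ (e k : RR r F) *ᵥ v) := by
    intro j
    have h1 := hsub _ _ (hMb j)
    rw [Subalgebra.coe_mul] at h1
    rw [h1]
    have := hΦsum (fun k => M k j) 1
    simpa using this
  have hv0 : v ≠ 0 := by
    rintro rfl
    exact hQv (by simp)
  have hvv : bb v v ≠ 0 := by
    rw [polar_self_eq]
    exact mul_ne_zero h2 hQv
  have hω : tauR (thR r F * thR r F) = thR r F * thR r F := by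
    rw [map_mul, tau_thR hr2]
    ring
  let ω : R0 r F := ⟨thR r F * thR r F, hω⟩
  have hωI : ω ∉ I := by
    intro hmem
    have h1 := hann _ hmem
    have h3 : Φ (thR r F * thR r F) *ᵥ v = 0 := h1
    rw [Phi_mulv] at h3
    exact hv0 (hθ _ (hθ _ h3))
  -- the families
  let C : Fin d → VV := fun i => Φ (e i : RR r F) *ᵥ v
  let B : Fin d → VV := fun i => Φ (1 * (e i : RR r F) * thR r F) *ᵥ v
  let B' : Fin d → VV := fun i => Φ (a * (e i : RR r F) * thR r F) *ᵥ v
  have hl : ∀ t : RR r F, ∀ z ∈ I, lfun Q Φ v t z = 0 := by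
    intro t z hz
    rw [lfun_apply, Phi_mulv, hann z hz, Matrix.mulVec_zero]
    simp
  have hGC : GramF Q C = Matrix.of fun i j => lfun Q Φ v 1 (e i * e j) := by
    ext i j
    simp only [GramF, Matrix.of_apply, C]
    rw [polar_Phi Φ hadj, lfun_apply, tau_val, Subalgebra.coe_mul, one_mul]
  have hdC : (GramF Q C).det ≠ 0 := by
    rw [hGC]
    apply gram_field hI hsp hind _ (hl 1) (s₀ := 1)
    rw [lfun_apply]
    simpa using hvv
  have hGB : GramF Q B = Matrix.of fun i j => lfun Q Φ v (- (thR r F * thR r F)) (e i * e j) := by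
    ext i j
    simp only [GramF, Matrix.of_apply, B]
    rw [polar_Phi Φ hadj, lfun_apply]
    congr 3
    simp only [map_mul, map_one, tau_val, tau_thR hr2, Subalgebra.coe_mul]
    ring
  have hdB : (GramF Q B).det ≠ 0 := by
    rw [hGB]
    obtain ⟨y, i, hi, hyi⟩ := hI.exists_inv hωI
    apply gram_field hI hsp hind _ (hl _) (s₀ := -y)
    rw [lfun_apply]
    have e1 : - (thR r F * thR r F) * ((-y : R0 r F) : RR r F) = 1 - (i : RR r F) := by
      have h3 : ((y * ω + i : R0 r F) : RR r F) = 1 := by rw [hyi]; rfl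
      rw [Subalgebra.coe_add, Subalgebra.coe_mul] at h3
      have h4 : (ω : RR r F) = thR r F * thR r F := rfl
      rw [h4] at h3
      rw [Subalgebra.coe_neg]
      linear_combination h3
    rw [e1, map_sub, map_one, Matrix.sub_mulVec, Matrix.one_mulVec, hann i hi, sub_zero]
    exact hvv
  have hGB' : GramF Q B' = GramF Q B * M := by
    ext i j
    rw [Matrix.mul_apply]
    simp only [GramF, Matrix.of_apply, B, B']
    have e1 : a * (e i : RR r F) * thR r F = a * ((e i : RR r F) * thR r F) := by ring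
    have e2 : a * (e j : RR r F) * thR r F = a * ((e j : RR r F) * thR r F) := by ring
    have hq : Φ (tauR a * (a * ((e j : RR r F) * thR r F))) *ᵥ v = ∑ k, M k j • (Φ (1 * (e k : RR r F) * thR r F) *ᵥ v) := by
      have e3 : tauR a * (a * ((e j : RR r F) * thR r F)) = (a * tauR a) * ((e j : RR r F) * thR r F) := by ring
      have e4 : (b : RR r F) * ((e j : RR r F) * thR r F) = thR r F * ((b : RR r F) * (e j : RR r F)) := by ring
      rw [e3, Phi_mulv, hnorm, ← Phi_mulv, e4, Phi_mulv, hMv, Matrix.mulVec_sum]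
      apply Finset.sum_congr rfl
      intro k _
      rw [Matrix.mulVec_smul, ← Phi_mulv]
      congr 3
      ring
    rw [e1, e2, Phi_mulv Φ a ((e i : RR r F) * thR r F), polar_Phi Φ hadj a (_ * _), hq, polar_sum_right, one_mul]
    apply Finset.sum_congr rfl
    intro k _
    rw [mul_comm, one_mul]
  have hMd : M.det ≠ 0 := by
    intro h0
    rw [h0] at hMsq
    exact hMsq IsSquare.zero
  have hdB' : (GramF Q B').det ≠ 0 := by
    rw [hGB', Matrix.det_mul]
    exact mul_ne_zero hdB hMd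
  obtain ⟨n, rfl⟩ : ∃ n, d = n + 1 := by
    rcases d with _ | n
    · exfalso
      apply hMsq
      rw [Matrix.det_isEmpty]
      exact IsSquare.one
    · exact ⟨n, rfl⟩
  obtain ⟨L, hL0, hLl, hL1, hL2, d₁, hd₁, hL3⟩ := fam_list (Q := Q) h2 (Fintype.card_fin (n + 1)) hdB
  obtain ⟨L', hL0', hLl', hL1', hL2', d₂, hd₂, hL3'⟩ := fam_list (Q := Q) h2 (Fintype.card_fin (n + 1)) hdB'
  set r₁ : MM := (L.map (rr Q)).prod with hr₁
  set r₂ : MM := (L'.map (rr Q)).prod with hr₂
  have ha₁ : ∀ β : RR r F, r₁ *ᵥ (Φ β *ᵥ v) = Φ (tauR β) *ᵥ v := by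
    intro β
    have h1 := act_fam Φ h2 hr2 hadj (v := v) (a := 1) (b := 1) (fun z => by simp) hCsp (P := r₁) hL1 hL2 β
    simpa using h1
  have ha₂ : ∀ β : RR r F, r₂ *ᵥ (Φ (a * β) *ᵥ v) = Φ (a * tauR β) *ᵥ v :=
    fun β => act_fam Φ h2 hr2 hadj (v := v) (a := a) (b := b) hnorm hCsp (P := r₂) hL1' hL2' β
  obtain ⟨y', i', hi', hyi'⟩ := hI.exists_inv hbI
  have hbb : Φ ((b : RR r F) * (y' : RR r F)) *ᵥ v = v := by
    have e1 : (b : RR r F) * (y' : RR r F) = 1 - (i' : RR r F) := by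
      have h3 : ((y' * b + i' : R0 r F) : RR r F) = 1 := by rw [hyi']; rfl
      rw [Subalgebra.coe_add, Subalgebra.coe_mul] at h3
      linear_combination h3
    rw [e1, map_sub, map_one, Matrix.sub_mulVec, Matrix.one_mulVec, hann i' hi', sub_zero]
  have hw : ∀ β : RR r F, r₂ *ᵥ (r₁ *ᵥ (Φ β *ᵥ v)) = Φ (a * a * y' * β) *ᵥ v := by
    intro β
    have e1 : Φ (tauR β) *ᵥ v = Φ (a * (tauR a * y' * tauR β)) *ᵥ v := by
      have e2 : a * (tauR a * (y' : RR r F) * tauR β) = tauR β * ((a * tauR a) * (y' : RR r F)) := by ring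
      rw [e2, Phi_mulv, Phi_mulv Φ (a * tauR a), hnorm, ← Phi_mulv Φ (b : RR r F) (y' : RR r F), hbb]
    rw [ha₁, e1, ha₂]
    congr 2
    simp only [map_mul, tauR_tauR hr2, tau_val]
    ring
  -- fixed vectors
  have hfix : ∀ x', (∀ β' : RR r F, bb (Φ β' *ᵥ v) x' = 0) → r₂ *ᵥ (r₁ *ᵥ x') = x' := by
    intro x' hx'
    rw [hL2 x' (fun i => hx' _), hL2' x' (fun i => hx' _)]
  -- decomposition
  have hCB : ∀ i j, bb (C i) (B j) = 0 := by
    intro i j
    simp only [C, B]
    rw [polar_Phi Φ hadj]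
    apply polar_anti Φ h2 hadj
    simp only [map_mul, map_one, tauR_tauR hr2, tau_thR hr2, tau_val]
    ring
  have hdec : ∀ x : VV, ∃ (β : RR r F) (x' : VV), x = Φ β *ᵥ v + x' ∧ ∀ β' : RR r F, bb (Φ β' *ᵥ v) x' = 0 := by
    intro x
    obtain ⟨c, hc⟩ := gram_decomp hdB x
    obtain ⟨c', hc'⟩ := gram_decomp hdC (x - ∑ i, c i • B i)
    refine ⟨∑ i, c i • (1 * (e i : RR r F) * thR r F) + ∑ i, c' i • (e i : RR r F), (x - ∑ i, c i • B i) - ∑ i, c' i • C i, ?_, ?_⟩
    · have e1 : Φ (∑ i, c i • (1 * (e i : RR r F) * thR r F) + ∑ i, c' i • (e i : RR r F)) *ᵥ v = ∑ i, c i • B i + ∑ i, c' i • C i := by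
        rw [map_add, Matrix.add_mulVec, map_sum, map_sum, Matrix.sum_mulVec, Matrix.sum_mulVec]
        congr 1
        · apply Finset.sum_congr rfl
          intro i _
          rw [map_smul, Matrix.smul_mulVec]
        · apply Finset.sum_congr rfl
          intro i _
          rw [map_smul, Matrix.smul_mulVec]
      rw [e1]
      abel
    · intro β'
      obtain ⟨β₀, β₁, rfl⟩ := exists_dec h2 hr2 β'
      obtain ⟨ρ, hρ⟩ := hCsp β₀
      obtain ⟨ρ', hρ'⟩ := hCsp β₁
      have h1 : Φ ((β₀ : RR r F) + (β₁ : RR r F) * thR r F) *ᵥ v = ∑ i, ρ i • C i + ∑ i, ρ' i • B i := by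
        rw [map_add, Matrix.add_mulVec, hρ]
        congr 1
        have e2 : (β₁ : RR r F) * thR r F = thR r F * β₁ := by ring
        rw [e2, Phi_mulv, hρ', Matrix.mulVec_sum]
        apply Finset.sum_congr rfl
        intro i _
        rw [Matrix.mulVec_smul, ← Phi_mulv]
        simp only [B]
        congr 3
        ring
      rw [h1, QuadraticMap.polar_add_left, polar_sum_left, polar_sum_left]
      have h3 : ∀ i, bb (C i) (x - ∑ i, c i • B i - ∑ i, c' i • C i) = 0 := by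
        intro i
        rw [QuadraticMap.polar_comm]
        exact hc' i
      have h4 : ∀ i, bb (B i) (x - ∑ i, c i • B i - ∑ i, c' i • C i) = 0 := by
        intro i
        rw [QuadraticMap.polar_comm, QuadraticMap.polar_sub_left, hc i, polar_sum_left]
        simp only [zero_sub, neg_eq_zero]
        exact Finset.sum_eq_zero (fun j _ => by rw [hCB, mul_zero])
      simp only [h3, h4, mul_zero, Finset.sum_const_zero, add_zero]
  refine ⟨L' ++ L, ?_, ?_, ?_, ?_⟩
  · intro u hu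
    rcases List.mem_append.1 hu with hu | hu
    · exact hL0' u hu
    · exact hL0 u hu
  · rw [List.length_append, hLl, hLl']
    exact ⟨n + 1, rfl⟩
  · rw [nm_append]
    rintro ⟨t, ht⟩
    apply hMsq
    have hp0 : (2 : F) ^ (n + 1) ≠ 0 := pow_ne_zero _ h2
    rw [hGB', Matrix.det_mul] at hL3'
    refine ⟨(2 : F) ^ (n + 1) * t / ((GramF Q B).det * d₁ * d₂), ?_⟩
    have hne : (GramF Q B).det * d₁ * d₂ ≠ 0 := mul_ne_zero (mul_ne_zero hdB hd₁) hd₂
    field_simp
    have h5 : ((2 : F) ^ (n + 1) * nm Q L') * ((2 : F) ^ (n + 1) * nm Q L) = ((GramF Q B).det * M.det * d₂ ^ 2) * ((GramF Q B).det * d₁ ^ 2) := by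
      rw [hL3', hL3]
    have h6 : ((2 : F) ^ (n + 1) * nm Q L') * ((2 : F) ^ (n + 1) * nm Q L) = ((2 : F) ^ (n + 1)) ^ 2 * (t * t) := by
      rw [← ht]
      ring
    rw [h6] at h5
    linear_combination (-1 : F) * h5
  · rw [List.map_append, List.prod_append, ← hr₁, ← hr₂]
    apply matrix_ext
    intro x
    rw [← Matrix.mulVec_mulVec, ← Matrix.mulVec_mulVec, ← Matrix.mulVec_mulVec, ← Matrix.mulVec_mulVec]
    obtain ⟨β, x', rfl, hx'⟩ := hdec x
    have hG' : ∀ β' : RR r F, bb (Φ β' *ᵥ v) (Φ tt *ᵥ x') = 0 := by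
      intro β'
      have h1 := hadj (tauR (tt : RR r F)) (Φ β' *ᵥ v) x'
      rw [tauR_tauR hr2, ← Phi_mulv] at h1
      rw [← h1]
      exact hx' _
    rw [Matrix.mulVec_add, Matrix.mulVec_add, Matrix.mulVec_add, Matrix.mulVec_add, Matrix.mulVec_add, hfix _ hx', hfix _ hG', ← Phi_mulv, hw, hw, Matrix.mulVec_add, ← Phi_mulv]
    congr 3
    ring

end Cfsg.Agent.Lib.AutPOm
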