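import Cfsg.Agent.Lib.AutPOm.SemiPar

/-! The homomorphism from the automorphism group of a minus-type group to the Galois group of the quadratic extension. -/

set_option autoImplicit false
set_option linter.unusedSimpArgs false
set_option linter.unusedVariables false
set_option linter.unusedSectionVars false

namespace Cfsg.Agent.Lib.AutPOm

open Matrix Module MulAction Cfsg.Agent.Lib.Classical Polynomial
open Cfsg.Agent.Lib.AutPSL (sm sm_apply sm_add sm_smul sm_symm_sm sm_sm_symm glMap glMap_coe semi_vec_ne_zero map_mulVec_sm nrm nrmF nrmF_succ nrm_succ' exists_gl_of_nrm_one exists_nrmF_eq exists_of_nrmF_one nrm_scalar_mul nrmF_inv nrmF_zero coe_scalar_mul slinear glMap_one orderOf_conj' card_gal centConj split_conj galEquiv exists_hom_of_rel)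
open Cfsg.Agent.Lib.ClassMax.OmegaCore (IsMaxTS imgOf mem_imgOf finrank_imgOf imgOf_mul imgOf_one imgOf_inf par_triple mem_iso_iff)
open Cfsg.Agent.Lib.Spinor (ndf rO lp OG.mat lp_cons lp_nil)
open Cfsg.Agent.Lib.Quad (NondegQ minusQF minusQF_apply)
open scoped LinearAlgebra.Projectivization MatrixGroups

section UM

variable {K : Type*} [Field K] {k : ℕ}

theorem smap_UM (κ : K ≃+* K) (t : K) : smap κ (UM k t) = UM k (κ t) := by
  ext v
  rw [mem_smap, mem_UM, mem_UM]
  simp only [sm_apply]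
  constructor
  · rintro ⟨h1, h2⟩
    refine ⟨fun i => ?_, ?_⟩
    · have := h1 i
      simpa using this
    · have := congrArg κ h2
      simpa using this
  · rintro ⟨h1, h2⟩
    refine ⟨fun i => by simp [h1 i], ?_⟩
    rw [h2]
    simp

/-- The linear map cutting out the intersection of two half-dimensional subspaces. -/
noncomputable def uvL (k : ℕ) : ((Fin k ⊕ Fin k) ⊕ Fin 2 → K) →ₗ[K] (Fin k ⊕ Fin 2 → K) :=
  LinearMap.funLeft K K (Sum.elim (fun i => Sum.inl (Sum.inr i)) Sum.inr)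

theorem uvL_surj (k : ℕ) : Function.Surjective (uvL (K := K) k) := by
  apply LinearMap.funLeft_surjective_of_injective
  rintro (i | i) (j | j) h
  · simpa using h
  · simp at h
  · simp at h
  · simpa using h

theorem finrank_UM_inf {t t' : K} (h : t ≠ t') : finrank K (UM k t ⊓ UM k t' : Submodule K _) = k := by
  have e : (UM k t ⊓ UM k t' : Submodule K _) = LinearMap.ker (uvL (K := K) k) := by
    ext v
    rw [Submodule.mem_inf, mem_UM, mem_UM, LinearMap.mem_ker]
    constructor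
    · rintro ⟨⟨h1, h2⟩, -, h3⟩
      have h4 : v (Sum.inr 1) = 0 := by
        have : (t - t') * v (Sum.inr 1) = 0 := by linear_combination h3 - h2
        exact (mul_eq_zero.1 this).resolve_left (sub_ne_zero.2 h)
      funext s
      rcases s with i | i
      · exact h1 i
      · fin_cases i
        · show v (Sum.inr 0) = 0
          rw [h2, h4, mul_zero]
        · exact h4
    · intro h0
      have h1 : ∀ i, v (Sum.inl (Sum.inr i)) = 0 := fun i => congrFun h0 (Sum.inl i)
      have h2 : v (Sum.inr 0) = 0 := congrFun h0 (Sum.inr 0)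
      have h3 : v (Sum.inr 1) = 0 := congrFun h0 (Sum.inr 1)
      refine ⟨⟨h1, ?_⟩, h1, ?_⟩
      · rw [h2, h3, mul_zero]
      · rw [h2, h3, mul_zero]
  rw [e]
  have h1 := LinearMap.finrank_range_add_finrank_ker (uvL (K := K) k)
  rw [LinearMap.range_eq_top.2 (uvL_surj k), finrank_top] at h1
  simp only [Module.finrank_fintype_fun_eq_card, Fintype.card_sum, Fintype.card_fin] at h1
  omega

end UM

section main

variable {F K : Type*} [Field F] [Fintype F] [Field K] [Fintype K] {k : ℕ} {a b : F}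

local notation "JJ" => ((Fin k ⊕ Fin k) ⊕ Fin 2)

theorem minusQF_sm' (σ : F ≃+* F) (v : JJ → F) : minusQF k (σ a) (σ b) (sm σ v) = σ (minusQF k a b v) := by
  simp [minusQF_apply, Cfsg.quadFormMinus, sm, map_sum]

/-- There are semilinear similarities with prescribed field part. -/
theorem exists_semi (hab : ∀ z₁ z₂ : F, z₁ ^ 2 + a * z₁ * z₂ + b * z₂ ^ 2 = 0 → z₁ = 0 ∧ z₂ = 0) (σ : F ≃+* F) :
    ∃ H : GL JJ F, Cfsg.IsSemisimilarityPair (⇑(minusQF k a b)) H σ := by
  have hab' : ∀ z₁ z₂ : F, z₁ ^ 2 + σ a * z₁ * z₂ + σ b * z₂ ^ 2 = 0 → z₁ = 0 ∧ z₂ = 0 :=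
    aniso_of_map (σ : F →+* F) (a := σ.symm a) (b := σ.symm b) (by simpa using hab) |> fun h => by
      intro z₁ z₂ h0
      have h1 := congrArg σ.symm h0
      simp only [map_add, map_mul, map_pow, map_zero, RingEquiv.symm_apply_apply] at h1
      obtain ⟨h2, h3⟩ := hab _ _ h1
      exact ⟨by simpa using h2, by simpa using h3⟩
  obtain ⟨α₀, β₀, hβ₀, hiso⟩ := minus_isometric hab hab'
  refine ⟨binH k α₀ β₀ hβ₀, mk_semi (c := 1) (fun v => ?_)⟩
  rw [minusQF_apply, binH_isom hβ₀ hiso, Units.val_one, one_mul]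
  exact minusQF_sm' σ v

variable (φ : F →+* K) (hab : ∀ z₁ z₂ : F, z₁ ^ 2 + a * z₁ * z₂ + b * z₂ ^ 2 = 0 → z₁ = 0 ∧ z₂ = 0) {t : K} (ht : t ^ 2 + φ a * t + φ b = 0)
  (hspan : ∀ y : K, ∃ α β : F, y = φ α + φ β * t) (hcard : Fintype.card K = Fintype.card F ^ 2)

/-- The relation defining the homomorphism. -/
def RG (k : ℕ) (a b : F) (φ : F →+* K) (t : K) (α : MulAut (PO (minusQF k a b))) (τ : K ≃+* K) : Prop :=
  ∃ (M : GL ((Fin k ⊕ Fin k) ⊕ Fin 2) F) (σ : F ≃+* F) (hs : Cfsg.IsSemisimilarityPair (⇑(minusQF k a b)) M σ),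
    α = psemiO M σ hs ∧ (∀ x, τ (φ x) = φ (σ x)) ∧ parS (UM k t) (Matrix.GeneralLinearGroup.map φ M) τ % 2 = 0

include hab in
theorem nd_K : (QuadraticMap.polarBilin (minusQF k (φ a) (φ b))).Nondegenerate :=
  nondeg_ascent φ (minusQF_bc φ a b) (minusQF_nd hab k)

include ht hspan in
/-- A non-trivial automorphism fixing the subfield has odd parity. -/
theorem par_kappa {κ : K ≃+* K} (hκ : ∀ x, κ (φ x) = φ x) (hκ1 : κ ≠ RingEquiv.refl K) : parS (UM k t) (1 : GL JJ K) κ % 2 = 1 := by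
  have hκt : κ t ≠ t := by
    intro h
    apply hκ1
    ext y
    obtain ⟨α, β, rfl⟩ := hspan y
    simp [hκ, h]
  have e : imgS (1 : GL JJ K) κ (UM k t) = UM k (κ t) := by
    rw [imgS, imgOf_one, smap_UM]
  unfold parS
  rw [e, finrank_UM_inf (Ne.symm hκt), finrank_UM]
  omega

include hcard in
/-- There is a non-trivial automorphism over the subfield. -/
theorem exists_kappa : ∃ κ : K ≃+* K, (∀ x, κ (φ x) = φ x) ∧ κ ≠ RingEquiv.refl K := by
  classical
  obtain ⟨p, hp⟩ := CharP.exists F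
  have hp' : Fact p.Prime := ⟨CharP.char_is_prime F p⟩
  have hpK : CharP K p := charP_of_injective_ringHom φ.injective p
  obtain ⟨e, -, he⟩ := FiniteField.card F p
  refine ⟨powEquiv K p e, fun x => ?_, fun h => ?_⟩
  · rw [powEquiv_apply, ← he, ← map_pow, FiniteField.pow_card]
  · have hq1 : 1 < Fintype.card F := Fintype.one_lt_card
    have hall : ∀ y : K, (X ^ (Fintype.card F) - X : K[X]).eval y = 0 := by
      intro y
      have h1 : powEquiv K p e y = y := by rw [h]; rfl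
      rw [powEquiv_apply, ← he] at h1
      simp [h1]
    have hz := Polynomial.eq_zero_of_natDegree_lt_card_of_eval_eq_zero (X ^ (Fintype.card F) - X : K[X]) (Function.injective_id (α := K)) hall (by
      rw [FiniteField.X_pow_card_sub_X_natDegree_eq K hq1, Fintype.card_eq_nat_card, Nat.card_eq_fintype_card, hcard]
      nlinarith)
    exact FiniteField.X_pow_card_sub_X_ne_zero K hq1 hz

/-- Extension of field automorphisms. -/
theorem exists_ext (σ : F ≃+* F) : ∃ τ : K ≃+* K, ∀ x, τ (φ x) = φ (σ x) := by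
  obtain ⟨p, hp⟩ := CharP.exists F
  have hp' : Fact p.Prime := ⟨CharP.char_is_prime F p⟩
  have hpK : CharP K p := charP_of_injective_ringHom φ.injective p
  obtain ⟨n, hn⟩ := exists_pow_form p σ
  exact ⟨powEquiv K p n, fun x => by rw [powEquiv_apply, hn, map_pow]⟩

/-- Restriction of field automorphisms. -/
theorem exists_res (τ : K ≃+* K) : ∃ σ : F ≃+* F, ∀ x, τ (φ x) = φ (σ x) := by
  obtain ⟨p, hp⟩ := CharP.exists F
  have hp' : Fact p.Prime := ⟨CharP.char_is_prime F p⟩
  have hpK : CharP K p := charP_of_injective_ringHom φ.injective p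
  obtain ⟨n, hn⟩ := exists_pow_form p τ
  exact ⟨powEquiv F p n, fun x => by rw [hn, powEquiv_apply, map_pow]⟩

theorem map_glMap {τ : K ≃+* K} {σ : F ≃+* F} (hτ : ∀ x, τ (φ x) = φ (σ x)) (N : GL JJ F) :
    Matrix.GeneralLinearGroup.map φ (glMap σ N) = glMap τ (Matrix.GeneralLinearGroup.map φ N) := by
  apply Units.ext
  ext i j
  exact (hτ _).symm

include hab ht in
theorem hU_K : IsMaxTS (⇑(minusQF k (φ a) (φ b))) (UM k t) := UM_maxTS ht

include hab ht hspan hcard in
/-- The relation is single-valued. -/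
theorem RG_unique (hm : 3 ≤ k) (α : MulAut (PO (minusQF k a b))) {τ τ' : K ≃+* K} (h1 : RG k a b φ t α τ) (h2 : RG k a b φ t α τ') : τ = τ' := by
  obtain ⟨M, σ, hs, rfl, hτ, hp⟩ := h1
  obtain ⟨M', σ', hs', he, hτ', hp'⟩ := h2
  have : Good (minusQF k a b) := good_minus hab hm
  obtain ⟨rfl, c, hc0, hc⟩ := psemiO_inj he
  by_contra hne
  set κ : K ≃+* K := τ'.trans τ.symm with hκ
  have hκ1 : ∀ x, κ (φ x) = φ x := by
    intro x
    show τ.symm (τ' (φ x)) = φ x
    rw [hτ', ← hτ, RingEquiv.symm_apply_apply]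
  have hκ2 : κ ≠ RingEquiv.refl K := by
    intro h0
    apply hne
    ext y
    have h3 := congrArg (fun f : K ≃+* K => f y) h0
    have h4 : τ.symm (τ' y) = y := h3
    calc τ y = τ (τ.symm (τ' y)) := by rw [h4]
      _ = τ' y := RingEquiv.apply_symm_apply _ _
  have hq := par_kappa φ ht hspan hκ1 hκ2 (k := k)
  have hτ2 : τ' = κ.trans τ := by
    ext y
    show τ' y = τ (τ.symm (τ' y))
    rw [RingEquiv.apply_symm_apply]
  have hQ1 := minusQF_bc (m := k) φ a b
  have hsK := semi_ext φ hQ1 hs hτ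
  have h1K : Cfsg.IsSemisimilarityPair (⇑(minusQF k (φ a) (φ b))) (1 : GL JJ K) κ := by
    have := semi_ext (M := (1 : GL JJ F)) (σ := RingEquiv.refl F) φ hQ1 semi_one_refl (τ := κ) hκ1
    rwa [map_one] at this
  have hmul := parS_mul (nd_K φ hab) (hU_K φ hab ht) hsK h1K
  rw [map_one, mul_one, ← hτ2] at hmul
  have hsm : ((Matrix.GeneralLinearGroup.map φ M' : GL JJ K) : Matrix JJ JJ K) = (φ c)⁻¹ • ((Matrix.GeneralLinearGroup.map φ M : GL JJ K) : Matrix JJ JJ K) := by
    ext i j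
    have h5 : (M : Matrix JJ JJ F) i j = c * (M' : Matrix JJ JJ F) i j := by
      rw [hc]
      rfl
    show φ ((M' : Matrix JJ JJ F) i j) = (φ c)⁻¹ * φ ((M : Matrix JJ JJ F) i j)
    rw [h5, map_mul]
    have : φ c ≠ 0 := by simpa using hc0
    field_simp
  have hsc := parS_smul (U := UM k t) (τ := τ') (inv_ne_zero (by simpa using hc0 : φ c ≠ 0)) hsm
  omega

include hab ht in
theorem RG_mul (hm : 3 ≤ k) (α β : MulAut (PO (minusQF k a b))) {τ τ' : K ≃+* K} (h1 : RG k a b φ t α τ) (h2 : RG k a b φ t β τ') : RG k a b φ t (α * β) (τ * τ') := by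
  obtain ⟨M, σ, hs, rfl, hτ, hp⟩ := h1
  obtain ⟨N, σ', hs', rfl, hτ', hp'⟩ := h2
  refine ⟨M * glMap σ N, σ'.trans σ, semi_mul_mem hs hs', psemiO_mul hs hs', fun x => ?_, ?_⟩
  · show τ (τ' (φ x)) = φ (σ (σ' x))
    rw [hτ', hτ]
  · have hQ1 := minusQF_bc (m := k) φ a b
    have e1 : (τ * τ') = τ'.trans τ := rfl
    rw [map_mul, map_glMap φ hτ, e1, parS_mul (nd_K φ hab) (hU_K φ hab ht) (semi_ext φ hQ1 hs hτ) (semi_ext φ hQ1 hs' hτ')]
    omega

include hab ht hspan hcard in
theorem RG_exists (hm : 3 ≤ k) (α : MulAut (PO (minusQF k a b))) : ∃ τ, RG k a b φ t α τ := by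
  obtain ⟨M, σ, hs, rfl⟩ := hall_minus hab hm α
  obtain ⟨τ₀, hτ₀⟩ := exists_ext φ σ
  by_cases h0 : parS (UM k t) (Matrix.GeneralLinearGroup.map φ M) τ₀ % 2 = 0
  · exact ⟨τ₀, M, σ, hs, rfl, hτ₀, h0⟩
  · obtain ⟨κ, hκ1, hκ2⟩ := exists_kappa φ hcard
    have hq := par_kappa φ ht hspan hκ1 hκ2 (k := k)
    have hQ1 := minusQF_bc (m := k) φ a b
    have hsK := semi_ext φ hQ1 hs hτ₀
    have h1K : Cfsg.IsSemisimilarityPair (⇑(minusQF k (φ a) (φ b))) (1 : GL JJ K) κ := by
      have := semi_ext (M := (1 : GL JJ F)) (σ := RingEquiv.refl F) φ hQ1 semi_one_refl (τ := κ) hκ1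
      rwa [map_one] at this
    have hmul := parS_mul (nd_K φ hab) (hU_K φ hab ht) hsK h1K
    rw [map_one, mul_one] at hmul
    refine ⟨κ.trans τ₀, M, σ, hs, rfl, fun x => ?_, ?_⟩
    · show τ₀ (κ (φ x)) = _
      rw [hκ1, hτ₀]
    · omega

include hab ht in
/-- The link between parity and the condition. -/
theorem par_iff_KP_K (hm : 2 ≤ k) (hcard : Fintype.card K = Fintype.card F ^ 2) {g : GL JJ F} (hg : g ∈ Sim (minusQF k a b)) :
    parV (UM k t) (Matrix.GeneralLinearGroup.map φ g) % 2 = 0 ↔ KP (minusQF k a b) g := by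
  let _ : Algebra F K := φ.toAlgebra
  have hfin : finrank F K = 2 := by
    have h1 : Fintype.card K = Fintype.card F ^ finrank F K := Module.card_eq_pow_finrank
    rw [hcard] at h1
    exact (Nat.pow_right_injective Fintype.one_lt_card h1).symm
  have e0 := minus_link_K hfin hm hab (Q := minusQF k a b) rfl (minusQF_nd hab k) hg
  have hQ1 := minusQF_bc (m := k) φ a b
  have e1 := preserves_iff_par (nd_K φ hab) (hU_K φ hab ht) (map_mem_sim φ hQ1 hg)
  rw [← e1]
  exact e0

include hab ht hspan hcard in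
/-- The homomorphism to the Galois group of the quadratic extension. -/
theorem exists_gal_hom (hm : 3 ≤ k) : ∃ Θ : MulAut (PO (minusQF k a b)) →* (K ≃+* K), Function.Surjective Θ ∧
    Θ.ker = GD (even_JJ k) (minus_ne a b) ∧ ∀ α τ, Θ α = τ ↔ RG k a b φ t α τ := by
  obtain ⟨Θ, hΘ⟩ := exists_hom_of_rel (RG k a b φ t) (RG_exists φ hab ht hspan hcard hm)
    (fun α τ τ' h1 h2 => RG_unique φ hab ht hspan hcard hm α h1 h2) (fun α β τ τ' h1 h2 => RG_mul φ hab ht hm α β h1 h2)
  refine ⟨Θ, ?_, ?_, hΘ⟩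
  · intro τ
    obtain ⟨σ, hτ⟩ := exists_res φ τ
    obtain ⟨H, hs⟩ := exists_semi (k := k) hab σ
    by_cases h0 : parS (UM k t) (Matrix.GeneralLinearGroup.map φ H) τ % 2 = 0
    · exact ⟨psemiO H σ hs, (hΘ _ _).2 ⟨H, σ, hs, rfl, hτ, h0⟩⟩
    · have hQ1 := minusQF_bc (m := k) φ a b
      set w : JJ → F := Pi.single (Sum.inr 0) 1 with hw
      have hw0 : minusQF k a b w ≠ 0 := by
        rw [minusQF_apply, Cfsg.quadFormMinus, hw]
        simp
      have hr : Cfsg.IsSemisimilarityPair (⇑(minusQF k a b)) (rO (minusQF k a b) w).1 (RingEquiv.refl F) := semi_of_og _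
      have hsK := semi_ext φ hQ1 hs hτ
      have hrK := semi_ext φ hQ1 hr (τ := RingEquiv.refl K) (fun x => rfl)
      have hmul := parS_mul (nd_K φ hab) (hU_K φ hab ht) hsK hrK
      have e1 : (RingEquiv.refl K).trans τ = τ := RingEquiv.ext (fun _ => rfl)
      rw [e1, parS_refl] at hmul
      have hw1 : minusQF k (φ a) (φ b) (bc φ w) ≠ 0 := by
        rw [← hQ1]
        simpa using hw0
      have hp := parV_lp (nd_K φ hab) (hU_K φ hab ht) (vs := [bc φ w]) (by simpa using hw1)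
        (g := Matrix.GeneralLinearGroup.map φ (rO (minusQF k a b) w).1) (s := 1) one_ne_zero (by
          rw [one_smul, rO_bc φ hQ1 hw0, lp_cons, lp_nil, mul_one])
      simp only [List.length_cons, List.length_nil] at hp
      refine ⟨psemiO (H * glMap σ (rO (minusQF k a b) w).1) ((RingEquiv.refl F).trans σ) (semi_mul_mem hs hr), (hΘ _ _).2 ⟨_, _, _, rfl, hτ, ?_⟩⟩
      rw [map_mul, map_glMap φ hτ]
      omega
  · ext α
    rw [MonoidHom.mem_ker, hΘ]
    constructor
    · rintro ⟨M, σ, hs, rfl, hτ, hp⟩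
      have hσ : σ = RingEquiv.refl F := by
        ext x
        exact φ.injective (hτ x).symm
      subst hσ
      have hg := sim_of_semi hs
      exact mem_GD.2 ⟨M, hg, (par_iff_KP_K φ hab ht (by omega) hcard hg).1 hp, rfl⟩
    · intro hα
      obtain ⟨g, hg, hK, rfl⟩ := mem_GD.1 hα
      exact ⟨g, RingEquiv.refl F, semi_of_sim hg, rfl, fun x => rfl, (par_iff_KP_K φ hab ht (by omega) hcard hg).2 hK⟩

end main

section concrete

universe u

variable {F : Type u} [Field F] [Fintype F]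

/-- The quadratic extension attached to an anisotropic form. -/
theorem exists_quad {a b : F} (hab : ∀ z₁ z₂ : F, z₁ ^ 2 + a * z₁ * z₂ + b * z₂ ^ 2 = 0 → z₁ = 0 ∧ z₂ = 0) :
    ∃ (K : Type u) (_ : Field K) (_ : Fintype K) (φ : F →+* K) (t : K), t ^ 2 + φ a * t + φ b = 0 ∧ (∀ y : K, ∃ α β : F, y = φ α + φ β * t) ∧
      Fintype.card K = Fintype.card F ^ 2 := by
  classical
  set P : F[X] := X ^ 2 + C a * X + C b with hP
  have hirr : Irreducible P := irreducible_of_aniso hab
  have hdeg : P.natDegree = 2 := by rw [hP]; compute_degree!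
  have hmon : P.Monic := by rw [hP]; monicity!
  have : Fact (Irreducible P) := ⟨hirr⟩
  have hfin : finrank F (AdjoinRoot P) = 2 := by
    rw [(AdjoinRoot.powerBasis hirr.ne_zero).finrank, AdjoinRoot.powerBasis_dim, hdeg]
  have hLf : FiniteDimensional F (AdjoinRoot P) := (AdjoinRoot.powerBasis hirr.ne_zero).finite
  have : Finite (AdjoinRoot P) := Module.finite_of_finite F
  let _ : Fintype (AdjoinRoot P) := Fintype.ofFinite _
  refine ⟨AdjoinRoot P, inferInstance, inferInstance, algebraMap F _, AdjoinRoot.root P, ?_, ?_, ?_⟩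
  · have h1 := AdjoinRoot.eval₂_root P
    rw [hP] at h1
    simp only [eval₂_add, eval₂_mul, eval₂_pow, eval₂_X, eval₂_C] at h1
    exact h1
  · intro y
    obtain ⟨f, rfl⟩ := AdjoinRoot.mk_surjective y
    have hrem : AdjoinRoot.mk P f = AdjoinRoot.mk P (f %ₘ P) := by
      rw [AdjoinRoot.mk_eq_mk]
      have := Polynomial.modByMonic_add_div f P
      exact ⟨f /ₘ P, by
        nth_rewrite 1 [← this]
        ring⟩
    have hd1 : (f %ₘ P).natDegree ≤ 1 := by
      have := Polynomial.natDegree_modByMonic_lt f hmon (by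
        intro h1
        rw [h1] at hdeg
        simp at hdeg)
      omega
    obtain ⟨β, α, hαβ⟩ := Polynomial.exists_eq_X_add_C_of_natDegree_le_one hd1
    refine ⟨α, β, ?_⟩
    rw [hrem, hαβ]
    simp only [map_add, map_mul, AdjoinRoot.mk_C, AdjoinRoot.mk_X, AdjoinRoot.algebraMap_eq]
    ring
  · rw [← hfin]
    exact Module.card_eq_pow_finrank

theorem inn_eq_GD {ι : Type} [Fintype ι] [DecidableEq ι] {Q : QuadraticForm F (ι → F)} [h : Good Q] (h2 : (2 : F) = 0) (he : Even (Fintype.card ι)) (hne : ∃ v : ι → F, Q v ≠ 0) :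
    Cfsg.Inn (PO Q) = GD he hne := by
  apply le_antisymm (inn_le_GD he hne)
  intro δ hδ
  obtain ⟨g, hg, hK, rfl⟩ := mem_GD.1 hδ
  exact (KP_iff_inn h2 hg).2 hK

/-- `S2605`. -/
theorem out_minus_even {f k : ℕ} (hf : 1 ≤ f) (hF : Fintype.card F = 2 ^ f) (hk : 3 ≤ k) (a b : F)
    (hab : ∀ z₁ z₂ : F, z₁ ^ 2 + a * z₁ * z₂ + b * z₂ ^ 2 = 0 → z₁ = 0 ∧ z₂ = 0) :
    IsCyclic (Cfsg.Out (PO (minusQF k a b))) ∧ Nat.card (Cfsg.Out (PO (minusQF k a b))) = 2 * f := by
  classical
  have h2 : (2 : F) = 0 := by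
    have := FiniteField.cast_card_eq_zero F
    rw [hF] at this
    have h3 : ((2 : ℕ) : F) ^ f = 0 := by exact_mod_cast this
    have h4 := pow_eq_zero_iff (by omega) |>.1 h3
    exact_mod_cast h4
  obtain ⟨K, _, _, φ, t, ht, hspan, hcard⟩ := exists_quad hab
  have : Good (minusQF k a b) := good_minus hab hk
  obtain ⟨Θ, hsurj, hker, -⟩ := exists_gal_hom (k := k) φ hab ht hspan hcard hk
  have hker' : Cfsg.Inn (PO (minusQF k a b)) = Θ.ker := by
    rw [hker]
    exact inn_eq_GD h2 _ _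
  let e : Cfsg.Out (PO (minusQF k a b)) ≃* (K ≃+* K) := (QuotientGroup.quotientMulEquivOfEq hker').trans (QuotientGroup.quotientKerEquivOfSurjective Θ hsurj)
  have hcK : Fintype.card K = 2 ^ (2 * f) := by
    rw [hcard, hF, ← pow_mul]
    congr 1
    ring
  have : Fact (Nat.Prime 2) := ⟨Nat.prime_two⟩
  obtain ⟨h3, h4⟩ := card_gal (F := K) (p := 2) (f := 2 * f) (by omega) hcK
  refine ⟨isCyclic_of_surjective e.symm e.symm.surjective, ?_⟩
  rw [Nat.card_congr e.toEquiv, h4]

end concrete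

end Cfsg.Agent.Lib.AutPOm
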