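import Cfsg.Agent.Lib.AutPOm.EvenInvForms
import Cfsg.Agent.Lib.AutPOm.MinusGal

/-! The outer automorphism group of the minus-type orthogonal groups in odd characteristic. -/

set_option autoImplicit false
set_option linter.unusedSimpArgs false
set_option linter.unusedVariables false
set_option linter.unusedSectionVars false

namespace Cfsg.Agent.Lib.AutPOm

open Matrix Module MulAction Cfsg.Agent.Lib.Classical
open Cfsg.Agent.Lib.AutPSL (sm sm_add sm_smul sm_symm_sm sm_sm_symm glMap glMap_coe semi_vec_ne_zero map_mulVec_sm coe_scalar_mul glMap_one exists_hom_of_rel exists_gal_equiv card_gal)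
open Cfsg.Agent.Lib.ClassMax.OmegaCore (mem_iso_iff)
open Cfsg.Agent.Lib.Spinor (ndf rr rO lp nm invHom invHom_lp invL omega_eq_ker_invHom sgnF sgnF_of_sq sgnF_of_not_sq sgnF_eq_one_iff sgnF_mul exists_lp lp_mat lp_cons lp_nil rO_mat matrix_ext det_list_prod sq_mul_of_not_sq OG.mat lp_mem_omega_iff HypCoord)
open Cfsg.Agent.Lib.Quad (NondegQ minusQF minusQF_apply)
open scoped LinearAlgebra.Projectivization MatrixGroups

variable {F : Type*} [Field F] {ι : Type} [Fintype ι] [DecidableEq ι] {Q : QuadraticForm F (ι → F)}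

local notation "VV" => (ι → F)
local notation "MM" => Matrix ι ι F
local notation "GG" => GL ι F

section generic

variable [Fintype F] [h : Good Q]

/-- The relation defining the sign of the multiplier. -/
def RMu (Q : QuadraticForm F (ι → F)) (α : MulAut (PO Q)) (t : ℤˣ) : Prop :=
  ∃ (M : GG) (σ : F ≃+* F) (hs : Cfsg.IsSemisimilarityPair (⇑Q) M σ) (c : Fˣ), α = psemiO M σ hs ∧ (∀ v : VV, Q ((M : MM) *ᵥ sm σ v) = (c : F) * σ (Q v)) ∧ sgnF (c : F) = t

/-- The sign of the multiplier is a homomorphism on the whole automorphism group. -/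
theorem exists_mu1 (hall : ∀ α : MulAut (PO Q), ∃ (M : GG) (σ : F ≃+* F) (hs : Cfsg.IsSemisimilarityPair (⇑Q) M σ), α = psemiO M σ hs) :
    ∃ μ : MulAut (PO Q) →* ℤˣ, ∀ (M : GG) (σ : F ≃+* F) (hs : Cfsg.IsSemisimilarityPair (⇑Q) M σ) (c : Fˣ),
      (∀ v : VV, Q ((M : MM) *ᵥ sm σ v) = (c : F) * σ (Q v)) → μ (psemiO M σ hs) = sgnF (c : F) := by
  obtain ⟨μ, hμ⟩ := exists_hom_of_rel (RMu Q) (by
      intro α
      obtain ⟨M, σ, hs, rfl⟩ := hall α
      obtain ⟨c, hc⟩ := semi_Q hs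
      exact ⟨_, M, σ, hs, c, rfl, hc, rfl⟩)
    (by
      rintro α t u ⟨M, σ, hs, c, rfl, hc, rfl⟩ ⟨M', σ', hs', c', he, hc', rfl⟩
      obtain ⟨h1, d, hd0, hd⟩ := psemiO_inj he
      subst h1
      obtain ⟨v₀, hv₀⟩ := ne_of_good (Q := Q)
      have h3 := hc v₀
      rw [hd, Matrix.smul_mulVec, QuadraticMap.map_smul, hc', smul_eq_mul] at h3
      have h4 : σ (Q v₀) ≠ 0 := by simpa using hv₀
      have h5 : (c : F) = (d * d) * c' := by
        apply mul_right_cancel₀ h4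
        rw [← h3]
        ring
      rw [h5, sgnF_mul (mul_ne_zero hd0 hd0) c'.ne_zero, sgnF_of_sq ⟨d, rfl⟩, one_mul])
    (by
      rintro α β t u ⟨M, σ, hs, c, rfl, hc, rfl⟩ ⟨N, τ, ht, d, rfl, hd, rfl⟩
      refine ⟨_, _, _, c * Units.map (σ : F →* F) d, psemiO_mul hs ht, ?_, ?_⟩
      · intro v
        have e1 : ((M * glMap σ N : GG) : MM) *ᵥ sm (τ.trans σ) v = (M : MM) *ᵥ sm σ ((N : MM) *ᵥ sm τ v) := by
          have e : sm (τ.trans σ) v = sm σ (sm τ v) := rfl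
          rw [Units.val_mul, glMap_coe, ← Matrix.mulVec_mulVec, e, map_mulVec_sm]
        rw [e1, hc, hd, map_mul]
        simp only [Units.val_mul, Units.coe_map, RingEquiv.trans_apply]
        simp only [MonoidHom.coe_coe, mul_assoc]
      · simp only [Units.val_mul, Units.coe_map]
        rw [sgnF_mul c.ne_zero (by simp)]
        congr 1
        exact sgnF_map σ d)
  refine ⟨μ, fun M σ hs c hc => (hμ _ _).2 ⟨M, σ, hs, c, rfl, hc, rfl⟩⟩

/-- Splitting a semisimilarity. -/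
theorem split_semi (hσ : ∀ (σ : F ≃+* F) (v : VV), Q (sm σ v) = σ (Q v)) (M : GG) (σ : F ≃+* F) (hs : Cfsg.IsSemisimilarityPair (⇑Q) M σ) :
    ∃ g : ↥(Sim Q), psemiO M σ hs = simAut g * psemiO 1 σ (semi_std (hσ σ)) := by
  obtain ⟨c, hc⟩ := semi_Q hs
  have hsim : M ∈ Sim Q := by
    refine ⟨c, fun w => ?_⟩
    have h1 := hc (sm σ.symm w)
    rw [sm_sm_symm, ← hσ, sm_sm_symm] at h1
    exact h1
  refine ⟨⟨M, hsim⟩, ?_⟩
  rw [simAut_apply, psemiO_refl_mul (semi_of_sim hsim) (semi_std (hσ σ)) (by rwa [mul_one])]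
  exact psemiO_congr (mul_one M).symm rfl

/-- Twisting by a field automorphism preserves the invariants. -/
theorem Lam_twist (h2 : (2 : F) ≠ 0) (he : Even (Fintype.card ι)) (hne : ∃ v : VV, Q v ≠ 0) (σ : F ≃+* F) (hσ : ∀ v : VV, Q (sm σ v) = σ (Q v)) (g : ↥(Sim Q))
    (g' : ↥(Sim Q)) (hg' : g'.1 = glMap σ g.1) : Lam he hne g' = Lam he hne g := by
  have hsim : ∀ v : VV, Q ((g'.1 : MM) *ᵥ v) = σ (simMu hne g : F) * Q v := by
    intro v
    rw [hg', glMap_coe]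
    have e1 := map_mulVec_sm σ (g.1 : MM) (sm σ.symm v)
    rw [sm_sm_symm] at e1
    rw [e1, hσ, simMu_spec hne, map_mul, ← hσ, sm_sm_symm]
  apply Prod.ext
  · rw [Lam_fst, Lam_fst, simMu_eq hne g' hsim]
    exact sgnF_map σ _
  · rw [Lam_snd, Lam_snd]
    have hst := semi_std (Q := Q) hσ
    by_cases hK : KP Q g.1
    · have h3 : KP Q g'.1 := by
        have := KP_conj g.2 hK hst
        simpa [hg'] using this
      rw [(kapS_eq_one_iff he hne g).2 hK, (kapS_eq_one_iff he hne g').2 h3]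
    · have h3 : ¬ KP Q g'.1 := by
        intro hK'
        apply hK
        have hst' : Cfsg.IsSemisimilarityPair (⇑Q) (1 : GG) σ.symm := semi_std (Q := Q) (σ := σ.symm) (fun v => by
          apply σ.injective
          rw [← hσ]
          simp [sm_sm_symm])
        have := KP_conj g'.2 hK' hst'
        have e2 : (1 : GG) * glMap σ.symm g'.1 * 1⁻¹ = g.1 := by
          rw [hg']
          apply Units.ext
          simp [glMap_coe]
          ext i j
          simp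
        rwa [e2] at this
      have e3 : ∀ x : ↥(Sim Q), ¬ KP Q x.1 → kapS he hne x = -1 := by
        intro x hx
        have := (kapS_eq_one_iff he hne x).not.2 hx
        exact (Int.units_eq_one_or _).resolve_left this
      rw [e3 g hK, e3 g' h3]

/-- A general computation in a quotient. -/
theorem comm_of_odd {G : Type*} [Group G] (N : Subgroup G) [N.Normal] (c x : G) {k : ℕ} (hk : Odd k) (hc : c ^ k = 1)
    (h1 : c * (x⁻¹ * c * x * c⁻¹) * c⁻¹ * (x⁻¹ * c * x * c⁻¹)⁻¹ ∈ N) (h3 : (x⁻¹ * c * x * c⁻¹) * (x⁻¹ * c * x * c⁻¹) ∈ N) :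
    x⁻¹ * c * x * c⁻¹ ∈ N := by
  set z := x⁻¹ * c * x * c⁻¹ with hz
  have hz1 : (c : G ⧸ N) * (z : G ⧸ N) * (c : G ⧸ N)⁻¹ = (z : G ⧸ N) := by
    have : ((c * z * c⁻¹ * z⁻¹ : G) : G ⧸ N) = 1 := (QuotientGroup.eq_one_iff _).2 h1
    rw [QuotientGroup.mk_mul, QuotientGroup.mk_inv, QuotientGroup.mk_mul, QuotientGroup.mk_mul, QuotientGroup.mk_inv] at this
    exact mul_inv_eq_one.1 this
  have hz2 : (z : G ⧸ N) * (z : G ⧸ N) = 1 := by
    have : ((z * z : G) : G ⧸ N) = 1 := (QuotientGroup.eq_one_iff _).2 h3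
    rwa [QuotientGroup.mk_mul] at this
  have hx1 : (c : G ⧸ N) * (x : G ⧸ N) * (c : G ⧸ N)⁻¹ = (x : G ⧸ N) * (z : G ⧸ N) := by
    have e : z = x⁻¹ * c * x * c⁻¹ := hz
    rw [e]
    simp only [QuotientGroup.mk_mul, QuotientGroup.mk_inv]
    group
  have hind : ∀ j : ℕ, (c : G ⧸ N) ^ j * (x : G ⧸ N) * ((c : G ⧸ N) ^ j)⁻¹ = (x : G ⧸ N) * (z : G ⧸ N) ^ j := by
    intro j
    induction j with
    | zero => simp
    | succ j ih =>
      have hj : (c : G ⧸ N) * (z : G ⧸ N) ^ j * (c : G ⧸ N)⁻¹ = (z : G ⧸ N) ^ j := by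
        rw [← conj_pow, hz1]
      calc (c : G ⧸ N) ^ (j + 1) * (x : G ⧸ N) * ((c : G ⧸ N) ^ (j + 1))⁻¹
          = (c : G ⧸ N) * ((c : G ⧸ N) ^ j * (x : G ⧸ N) * ((c : G ⧸ N) ^ j)⁻¹) * (c : G ⧸ N)⁻¹ := by
            rw [pow_succ']
            group
        _ = (c : G ⧸ N) * ((x : G ⧸ N) * (z : G ⧸ N) ^ j) * (c : G ⧸ N)⁻¹ := by rw [ih]
        _ = ((c : G ⧸ N) * (x : G ⧸ N) * (c : G ⧸ N)⁻¹) * ((c : G ⧸ N) * (z : G ⧸ N) ^ j * (c : G ⧸ N)⁻¹) := by group
        _ = (x : G ⧸ N) * (z : G ⧸ N) ^ (j + 1) := by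
            rw [hx1, hj, pow_succ']
            group
  have h5 := hind k
  have hc' : (c : G ⧸ N) ^ k = 1 := by
    rw [← QuotientGroup.mk_pow, hc]
    rfl
  rw [hc', one_mul, inv_one, mul_one] at h5
  have h6 : (z : G ⧸ N) ^ k = 1 := by
    have := h5
    exact (mul_eq_left.1 this.symm)
  obtain ⟨r, rfl⟩ := hk
  rw [pow_succ, pow_mul, pow_two, hz2, one_pow, one_mul] at h6
  exact (QuotientGroup.eq_one_iff _).1 h6

/-- Field automorphisms act trivially modulo inner automorphisms. -/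
theorem std_comm_mod_inn (h2 : (2 : F) ≠ 0) (he : Even (Fintype.card ι)) (hneg : muO (hq_of_good Q) (negS (Q := Q) he) = 1)
    (hσ : ∀ (σ : F ≃+* F) (v : VV), Q (sm σ v) = σ (Q v)) (hodd : Odd (Nat.card (F ≃+* F))) (σ : F ≃+* F) (g : ↥(Sim Q)) :
    (simAut g)⁻¹ * psemiO 1 σ (semi_std (hσ σ)) * simAut g * (psemiO 1 σ (semi_std (hσ σ)))⁻¹ ∈ Cfsg.Inn (PO Q) := by
  classical
  have hne := ne_of_good (Q := Q)
  have hq := hq_of_good Q
  set c := psemiO (1 : GG) σ (semi_std (hσ σ)) with hc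
  -- the power of the field automorphism
  have hcp : ∀ j : ℕ, c ^ j = psemiO (1 : GG) (σ ^ j) (semi_std (hσ (σ ^ j))) := by
    intro j
    induction j with
    | zero => exact (std_one (hσ 1)).symm
    | succ j ih =>
      rw [pow_succ, ih, hc, std_mul (hσ _) (hσ _) (hσ _)]
      exact psemiO_congr rfl (pow_succ σ j).symm
  have hck : c ^ Nat.card (F ≃+* F) = 1 := by
    rw [hcp]
    have e1 : σ ^ Nat.card (F ≃+* F) = 1 := pow_card_eq_one'
    have : psemiO (1 : GG) (σ ^ Nat.card (F ≃+* F)) (semi_std (hσ _)) = psemiO (1 : GG) (1 : F ≃+* F) (semi_std (hσ 1)) := psemiO_congr rfl e1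
    rw [this]
    exact std_one (hσ 1)
  -- the conjugate of the similarity
  obtain ⟨g', hg'⟩ : ∃ g' : ↥(Sim Q), g'.1 = glMap σ g.1 := by
    have h3 := semi_conj_diag_mem (semi_std (hσ σ)) (semi_of_sim g.2)
    have e3 : (1 : GG) * glMap σ g.1 * 1⁻¹ = glMap σ g.1 := by group
    rw [e3] at h3
    exact ⟨⟨_, sim_of_semi h3⟩, rfl⟩
  have hconj : c * simAut g * c⁻¹ = simAut g' := by
    rw [simAut_apply, hc, semi_conj_diag (semi_std (hσ σ)) (semi_of_sim g.2), simAut_apply]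
    apply psemiO_congr _ rfl
    rw [hg']
    group
  have hz : (simAut g)⁻¹ * c * simAut g * c⁻¹ = simAut (g⁻¹ * g') := by
    rw [map_mul, map_inv, ← hconj]
    group
  -- it lies in the image of the special orthogonal group
  have hL : Lam he hne (g⁻¹ * g') = 1 := by
    rw [map_mul, map_inv, Lam_twist h2 he hne σ (hσ σ) g g' hg', inv_mul_cancel]
  have hpso := (simAut_mem_pso_iff h2 he hne _).2 hL
  rw [psoAut_eq_range] at hpso
  obtain ⟨s, hs⟩ := hpso
  have hzs : (simAut g)⁻¹ * c * simAut g * c⁻¹ = soAut s := by rw [hz, hs]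
  apply comm_of_odd (Cfsg.Inn (PO Q)) c (simAut g) hodd hck
  · rw [hzs]
    have e1 : c * soAut s * c⁻¹ = soAut ⟨twO σ (hσ σ) s.1, twO_mem_SOg σ (hσ σ) s.2⟩ := twO_conj σ (hσ σ) s.1
    rw [e1, ← map_inv, ← map_mul, soAut_mem_inn_iff h2 he hneg, map_mul, map_inv, muO_twO]
    group
  · rw [hzs, ← map_mul, soAut_mem_inn_iff h2 he hneg, map_mul]
    exact Int.units_mul_self _

/-- The relation defining the product decomposition. -/
def RD8 (φ₈ : ↥(Cfsg.pgoAut F (⇑Q)) →* DihedralGroup 4) (hσ : ∀ (σ : F ≃+* F) (v : VV), Q (sm σ v) = σ (Q v)) (α : MulAut (PO Q)) (t : DihedralGroup 4 × (F ≃+* F)) : Prop :=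
  ∃ x : ↥(Cfsg.pgoAut F (⇑Q)), φ₈ x = t.1 ∧ α = x.1 * psemiO 1 t.2 (semi_std (hσ t.2))

/-- The dihedral case. -/
theorem out_d8 (h2 : (2 : F) ≠ 0) (he : Even (Fintype.card ι)) (hneg : muO (hq_of_good Q) (negS (Q := Q) he) = 1)
    (hall : ∀ α : MulAut (PO Q), ∃ (M : GG) (σ : F ≃+* F) (hs : Cfsg.IsSemisimilarityPair (⇑Q) M σ), α = psemiO M σ hs)
    (hσ : ∀ (σ : F ≃+* F) (v : VV), Q (sm σ v) = σ (Q v)) (hodd : Odd (Nat.card (F ≃+* F))) :
    Nonempty (Cfsg.Out (PO Q) ≃* (DihedralGroup 4 × (F ≃+* F))) := by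
  classical
  obtain ⟨φ₈, hsurj, hker⟩ := pgo_mod_inn_d8 (Q := Q) h2 he hneg
  have hN := pgoAut_normal (Q := Q) hall
  have hinn : Cfsg.Inn (PO Q) ≤ Cfsg.pgoAut F (⇑Q) := (inn_le_pso h2).trans pso_le_pgo
  have hstd1 : psemiO (1 : GG) (1 : F ≃+* F) (semi_std (hσ 1)) = 1 := std_one (hσ 1)
  -- conjugation by a field automorphism does not change the value
  have hconj : ∀ (σ : F ≃+* F) (y : ↥(Cfsg.pgoAut F (⇑Q))) (y' : ↥(Cfsg.pgoAut F (⇑Q))), y'.1 = psemiO 1 σ (semi_std (hσ σ)) * y.1 * (psemiO 1 σ (semi_std (hσ σ)))⁻¹ → φ₈ y' = φ₈ y := by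
    intro σ y y' hy'
    obtain ⟨g, rfl⟩ := simPgo_surj y
    have h3 := std_comm_mod_inn h2 he hneg hσ hodd σ g
    have h4 : (simPgo g)⁻¹ * y' ∈ φ₈.ker := by
      rw [hker]
      apply Subgroup.mem_subgroupOf.2
      show (simAut g)⁻¹ * y'.1 ∈ _
      rw [hy']
      show (simAut g)⁻¹ * (psemiO 1 σ (semi_std (hσ σ)) * simAut g * (psemiO 1 σ (semi_std (hσ σ)))⁻¹) ∈ _
      have e : (simAut g)⁻¹ * (psemiO 1 σ (semi_std (hσ σ)) * simAut g * (psemiO 1 σ (semi_std (hσ σ)))⁻¹) = (simAut g)⁻¹ * psemiO 1 σ (semi_std (hσ σ)) * simAut g * (psemiO 1 σ (semi_std (hσ σ)))⁻¹ := by group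
      rw [e]
      exact h3
    rw [MonoidHom.mem_ker, map_mul, map_inv] at h4
    exact (inv_mul_eq_one.1 h4).symm
  obtain ⟨Ψ, hΨ⟩ := exists_hom_of_rel (RD8 φ₈ hσ) (by
      intro α
      obtain ⟨M, σ, hs, rfl⟩ := hall α
      obtain ⟨g, hg⟩ := split_semi hσ M σ hs
      exact ⟨(φ₈ (simPgo g), σ), simPgo g, rfl, hg⟩)
    (by
      rintro α ⟨d, σ⟩ ⟨d', τ⟩ ⟨x, hx, he1⟩ ⟨x', hx', he2⟩
      simp only at hx hx' he1 he2
      obtain ⟨g, rfl⟩ := simPgo_surj x
      obtain ⟨g', rfl⟩ := simPgo_surj x'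
      have h1 : (simPgo g).1 * psemiO 1 σ (semi_std (hσ σ)) = psemiO (g.1 * 1) σ (by
          have := semi_mul_mem (semi_of_sim g.2) (semi_std (hσ σ))
          rwa [glMap_one] at this) := psemiO_refl_mul _ _ _
      have h1' : (simPgo g').1 * psemiO 1 τ (semi_std (hσ τ)) = psemiO (g'.1 * 1) τ (by
          have := semi_mul_mem (semi_of_sim g'.2) (semi_std (hσ τ))
          rwa [glMap_one] at this) := psemiO_refl_mul _ _ _
      have h3 := he1.symm.trans he2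
      have hστ : σ = τ := by
        rw [h1, h1'] at h3
        exact (psemiO_inj h3).1
      subst hστ
      have h4 : simPgo g = simPgo g' := Subtype.ext (mul_right_cancel h3)
      rw [← hx, ← hx', h4])
    (by
      rintro α β ⟨d, σ⟩ ⟨d', τ⟩ ⟨x, hx, he1⟩ ⟨y, hy, he2⟩
      simp only at hx hy he1 he2
      have hy' : psemiO 1 σ (semi_std (hσ σ)) * y.1 * (psemiO 1 σ (semi_std (hσ σ)))⁻¹ ∈ Cfsg.pgoAut F (⇑Q) := hN.conj_mem _ y.2 _
      refine ⟨x * ⟨_, hy'⟩, ?_, ?_⟩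
      · rw [map_mul, hx, hconj σ y ⟨_, hy'⟩ rfl, hy]
        rfl
      · subst he1 he2
        show x.1 * psemiO 1 σ (semi_std (hσ σ)) * (y.1 * psemiO 1 τ (semi_std (hσ τ))) = (x.1 * (psemiO 1 σ (semi_std (hσ σ)) * y.1 * (psemiO 1 σ (semi_std (hσ σ)))⁻¹)) * psemiO 1 (σ * τ) (semi_std (hσ (σ * τ)))
        rw [← std_mul (hσ σ) (hσ τ) (hσ (σ * τ))]
        group)
  have hs : Function.Surjective Ψ := by
    rintro ⟨d, σ⟩
    obtain ⟨x, hx⟩ := hsurj d
    exact ⟨x.1 * psemiO 1 σ (semi_std (hσ σ)), (hΨ _ _).2 ⟨x, hx, rfl⟩⟩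
  have hk : Cfsg.Inn (PO Q) = Ψ.ker := by
    ext y
    rw [MonoidHom.mem_ker, hΨ]
    constructor
    · intro hy
      refine ⟨⟨y, hinn hy⟩, ?_, ?_⟩
      · have : (⟨y, hinn hy⟩ : ↥(Cfsg.pgoAut F (⇑Q))) ∈ φ₈.ker := by
          rw [hker]
          exact Subgroup.mem_subgroupOf.2 hy
        exact this
      · show y = y * psemiO 1 (1 : F ≃+* F) (semi_std (hσ 1))
        rw [hstd1, mul_one]
    · rintro ⟨x, hx, he1⟩
      have h3 : y = x.1 := by
        rw [he1]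
        show x.1 * psemiO 1 (1 : F ≃+* F) (semi_std (hσ 1)) = x.1
        rw [hstd1, mul_one]
      have h4 : x ∈ φ₈.ker := hx
      rw [hker] at h4
      rw [h3]
      exact Subgroup.mem_subgroupOf.1 h4
  exact ⟨(QuotientGroup.quotientMulEquivOfEq hk).trans (QuotientGroup.quotientKerEquivOfSurjective Ψ hs)⟩


end generic

theorem out_congr {A B : Type*} [Group A] [Group B] (T : A ≃* B) : Nonempty (Cfsg.Out A ≃* Cfsg.Out B) := by
  refine ⟨QuotientGroup.congr _ _ (MulAut.congr T) ?_⟩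
  ext x
  constructor
  · rintro ⟨y, hy, rfl⟩
    exact (inn_congr T y).2 hy
  · intro hx
    refine ⟨(MulAut.congr T).symm x, (inn_congr T _).1 ?_, MulEquiv.apply_symm_apply _ _⟩
    rw [MulEquiv.apply_symm_apply]
    exact hx

theorem out_of_hom {G T : Type*} [Group G] [Group T] (Λ : MulAut G →* T) (hs : Function.Surjective Λ) (hker : Cfsg.Inn G = Λ.ker) :
    Nonempty (Cfsg.Out G ≃* T) :=
  ⟨(QuotientGroup.quotientMulEquivOfEq hker).trans (QuotientGroup.quotientKerEquivOfSurjective Λ hs)⟩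

section minusCase

variable {K : Type*} [Field K] [Fintype K] {a b : F} {k : ℕ}

/-- The generic case: the image of the special orthogonal group is inner. -/
theorem out_case1_abs {T : Type*} [Group T] [Fintype F] [h : Good Q] (h2 : (2 : F) ≠ 0) (he : Even (Fintype.card ι)) (hne : ∃ v : VV, Q v ≠ 0)
    (hneg : muO (hq_of_good Q) (negS (Q := Q) he) ≠ 1)
    (hall : ∀ α : MulAut (PO Q), ∃ (M : GG) (σ : F ≃+* F) (hs : Cfsg.IsSemisimilarityPair (⇑Q) M σ), α = psemiO M σ hs)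
    (Θ : MulAut (PO Q) →* T) (hΘs : Function.Surjective Θ) (hΘk : Θ.ker = GD he hne) :
    Nonempty (Cfsg.Out (PO Q) ≃* (ℤˣ × T)) := by
  obtain ⟨μ, hμ⟩ := exists_mu1 (Q := Q) hall
  have hmusim : ∀ g : ↥(Sim Q), μ (simAut g) = (Lam he hne g).1 := by
    intro g
    rw [simAut_apply, Lam_fst]
    apply hμ g.1 (RingEquiv.refl F) _ (simMu hne g)
    intro v
    exact simMu_spec hne g v
  have hinn : Cfsg.Inn (PO Q) = Cfsg.psoAut F (⇑Q) := le_antisymm (inn_le_pso h2) (pso_le_inn h2 he hneg)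
  let Λ : MulAut (PO Q) →* ℤˣ × T := μ.prod Θ
  have hs : Function.Surjective Λ := by
    rintro ⟨c, τ⟩
    obtain ⟨α, hα⟩ := hΘs τ
    obtain ⟨g, ε, hε, hg, hL⟩ := exists_delta (Q := Q) h2 he hne
    have hK : KP Q g.1 := (kapS_eq_one_iff he hne g).1 (congrArg Prod.snd hL)
    have hδ : simAut g ∈ GD he hne := mem_GD.2 ⟨g.1, g.2, hK, rfl⟩
    have hδ1 : Θ (simAut g) = 1 := by
      have : simAut g ∈ Θ.ker := by
        rw [hΘk]
        exact hδ
      exact this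
    have hδ2 : μ (simAut g) = -1 := by
      rw [hmusim, hL]
    by_cases hc : μ α = c
    · exact ⟨α, Prod.ext hc hα⟩
    · refine ⟨α * simAut g, Prod.ext ?_ ?_⟩
      · show μ (α * simAut g) = c
        rw [map_mul, hδ2]
        rcases Int.units_eq_one_or c with rfl | rfl <;> rcases Int.units_eq_one_or (μ α) with h5 | h5
        · exact absurd h5 hc
        · rw [h5]
          rfl
        · rw [h5]
          rfl
        · exact absurd h5 hc
      · show Θ (α * simAut g) = τ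
        rw [map_mul, hδ1, mul_one, hα]
  have hker : Cfsg.Inn (PO Q) = Λ.ker := by
    rw [hinn]
    ext α
    rw [MonoidHom.mem_ker]
    constructor
    · intro hα
      have h3 := pso_le_GD h2 he hne hα
      have h4 : α ∈ Θ.ker := by
        rw [hΘk]
        exact h3
      rw [psoAut_eq_range] at hα
      obtain ⟨s, rfl⟩ := hα
      refine Prod.ext ?_ h4
      show μ (soAut s) = 1
      rw [← simAut_soSim, hmusim, Lam_soSim h2 he hne]
      rfl
    · intro hα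
      have h3 : α ∈ GD he hne := by
        rw [← hΘk]
        exact congrArg Prod.snd hα
      obtain ⟨g, hg, hK, rfl⟩ := mem_GD.1 h3
      have h4 : μ (simAut ⟨g, hg⟩) = 1 := congrArg Prod.fst hα
      rw [hmusim] at h4
      have h5 : Lam he hne ⟨g, hg⟩ = 1 := Prod.ext h4 ((kapS_eq_one_iff he hne _).2 hK)
      have h6 := (simAut_mem_pso_iff h2 he hne ⟨g, hg⟩).2 h5
      exact h6
  exact out_of_hom Λ hs hker

/-- The generic case for the minus-type forms. -/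
theorem out_case1 [Fintype F] (φ : F →+* K) (hab : ∀ z₁ z₂ : F, z₁ ^ 2 + a * z₁ * z₂ + b * z₂ ^ 2 = 0 → z₁ = 0 ∧ z₂ = 0) {t : K} (ht : t ^ 2 + φ a * t + φ b = 0)
    (hspan : ∀ y : K, ∃ α β : F, y = φ α + φ β * t) (hcard : Fintype.card K = Fintype.card F ^ 2) (hk : 3 ≤ k) (h2 : (2 : F) ≠ 0) [h : Good (minusQF k a b)]
    (hneg : muO (hq_of_good (minusQF k a b)) (negS (Q := minusQF k a b) (even_JJ k)) ≠ 1) :
    Nonempty (Cfsg.Out (PO (minusQF k a b)) ≃* (ℤˣ × (K ≃+* K))) := by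
  obtain ⟨Θ, hΘs, hΘk, -⟩ := exists_gal_hom (k := k) φ hab ht hspan hcard hk
  exact out_case1_abs h2 (even_JJ k) (minus_ne a b) hneg (hall_minus (m := k) hab hk) Θ hΘs hΘk

end minusCase

/-- `S2606`. -/
theorem out_minus_odd {F : Type*} [Field F] [Fintype F] {p f m : ℕ} [Fact p.Prime] (hf : 1 ≤ f) (hF : Fintype.card F = p ^ f) (hp : p ≠ 2) (hm : 4 ≤ m) (a b : F)
    (hab : ∀ z₁ z₂ : F, z₁ ^ 2 + a * z₁ * z₂ + b * z₂ ^ 2 = 0 → z₁ = 0 ∧ z₂ = 0) :
    if p ^ f % 4 = 3 ∧ Odd m then Nonempty (Cfsg.Out (PO (minusQF (m - 1) a b)) ≃* DihedralGroup 4 × Multiplicative (ZMod f))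
    else Nonempty (Cfsg.Out (PO (minusQF (m - 1) a b)) ≃* Multiplicative (ZMod 2 × ZMod (2 * f))) := by
  classical
  have hpp : p.Prime := Fact.out
  have hodd : Odd (Fintype.card F) := by
    rw [hF]
    exact (hpp.odd_of_ne_two hp).pow
  have h2 : (2 : F) ≠ 0 := two_ne_zero_of_odd hodd
  have hk : 3 ≤ m - 1 := by omega
  split_ifs with hc
  · obtain ⟨hc4, hmo⟩ := hc
    have hF4 : Fintype.card F % 4 = 3 := by rw [hF]; exact hc4
    have hn1 : ¬ IsSquare (-1 : F) := by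
      rw [FiniteField.isSquare_neg_one_iff]
      simpa using hF4
    have hab' : ∀ z₁ z₂ : F, z₁ ^ 2 + 0 * z₁ * z₂ + 1 * z₂ ^ 2 = 0 → z₁ = 0 ∧ z₂ = 0 := by
      intro z₁ z₂ hz
      by_cases hz2 : z₂ = 0
      · subst hz2
        simp at hz
        exact ⟨hz, rfl⟩
      · exfalso
        apply hn1
        refine ⟨z₁ / z₂, ?_⟩
        field_simp
        linear_combination -hz
    obtain ⟨α₀, β₀, hβ₀, hiso⟩ := minus_isometric hab hab'
    have hH : ∀ v, minusQF (m - 1) a b (((binH (m - 1) α₀ β₀ hβ₀ : GL _ F) : Matrix _ _ F) *ᵥ v) = minusQF (m - 1) 0 1 v := fun v => binH_isom hβ₀ hiso v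
    obtain ⟨e₀⟩ := out_congr (poTr _ hH)
    have : Good (minusQF (m - 1) (0 : F) 1) := good_minus hab' hk
    have hall := hall_minus (m := m - 1) hab' hk
    have hσ : ∀ (σ : F ≃+* F) (v : (Fin (m - 1) ⊕ Fin (m - 1)) ⊕ Fin 2 → F), minusQF (m - 1) (0 : F) 1 (sm σ v) = σ (minusQF (m - 1) (0 : F) 1 v) :=
      fun σ v => minusQF_sm 0 1 σ (map_zero σ) (map_one σ) v
    have hneg := (hneg_minus_iff (m := m - 1) h2 hab').2 ⟨by
      obtain ⟨r, hr⟩ := hmo
      exact ⟨r, by omega⟩, hF4⟩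
    have hfodd : Odd f := by
      rcases Nat.even_or_odd f with h5 | h5
      · exfalso
        obtain ⟨r, rfl⟩ := h5
        have h6 : p ^ (r + r) = p ^ r * p ^ r := pow_add _ _ _
        rw [h6] at hc4
        have h7 : (p ^ r) % 4 < 4 := Nat.mod_lt _ (by norm_num)
        have h8 : (p ^ r * p ^ r) % 4 = ((p ^ r) % 4 * ((p ^ r) % 4)) % 4 := Nat.mul_mod _ _ _
        rw [h8] at hc4
        interval_cases (p ^ r) % 4 <;> omega
      · exact h5
    have hgal : Odd (Nat.card (F ≃+* F)) := by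
      rw [(card_gal (F := F) hf hF).2]
      exact hfodd
    obtain ⟨e₁⟩ := out_d8 (Q := minusQF (m - 1) (0 : F) 1) h2 (even_JJ _) hneg hall hσ hgal
    obtain ⟨e₂⟩ := exists_gal_equiv (F := F) hf hF
    exact ⟨e₀.symm.trans (e₁.trans (MulEquiv.prodCongr (MulEquiv.refl _) e₂))⟩
  · have : Good (minusQF (m - 1) a b) := good_minus hab hk
    have hneg : muO (hq_of_good (minusQF (m - 1) a b)) (negS (Q := minusQF (m - 1) a b) (even_JJ _)) ≠ 1 := by
      rw [Ne, hneg_minus_iff h2 hab]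
      rintro ⟨h5, h6⟩
      apply hc
      refine ⟨by rw [← hF]; exact h6, ?_⟩
      obtain ⟨r, hr⟩ := h5
      exact ⟨r, by omega⟩
    obtain ⟨K, _, _, φ, t, ht, hspan, hcard⟩ := exists_quad hab
    obtain ⟨e₁⟩ := out_case1 φ hab ht hspan hcard hk h2 hneg
    have hK : Fintype.card K = p ^ (2 * f) := by
      rw [hcard, hF, ← pow_mul, mul_comm]
    obtain ⟨e₂⟩ := exists_gal_equiv (F := K) (f := 2 * f) (by omega) hK
    have e₃ : ℤˣ ≃* Multiplicative (ZMod 2) := mulEquivOfPrimeCardEq (p := 2) (by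
      rw [Nat.card_eq_fintype_card, Fintype.card_units_int]) (by
      rw [Nat.card_eq_fintype_card]
      simp)
    exact ⟨e₁.trans ((e₃.prodCongr e₂).trans (MulEquiv.prodMultiplicative _ _).symm)⟩


end Cfsg.Agent.Lib.AutPOm
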