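import Cfsg.Agent.Lib.AutPOm.GrMain
import Cfsg.Agent.Lib.AutPOm.OutMinus
import Cfsg.Agent.Lib.AutPOm.GfMain

/-! Involutory graph automorphisms of the minus-type groups. -/

set_option autoImplicit false
set_option linter.unusedSimpArgs false
set_option linter.unusedVariables false
set_option linter.unusedSectionVars false

namespace Cfsg.Agent.Lib.AutPOm

open Matrix Module MulAction Cfsg.Agent.Lib.Classical
open Cfsg.Agent.Lib.AutPSL (coe_scalar_mul card_gal)
open Cfsg.Agent.Lib.ClassMax.OmegaCore (mem_iso_iff)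
open Cfsg.Agent.Lib.Spinor (ndf rr rO lp nm invL sgnF sgnF_of_sq sgnF_of_not_sq sgnF_eq_one_iff sgnF_mul exists_lp lp_mat lp_cons lp_nil rO_mat matrix_ext OG.mat invL_eq_of_lp_eq)
open Cfsg.Agent.Lib.Quad (minusQF minusQF_apply)
open scoped MatrixGroups

variable {F : Type*} [Field F] {ι : Type} [Fintype ι] [DecidableEq ι] {Q : QuadraticForm F (ι → F)}

local notation "VV" => (ι → F)
local notation "MM" => Matrix ι ι F
local notation "GG" => GL ι F
local notation "bb" => QuadraticMap.polar (DFunLike.coe Q)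

theorem rr_list_conj {s : GG} {c : F} (hc0 : c ≠ 0) (hc : ∀ v, Q ((s : MM) *ᵥ v) = c * Q v) (L : List VV) (hL : ∀ v ∈ L, Q v ≠ 0) :
    (s : MM) * (L.map (rr Q)).prod = (((L.map (fun v => (s : MM) *ᵥ v))).map (rr Q)).prod * (s : MM) := by
  induction L with
  | nil => simp
  | cons v L ih =>
    simp only [List.map_cons, List.prod_cons]
    rw [← mul_assoc, rr_conj' hc0 hc (hL v (by simp)), mul_assoc, ih (fun w hw => hL w (by simp [hw])), mul_assoc]

theorem nm_map_sim {s : MM} {c : F} (hc : ∀ v, Q (s *ᵥ v) = c * Q v) (L : List VV) :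
    nm Q (L.map (fun v => s *ᵥ v)) = c ^ L.length * nm Q L := by
  induction L with
  | nil => simp [nm]
  | cons v L ih =>
    have ih' : (L.map (fun v => Q (s *ᵥ v))).prod = c ^ L.length * (L.map (fun v => Q v)).prod := by
      simpa [nm, Function.comp_def] using ih
    simp only [nm, List.map_cons, List.prod_cons, List.map_map, List.length_cons, Function.comp_def]
    rw [ih', hc, pow_succ]
    ring

section main

variable [Fintype F] [h : Good Q]

/-- A similarity outside the condition with scalar square has multiplier that scalar. -/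
theorem mult_of_not_KP (h2 : (2 : F) ≠ 0) (he : Even (Fintype.card ι)) {g : GG} {c : F} (hc : ∀ v, Q ((g : MM) *ᵥ v) = c * Q v) (hK : ¬ KP Q g) {l : F} (hl : l ≠ 0)
    (hgg : (g : MM) * (g : MM) = l • (1 : MM)) : c = l := by
  have hgg' : ∀ x : VV, (g : MM) *ᵥ ((g : MM) *ᵥ x) = l • x := by
    intro x
    rw [Matrix.mulVec_mulVec, hgg, Matrix.smul_mulVec, Matrix.one_mulVec]
  obtain ⟨v₀, hv₀⟩ := ne_of_good (Q := Q)
  have hcl : (c : F) * c = l * l := by
    have h1 := hc ((g : MM) *ᵥ v₀)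
    rw [hgg', QuadraticMap.map_smul, hc] at h1
    have h3 : (l * l - c * c) * Q v₀ = 0 := by
      simp only [smul_eq_mul] at h1
      linear_combination h1
    have h4 := (mul_eq_zero.1 h3).resolve_right hv₀
    linear_combination -h4
  have hsp := sim_polar (Q := Q) hc
  have hcases : (c : F) = l ∨ (c : F) = -l := by
    have h1 : ((c : F) - l) * ((c : F) + l) = 0 := by linear_combination hcl
    rcases mul_eq_zero.1 h1 with h3 | h3
    · exact Or.inl (sub_eq_zero.1 h3)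
    · exact Or.inr (eq_neg_of_add_eq_zero_left h3)
  rcases hcases with hcl' | hcl'
  · exact hcl'
  · exfalso
    apply hK
    have hs : ∀ x y : VV, bb ((g : MM) *ᵥ x) y = - bb x ((g : MM) *ᵥ y) := by
      intro x y
      have h1 := hsp x ((g : MM) *ᵥ y)
      rw [hgg', QuadraticMap.polar_smul_right, smul_eq_mul, hcl'] at h1
      have h3 : l * (bb ((g : MM) *ᵥ x) y + bb x ((g : MM) *ᵥ y)) = 0 := by linear_combination h1
      have h4 := (mul_eq_zero.1 h3).resolve_left hl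
      linear_combination h4
    have hdet := det_of_charpoly_neg h2 he hgg (charpoly_neg_of_skew h.nd hs)
    refine Or.inl ⟨h2, c, hc, ?_⟩
    rw [hdet, hcl']

/-- When `-1` is not inner and the half dimension is even, the centraliser in the inner-diagonal group is inner. -/
theorem cent_inn_C (h2 : (2 : F) ≠ 0) (he : Even (Fintype.card ι)) (hne : ∃ v : VV, Q v ≠ 0) (hneg : muO (hq_of_good Q) (negS (Q := Q) he) ≠ 1) (hn : Even (Fintype.card ι / 2))
    {g s : GG} (hg : g ∈ Sim Q) (hK : ¬ KP Q g) (hs : s ∈ Sim Q) (hKs : KP Q s) {l : F} (hl : l ≠ 0) (hgg : (g : MM) * (g : MM) = l • (1 : MM))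
    (hc : simAut (Q := Q) ⟨s, hs⟩ * simAut ⟨g, hg⟩ = simAut ⟨g, hg⟩ * simAut ⟨s, hs⟩) :
    simAut (Q := Q) ⟨s, hs⟩ ∈ Cfsg.Inn (PO Q) := by
  classical
  have hq := hq_of_good Q
  have hg₀ := hg
  obtain ⟨e, he'⟩ := hg₀
  have hs₀ := hs
  obtain ⟨c, hcc⟩ := hs₀
  have hel : (e : F) = l := mult_of_not_KP h2 he he' hK hl hgg
  have hsim : ∀ v, Q ((g : MM) *ᵥ v) = l * Q v := by
    intro v
    rw [he', hel]
  -- `l` is a square
  have hls : IsSquare l := by
    by_contra hns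
    have hdet := det_of_nonsq he hgg hns
    apply hK
    refine Or.inl ⟨h2, l, hsim, ?_⟩
    rw [hdet, hn.neg_pow]
  obtain ⟨d, hd⟩ := hls
  have hd0 : d ≠ 0 := by
    rintro rfl
    apply hl
    rw [hd, mul_zero]
  obtain ⟨u, hu⟩ : ∃ u : Fˣ, u = (Units.mk0 d hd0)⁻¹ := ⟨_, rfl⟩
  have huv : (u : F) = d⁻¹ := by
    rw [hu]
    rfl
  obtain ⟨g', hg'def⟩ : ∃ g' : GG, g' = Matrix.GeneralLinearGroup.scalar ι u * g := ⟨_, rfl⟩
  have hg'coe : (g' : MM) = (d⁻¹ : F) • (g : MM) := by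
    rw [hg'def, coe_scalar_mul, huv]
  have hg'iso : ∀ v, Q ((g' : MM) *ᵥ v) = Q v := by
    intro v
    rw [hg'coe, Matrix.smul_mulVec, QuadraticMap.map_smul, hsim, hd, smul_eq_mul]
    field_simp
  have hg'mem : g' ∈ Cfsg.isometryGroup F (⇑Q) := (mem_iso_iff _).2 hg'iso
  have hgg' : (g' : MM) * (g' : MM) = (1 : F) • (1 : MM) := by
    rw [hg'coe, Matrix.smul_mul, Matrix.mul_smul, hgg, hd, smul_smul, smul_smul]
    congr 1
    field_simp
  have hK' : ¬ KP Q g' := by
    intro h3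
    apply hK
    have e1 : g = Matrix.GeneralLinearGroup.scalar ι (Units.mk0 d hd0) * g' := by
      rw [hg'def, hu, ← mul_assoc, ← map_mul, mul_inv_cancel, map_one, one_mul]
    rw [e1]
    exact KP_mul (KP_scalar he _) h3
  have hdet' : (g' : MM).det ≠ 1 := by
    intro h3
    apply hK'
    refine Or.inl ⟨h2, 1, fun v => by rw [one_mul]; exact hg'iso v, ?_⟩
    rw [h3, one_pow]
  obtain ⟨L, hL, hLe⟩ := exists_lp h.nd hq (⟨g', hg'mem⟩ : OG Q)
  have hmat : (g' : MM) = (L.map (rr Q)).prod := by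
    have := congrArg OG.mat hLe
    rw [lp_mat hL] at this
    exact this
  have hLodd : Odd L.length := by
    have h3 := lp_det hL
    rw [← hLe] at h3
    by_contra hnot
    rw [Nat.not_odd_iff_even] at hnot
    apply hdet'
    rw [hnot.neg_one_pow] at h3
    exact h3
  -- the commutation
  rw [← map_mul, ← map_mul, simAut_apply, simAut_apply] at hc
  obtain ⟨-, c', hc'0, hc'⟩ := psemiO_inj hc
  have hc'1 : (s : MM) * (g : MM) = c' • ((g : MM) * (s : MM)) := hc'
  have hc'g : (s : MM) * (g' : MM) = c' • ((g' : MM) * (s : MM)) := by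
    rw [hg'coe, Matrix.mul_smul, hc'1, Matrix.smul_mul, smul_comm]
  have hsu : (s : MM) * (((s⁻¹ : GG)) : MM) = 1 := by
    rw [← Units.val_mul, mul_inv_cancel]
    rfl
  have hsu' : (((s⁻¹ : GG)) : MM) * (s : MM) = 1 := by
    rw [← Units.val_mul, inv_mul_cancel]
    rfl
  have hc'2 : c' * c' = 1 := by
    have h3 : (s : MM) * ((g' : MM) * (g' : MM)) = (c' * c') • (((g' : MM) * (g' : MM)) * (s : MM)) := by
      rw [← mul_assoc, hc'g, Matrix.smul_mul, mul_assoc, hc'g, Matrix.mul_smul, smul_smul, mul_assoc]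
    rw [hgg', one_smul, mul_one, one_mul] at h3
    have h4 : (s : MM) * (((s⁻¹ : GG)) : MM) = (c' * c') • ((s : MM) * (((s⁻¹ : GG)) : MM)) := by
      conv_lhs => rw [h3]
      rw [Matrix.smul_mul]
    rw [hsu] at h4
    obtain ⟨i₀⟩ : Nonempty ι := by
      by_contra hne₀
      rw [not_nonempty_iff] at hne₀
      have := h.big
      rw [Fintype.card_eq_zero] at this
      omega
    have h5 := congrFun (congrFun h4 i₀) i₀
    simp only [Matrix.one_apply_eq, Matrix.smul_apply, smul_eq_mul, mul_one] at h5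
    exact h5.symm
  have hcases : c' = 1 ∨ c' = -1 := by
    have h3 : (c' - 1) * (c' + 1) = 0 := by linear_combination hc'2
    rcases mul_eq_zero.1 h3 with h4 | h4
    · exact Or.inl (sub_eq_zero.1 h4)
    · exact Or.inr (eq_neg_of_add_eq_zero_left h4)
  have hsc : sgnF (c : F) = 1 := by
    rcases hcases with rfl | rfl
    · -- the commuting case
      rw [one_smul] at hc'g
      set L' := L.map (fun v => (s : MM) *ᵥ v) with hL'def
      have hL' : ∀ v ∈ L', Q v ≠ 0 := by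
        intro v hv
        obtain ⟨w, hw, rfl⟩ := List.mem_map.1 hv
        rw [hcc]
        exact mul_ne_zero c.ne_zero (hL w hw)
      have h3 := rr_list_conj (Q := Q) c.ne_zero hcc L hL
      rw [← hmat, hc'g] at h3
      have h4 : (g' : MM) = (L'.map (rr Q)).prod := by
        have h5 := congrArg (fun M : MM => M * ((s⁻¹ : GG) : MM)) h3
        simp only [mul_assoc, hsu, mul_one] at h5
        exact h5
      have h5 : lp Q L = lp Q L' := by
        apply Subtype.ext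
        apply Units.ext
        show OG.mat (lp Q L) = OG.mat (lp Q L')
        rw [lp_mat hL, lp_mat hL', ← hmat, h4]
      have h6 := invL_eq_of_lp_eq h.nd hL hL' h5
      have h7 := congrArg Prod.snd h6
      simp only [invL] at h7
      rw [hL'def, nm_map_sim hcc, sgnF_mul (pow_ne_zero _ c.ne_zero) (Cfsg.Agent.Lib.Spinor.nm_ne_zero hL)] at h7
      have h8 : sgnF ((c : F) ^ L.length) = 1 := by
        have h9 : sgnF (nm Q L) * sgnF (nm Q L) = 1 := Int.units_mul_self _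
        calc sgnF ((c : F) ^ L.length) = sgnF ((c : F) ^ L.length) * (sgnF (nm Q L) * sgnF (nm Q L)) := by rw [h9, mul_one]
          _ = (sgnF ((c : F) ^ L.length) * sgnF (nm Q L)) * sgnF (nm Q L) := by rw [mul_assoc]
          _ = 1 := by rw [← h7, h9]
      obtain ⟨k, hk⟩ := hLodd
      rw [hk, pow_succ, sgnF_mul (pow_ne_zero _ c.ne_zero) c.ne_zero, sgnF_of_sq (a := (c : F) ^ (2 * k)) ⟨(c : F) ^ k, by rw [two_mul, pow_add]⟩, one_mul] at h8
      exact h8
    · -- the anti-commuting case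
      exfalso
      have h3 : (-(g' : MM)).charpoly = (g' : MM).charpoly := by
        have e1 : -(g' : MM) = (s : MM) * (g' : MM) * ((s⁻¹ : GG) : MM) := by
          rw [hc'g, Matrix.smul_mul, mul_assoc, hsu, mul_one, neg_one_smul]
        rw [e1, Matrix.coe_units_inv]
        exact Matrix.charpoly_units_conj s (g' : MM)
      have h4 := det_of_charpoly_neg h2 he hgg' h3
      apply hdet'
      rw [h4, hn.neg_pow, one_pow]
  have hpso : simAut (Q := Q) ⟨s, hs⟩ ∈ Cfsg.psoAut F (⇑Q) := by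
    rw [simAut_mem_pso_iff h2 he hne]
    apply Prod.ext
    · rw [Lam_fst, simMu_eq hne ⟨s, hs⟩ hcc]
      exact hsc
    · rw [Lam_snd]
      exact (kapS_eq_one_iff he hne _).2 hKs
  exact pso_le_inn h2 he hneg hpso

/-- The count when `-1` is not inner and the half dimension is even. -/
theorem split_gr_C (h2 : (2 : F) ≠ 0) (he : Even (Fintype.card ι)) (hne : ∃ v : VV, Q v ≠ 0) (hneg : muO (hq_of_good Q) (negS (Q := Q) he) ≠ 1) (hn : Even (Fintype.card ι / 2))
    {g : GG} (hg : g ∈ Sim Q) (hK : ¬ KP Q g) (hX : simAut (Q := Q) ⟨g, hg⟩ * simAut ⟨g, hg⟩ = 1) :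
    Cfsg.splitClassCount (GD he hne) (Cfsg.Inn (PO Q)) (simAut (Q := Q) ⟨g, hg⟩) = 2 := by
  obtain ⟨l, hl, hgg⟩ := gsq_of_inv hg hX
  have hI : (Cfsg.Inn (PO Q)).Normal := Cfsg.innNormal _
  rw [split_index _ _ (inn_le_GD he hne) _]
  have h1 : (Subgroup.centralizer {simAut (Q := Q) ⟨g, hg⟩}).subgroupOf (GD he hne) ≤ (Cfsg.Inn (PO Q)).subgroupOf (GD he hne) := by
    rintro ⟨δ, hδ⟩ hc
    obtain ⟨s, hs, hKs, rfl⟩ := mem_GD.1 hδ
    exact Subgroup.mem_subgroupOf.2 (cent_inn_C h2 he hne hneg hn hg hK hs hKs hl hgg (Subgroup.mem_centralizer_singleton_iff.1 (Subgroup.mem_subgroupOf.1 hc)))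
  rw [sup_eq_left.2 h1]
  have e : Cfsg.Inn (PO Q) = Cfsg.psoAut F (⇑Q) := le_antisymm (inn_le_pso h2) (pso_le_inn h2 he hneg)
  rw [e]
  exact index_pso_GD h2 he hne

end main

section minus

variable [Fintype F] {m : ℕ} {a b : F}

/-- An involution outside the inner-diagonal group is induced by a similarity. -/
theorem gr_reduce_minus (hab : ∀ z₁ z₂ : F, z₁ ^ 2 + a * z₁ * z₂ + b * z₂ ^ 2 = 0 → z₁ = 0 ∧ z₂ = 0) (hm : 3 ≤ m) (γ : MulAut (PO (minusQF m a b)))
    (hγ : γ ∉ GD (even_JJ m) (minus_ne a b)) (hγ2 : orderOf γ = 2) :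
    ∃ (g : GL ((Fin m ⊕ Fin m) ⊕ Fin 2) F) (hg : g ∈ Sim (minusQF m a b)), ¬ KP (minusQF m a b) g ∧ γ = simAut ⟨g, hg⟩ := by
  classical
  have hG : Good (minusQF m a b) := good_minus hab hm
  have hq := hq_of_good (minusQF m a b)
  obtain ⟨K, _, _, φ, t, ht, hspan, hcard⟩ := exists_quad hab
  obtain ⟨Θ, hΘs, hΘk, -⟩ := exists_gal_hom (k := m) φ hab ht hspan hcard hm
  obtain ⟨p, hpc⟩ := CharP.exists K
  obtain ⟨n, hpp, hn⟩ := FiniteField.card K p
  have : Fact p.Prime := ⟨hpp⟩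
  have hcyc : IsCyclic (K ≃+* K) := (card_gal (F := K) (f := (n : ℕ)) n.pos hn).1
  have : Finite (K ≃+* K) := Finite.of_injective (fun s : K ≃+* K => (s : K → K)) DFunLike.coe_injective
  obtain ⟨v₀, hv₀⟩ := minus_ne (m := m) a b
  have hrS : (rO (minusQF m a b) v₀).1 ∈ Sim (minusQF m a b) := og_le_sim (rO (minusQF m a b) v₀).2
  have hrK := not_KP_rO hG.nd hq hv₀
  have hrr : (rO (minusQF m a b) v₀).1 * (rO (minusQF m a b) v₀).1 = 1 := congrArg Subtype.val (Cfsg.Agent.Lib.Spinor.rO_mul_self v₀)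
  obtain ⟨A, hA⟩ : ∃ A, A = simAut (Q := minusQF m a b) ⟨(rO (minusQF m a b) v₀).1, hrS⟩ := ⟨_, rfl⟩
  have hA2 : A * A = 1 := by
    rw [hA, ← map_mul]
    have e : (⟨(rO (minusQF m a b) v₀).1, hrS⟩ * ⟨(rO (minusQF m a b) v₀).1, hrS⟩ : ↥(Sim (minusQF m a b))) = 1 := Subtype.ext hrr
    rw [e, map_one]
  have hAn : A ∉ GD (even_JJ m) (minus_ne a b) := by
    intro hAG
    obtain ⟨s, hs, hKs, he⟩ := mem_GD.1 hAG
    rw [hA, simAut_apply] at he
    obtain ⟨-, c, hc0, hc⟩ := psemiO_inj he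
    apply hrK
    have e1 : (rO (minusQF m a b) v₀).1 = Matrix.GeneralLinearGroup.scalar _ (Units.mk0 c hc0) * s := by
      apply Units.ext
      rw [coe_scalar_mul]
      exact hc
    rw [e1]
    exact KP_mul (KP_scalar (even_JJ m) _) hKs
  have hker : ∀ x, Θ x = 1 ↔ x ∈ GD (even_JJ m) (minus_ne a b) := by
    intro x
    rw [← hΘk]
    rfl
  have hoA : orderOf (Θ A) = 2 := by
    apply orderOf_eq_prime
    · rw [pow_two, ← map_mul, hA2, map_one]
    · exact fun h3 => hAn ((hker A).1 h3)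
  have hγ2' : γ ^ 2 = 1 := by
    have h3 := pow_orderOf_eq_one γ
    rwa [hγ2] at h3
  have hoγ : orderOf (Θ γ) = 2 := by
    apply orderOf_eq_prime
    · rw [← map_pow, hγ2', map_one]
    · exact fun h3 => hγ ((hker γ).1 h3)
  have hθ := eq_of_order_two hcyc hoA hoγ
  have hmem : A⁻¹ * γ ∈ GD (even_JJ m) (minus_ne a b) := by
    rw [← hker, map_mul, map_inv, ← hθ, inv_mul_cancel]
  obtain ⟨s, hs, hKs, he⟩ := mem_GD.1 hmem
  have hrs : (rO (minusQF m a b) v₀).1 * s ∈ Sim (minusQF m a b) := Subgroup.mul_mem _ hrS hs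
  refine ⟨_, hrs, ?_, ?_⟩
  · intro h3
    exact hrK (KP_of_mul_right (even_JJ m) (minus_ne a b) hKs h3)
  · have e1 : γ = A * psemiO s (RingEquiv.refl F) (semi_of_sim hs) := by
      rw [← he]
      group
    rw [e1, hA]
    have e2 : psemiO s (RingEquiv.refl F) (semi_of_sim hs) = simAut (Q := minusQF m a b) ⟨s, hs⟩ := rfl
    rw [e2, ← map_mul]
    rfl

theorem gr_minus_core (hodd : Odd (Fintype.card F)) (hm : 3 ≤ m) (hab : ∀ z₁ z₂ : F, z₁ ^ 2 + a * z₁ * z₂ + b * z₂ ^ 2 = 0 → z₁ = 0 ∧ z₂ = 0) (γ : MulAut (PO (minusQF m a b)))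
    (hγ : γ ∉ GD (even_JJ m) (minus_ne a b)) (hγ2 : orderOf γ = 2) :
    (Cfsg.splitClassCount (GD (even_JJ m) (minus_ne a b)) (Cfsg.Inn (PO (minusQF m a b))) γ = 1 ∨ Cfsg.splitClassCount (GD (even_JJ m) (minus_ne a b)) (Cfsg.Inn (PO (minusQF m a b))) γ = 2) ∧
      (¬ (Even m ∧ Fintype.card F % 4 = 1) → Cfsg.splitClassCount (GD (even_JJ m) (minus_ne a b)) (Cfsg.Inn (PO (minusQF m a b))) γ = 2) := by
  classical
  have h2 : (2 : F) ≠ 0 := two_ne_gr hodd
  have hG : Good (minusQF m a b) := good_minus hab hm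
  obtain ⟨g, hg, hK, rfl⟩ := gr_reduce_minus hab hm γ hγ hγ2
  have hX : simAut (Q := minusQF m a b) ⟨g, hg⟩ * simAut ⟨g, hg⟩ = 1 := by
    have h3 := pow_orderOf_eq_one (simAut (Q := minusQF m a b) ⟨g, hg⟩)
    rwa [hγ2, pow_two] at h3
  have hiff := hneg_minus_iff (F := F) (m := m) h2 hab
  by_cases hneg : muO (hq_of_good (minusQF m a b)) (negS (Q := minusQF m a b) (even_JJ m)) = 1
  · have h2c := split_gr_two h2 (even_JJ m) (minus_ne a b) hneg hg hK hX
    exact ⟨Or.inr h2c, fun _ => h2c⟩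
  · refine ⟨split_gr_le h2 (even_JJ m) (minus_ne a b) hneg _, fun h3 => ?_⟩
    have hq4 := Nat.odd_iff.1 hodd
    rcases Nat.even_or_odd m with hm' | hm'
    · exfalso
      apply hneg
      refine hiff.2 ⟨hm', ?_⟩
      by_contra h5
      apply h3
      refine ⟨hm', ?_⟩
      omega
    · refine split_gr_C h2 (even_JJ m) (minus_ne a b) hneg ?_ hg hK hX
      rw [card_JJ]
      obtain ⟨k, hk⟩ := hm'
      exact ⟨k + 1, by omega⟩

/-- `S2719`. -/
theorem gr_minus (hodd : Odd (Fintype.card F)) (hm : 3 ≤ m) (a b : F) (hab : ∀ z₁ z₂ : F, z₁ ^ 2 + a * z₁ * z₂ + b * z₂ ^ 2 = 0 → z₁ = 0 ∧ z₂ = 0) (γ : MulAut (Cfsg.POmega F (Cfsg.quadFormMinus m F a b))) (hγ : Cfsg.IsGraphAutClassPOmegaMinus m a b γ) (hγ2 : orderOf γ = 2) :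
    (Cfsg.splitClassCount (Cfsg.inndiagPOmegaMinus m F a b) (Cfsg.Inn (Cfsg.POmega F (Cfsg.quadFormMinus m F a b))) γ = 1 ∨ Cfsg.splitClassCount (Cfsg.inndiagPOmegaMinus m F a b) (Cfsg.Inn (Cfsg.POmega F (Cfsg.quadFormMinus m F a b))) γ = 2) ∧ (¬ (Even m ∧ Fintype.card F % 4 = 1) → Cfsg.splitClassCount (Cfsg.inndiagPOmegaMinus m F a b) (Cfsg.Inn (Cfsg.POmega F (Cfsg.quadFormMinus m F a b))) γ = 2) := by
  have einn := inndiag_minus_eq (F := F) (m := m) hab (by omega)
  obtain ⟨-, hγ₁, -⟩ := hγ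
  rw [einn] at hγ₁ ⊢
  exact gr_minus_core hodd hm hab γ hγ₁ hγ2

end minus

end Cfsg.Agent.Lib.AutPOm
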