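import Cfsg.Agent.Lib.AutPOm.GrFam3
import Cfsg.Agent.Lib.AutPOm.GrMinus

/-! Special isometries commuting with an isometry of odd prime order, of non-trivial spinor norm, and the class statements. -/

set_option autoImplicit false
set_option linter.unusedSimpArgs false
set_option linter.unusedVariables false
set_option linter.unusedSectionVars false

namespace Cfsg.Agent.Lib.AutPOm

open Matrix Module
open Cfsg.Agent.Lib.Classical (polar_self_eq reflection_Q reflection_fix)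
open Cfsg.Agent.Lib.Spinor (rr rO rO_mat matrix_ext OG.mat nm lp lp_mat nm_append sgnF_of_not_sq)

variable {F : Type*} [Field F] {ι : Type} [Fintype ι] [DecidableEq ι] {Q : QuadraticForm F (ι → F)}

local notation "VV" => (ι → F)
local notation "MM" => Matrix ι ι F
local notation "GG" => Matrix.GeneralLinearGroup ι F
local notation "bb" => QuadraticMap.polar (DFunLike.coe Q)

section main

variable [Fintype F] [h : Good Q] {r : ℕ} {G : Matrix.GeneralLinearGroup ι F}

/-- A list of reflections commuting with the isometry and of non-square norm. -/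
theorem exists_refl_list (h2 : (2 : F) ≠ 0) (he : Even (Fintype.card ι)) (hr3 : 3 ≤ r) (hro : Odd r) (hrF : (r : F) ≠ 0) (hG : (G : MM) ^ r = 1) (hiso : ∀ v, Q ((G : MM) *ᵥ v) = Q v) :
    ∃ L : List VV, (∀ u ∈ L, Q u ≠ 0) ∧ Even L.length ∧ ¬ IsSquare (nm Q L) ∧ (L.map (rr Q)).prod * (G : MM) = (G : MM) * (L.map (rr Q)).prod := by
  classical
  have hr2 : 2 ≤ r := by omega
  have hr1 : 1 ≤ r := by omega
  by_cases hW0 : W0 G = ⊥
  · let Φ : RR r F →ₐ[F] MM := PhiR (G : MM) hG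
    have hΦtt : Φ tt = (G : MM) := PhiR_tt _ _
    have hadj : ∀ (x : RR r F) (u w : VV), bb (Φ x *ᵥ u) w = bb u (Φ (tauR x) *ᵥ w) := PhiR_adj (Q := Q) (G : MM) hG hr1 hiso
    have hSG : ∀ z : VV, SG (G : MM) r *ᵥ z = 0 := by
      intro z
      have h1 : (r : F)⁻¹ • (SG (G : MM) r *ᵥ z) ∈ W0 G := mem_W0.2 (pi_fixed hG z)
      rw [hW0] at h1
      have h3 := (Submodule.mem_bot F).1 h1
      exact (smul_eq_zero.1 h3).resolve_left (inv_ne_zero hrF)
    have hN : ∀ a b : RR r F, (a * tauR a - b) * (tt + tauR tt - 2) = 0 → ∀ z : VV, Φ (a * tauR a) *ᵥ z = Φ b *ᵥ z :=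
      fun a b hab z => Phi_norm hr1 hrF hG hab (hSG z)
    have hΦinv : Φ (tauR tt) = ((G⁻¹ : GG) : MM) := by
      have h1 : (G : MM) * Φ (tauR tt) = 1 := by
        rw [← hΦtt, ← map_mul, tt_mul_tau hr1, map_one]
      have h3 : ((G⁻¹ : GG) : MM) * (G : MM) = 1 := by
        rw [← Units.val_mul, inv_mul_cancel]
        rfl
      calc Φ (tauR tt) = (((G⁻¹ : GG) : MM) * (G : MM)) * Φ (tauR tt) := by rw [h3, one_mul]
        _ = ((G⁻¹ : GG) : MM) := by rw [mul_assoc, h1, mul_one]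
    have hθ : ∀ x : VV, Φ (thR r F) *ᵥ x = 0 → x = 0 := by
      intro x hx
      have e : Φ (thR r F) = HG G := by
        rw [thR, map_sub, hΦtt, hΦinv]
        rfl
      rw [e] at hx
      have h3 : x ∈ W0 G := mem_W0.2 (HG_fixed hro hG hx)
      rw [hW0] at h3
      exact (Submodule.mem_bot F).1 h3
    have hfS : Finite (R0 r F) := by
      have := finite_RR (F := F) hr1
      exact Subtype.finite
    have hred : IsReduced (R0 r F) := by
      have := reduced_RR (F := F) hrF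
      exact isReduced_of_injective (R0 r F).val Subtype.val_injective
    have hne : Nonempty ι := by
      have := h.big
      apply Fintype.card_pos_iff.1
      omega
    let ψ : R0 r F →+* MM := (Φ.comp (R0 r F).val).toRingHom
    have hψ : ∀ z : R0 r F, ψ z = Φ (z : RR r F) := fun z => rfl
    obtain ⟨I, e, he1, he2, he3⟩ := exists_component ψ
    have hee : Φ (e : RR r F) * Φ (e : RR r F) = Φ (e : RR r F) := by
      rw [← hψ, ← map_mul, he1]
    have hτe : tauR (e : RR r F) = e := tau_val e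
    let Z : Submodule F VV := LinearMap.range (Φ (e : RR r F)).mulVecLin
    have hZe : ∀ x ∈ Z, Φ (e : RR r F) *ᵥ x = x := by
      rintro x ⟨x₀, rfl⟩
      show Φ (e : RR r F) *ᵥ (Φ (e : RR r F) *ᵥ x₀) = Φ (e : RR r F) *ᵥ x₀
      rw [Matrix.mulVec_mulVec, hee]
    have hZnd : ∀ x ∈ Z, (∀ y ∈ Z, bb x y = 0) → x = 0 := by
      intro x hx hxy
      apply h.nd.1 x
      intro u
      show bb x u = 0
      rw [← hZe x hx, hadj, hτe]
      exact hxy _ ⟨u, rfl⟩
    have hZb : Z ≠ ⊥ := by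
      intro hb
      apply he2
      rw [hψ]
      apply matrix_ext
      intro u
      have h1 : Φ (e : RR r F) *ᵥ u ∈ Z := ⟨u, rfl⟩
      rw [hb] at h1
      rw [(Submodule.mem_bot F).1 h1, Matrix.zero_mulVec]
    obtain ⟨v, hvZ, hQv⟩ := exists_nonsing hZnd hZb
    have hann : ∀ z ∈ I.asIdeal, Φ (z : RR r F) *ᵥ v = 0 := by
      intro z hz
      rw [← hZe v hvZ, Matrix.mulVec_mulVec, ← map_mul]
      have h1 := he3 z hz
      have h3 : (z : RR r F) * (e : RR r F) = 0 := congrArg Subtype.val h1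
      rw [h3, map_zero, Matrix.zero_mulVec]
    obtain ⟨L, h1, h3, h4, h5⟩ := exists_refl_pair (Q := Q) Φ h2 hr3 hro hrF hadj hN hθ hQv I.asIdeal I.isMaximal hann
    rw [hΦtt] at h5
    exact ⟨L, h1, h3, h4, h5⟩
  · have hev : Even (Module.finrank F (W0 G)) := by
      have h1 := W_finrank hrF hG
      have h3 := W1_even (Q := Q) h2 hr2 hro hrF hG hiso
      rw [← h1] at he
      exact (Nat.even_add.1 he).2 h3
    have hpos : 0 < Module.finrank F (W0 G) := Module.finrank_pos_iff.2 (Submodule.nontrivial_iff_ne_bot.2 hW0)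
    have hf : 2 ≤ Module.finrank F (W0 G) := by
      obtain ⟨k, hk⟩ := hev
      omega
    obtain ⟨a, haZ, b, hbZ, hQa, hQb, hns⟩ := exists_pair_nonsq h2 (W0_nondeg hr2 hrF hG hiso) hf
    have hcm : ∀ u ∈ W0 G, Q u ≠ 0 → (G : MM) * rr Q u = rr Q u * (G : MM) := by
      intro u hu hQu
      have := rr_conj' (Q := Q) (g := G) (c := 1) one_ne_zero (fun v => by rw [one_mul]; exact hiso v) hQu
      rwa [mem_W0.1 hu] at this
    refine ⟨[a, b], ?_, ⟨1, rfl⟩, ?_, ?_⟩
    · intro v hv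
      simp only [List.mem_cons, List.not_mem_nil, or_false] at hv
      rcases hv with rfl | rfl
      · exact hQa
      · exact hQb
    · rw [nm_pair]
      exact hns
    · simp only [List.map_cons, List.map_nil, List.prod_cons, List.prod_nil, mul_one]
      rw [mul_assoc, ← hcm b hbZ hQb, ← mul_assoc, ← hcm a haZ hQa, mul_assoc]

/-- A special isometry commuting with the isometry, of non-trivial invariant. -/
theorem exists_comm_so (h2 : (2 : F) ≠ 0) (he : Even (Fintype.card ι)) (hr3 : 3 ≤ r) (hro : Odd r) (hrF : (r : F) ≠ 0) (hG : (G : MM) ^ r = 1) (hiso : ∀ v, Q ((G : MM) *ᵥ v) = Q v) :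
    ∃ w : ↥(SOg Q), w.1.1 * G = G * w.1.1 ∧ muO (hq_of_good Q) w = -1 := by
  obtain ⟨L, h1, h3, h4, h5⟩ := exists_refl_list (Q := Q) h2 he hr3 hro hrF hG hiso
  have hy : lp Q L ∈ SOg Q := (mem_SOg_iff _).2 (by
    have := lp_det h1
    rw [h3.neg_one_pow] at this
    exact this)
  refine ⟨⟨lp Q L, hy⟩, ?_, ?_⟩
  · apply Units.ext
    show OG.mat (lp Q L) * (G : MM) = (G : MM) * OG.mat (lp Q L)
    rw [lp_mat h1]
    exact h5
  · rw [muO_lp (hq_of_good Q) _ h1 rfl, sgnF_of_not_sq h4]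

/-- The generic statement, without further hypotheses. -/
theorem gr_odd_final (h2 : (2 : F) ≠ 0) (he : Even (Fintype.card ι)) (hne : ∃ v : VV, Q v ≠ 0) (hr3 : 3 ≤ r) (hro : Odd r) (hrF : (r : F) ≠ 0) {x : MulAut (PO Q)} (hx : x ∈ Cfsg.pgoAut F (⇑Q)) (hxr : orderOf x = r) :
    (∀ y : MulAut (PO Q), (Cfsg.IsConjUnder (Cfsg.Inn (PO Q)) x y ↔ Cfsg.IsConjUnder (GD he hne) x y) ∧ (Cfsg.IsConjUnder (Cfsg.psoAut F (⇑Q)) x y ↔ Cfsg.IsConjUnder (GD he hne) x y)) ∧
      (∀ y : MulAut (PO Q), Cfsg.IsConjUnder (Cfsg.poAut F (⇑Q)) x y ↔ Cfsg.IsConjUnder (Cfsg.pgoAut F (⇑Q)) x y) :=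
  gr_odd_wrap h2 he hne hr3 hro hrF hx hxr (fun G hG hiso => exists_comm_so h2 he hr3 hro hrF hG hiso)

end main

section final

variable {F : Type*} [Field F] [Fintype F] {m : ℕ}

theorem cast_prime_ne {p r : ℕ} [Fact p.Prime] [CharP F p] (hr : r.Prime) (hrp : r ≠ p) : (r : F) ≠ 0 := by
  intro h0
  have h1 : p ∣ r := (CharP.cast_eq_zero_iff F p r).1 h0
  exact hrp ((Nat.prime_dvd_prime_iff_eq (Fact.out) hr).1 h1).symm

theorem two_ne_prime {p : ℕ} [Fact p.Prime] [CharP F p] (hp : p ≠ 2) : (2 : F) ≠ 0 := by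
  intro h0
  have h1 : p ∣ 2 := (CharP.cast_eq_zero_iff F p 2).1 (by exact_mod_cast h0)
  exact hp ((Nat.prime_dvd_prime_iff_eq (Fact.out) Nat.prime_two).1 h1)

end final

end Cfsg.Agent.Lib.AutPOm
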