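import Cfsg.Agent.Lib.AutPOm.GrBad

/-! The number of classes of involutory similarities under the inner automorphisms. -/

set_option autoImplicit false
set_option linter.unusedSimpArgs false
set_option linter.unusedVariables false
set_option linter.unusedSectionVars false

namespace Cfsg.Agent.Lib.AutPOm

open Matrix Module MulAction Cfsg.Agent.Lib.Classical
open Cfsg.Agent.Lib.AutPSL (coe_scalar_mul)
open Cfsg.Agent.Lib.ClassMax.OmegaCore (mem_iso_iff)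
open Cfsg.Agent.Lib.Spinor (ndf rr rO lp nm invL sgnF sgnF_of_sq sgnF_of_not_sq sgnF_eq_one_iff sgnF_mul exists_lp lp_mat lp_cons lp_nil rO_mat matrix_ext OG.mat invL_eq_of_lp_eq)
open scoped MatrixGroups

theorem two_ne_gr {F : Type*} [Field F] [Fintype F] (hodd : Odd (Fintype.card F)) : (2 : F) ≠ 0 :=
  Ring.two_ne_zero (fun hc => by
    have h3 := FiniteField.even_card_iff_char_two.1 hc
    have h4 := Nat.odd_iff.1 hodd
    omega)

section groups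

variable {X : Type*} [Group X]

theorem comm_of_index_four (G T : Subgroup X) [hn : T.Normal] (hidx : (T.subgroupOf G).index = 4) {a b : X} (ha : a ∈ G) (hb : b ∈ G) :
    a * b * a⁻¹ * b⁻¹ ∈ T := by
  have hcard : Nat.card (↥G ⧸ T.subgroupOf G) = 2 ^ 2 := by
    rw [← Subgroup.index_eq_card, hidx]
    norm_num
  have : Fact (Nat.Prime 2) := ⟨Nat.prime_two⟩
  have hcomm := (IsPGroup.isMulCommutative_of_card_eq_prime_sq (p := 2) hcard).is_comm.comm
  have h1 := hcomm (((⟨b⁻¹, G.inv_mem hb⟩ : ↥G) : ↥G ⧸ T.subgroupOf G)) (((⟨a⁻¹, G.inv_mem ha⟩ : ↥G) : ↥G ⧸ T.subgroupOf G))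
  rw [← QuotientGroup.mk_mul, ← QuotientGroup.mk_mul, QuotientGroup.eq] at h1
  have h2 := Subgroup.mem_subgroupOf.1 h1
  simpa [mul_assoc] using h2

end groups

variable {F : Type*} [Field F] {ι : Type} [Fintype ι] [DecidableEq ι] {Q : QuadraticForm F (ι → F)}

local notation "VV" => (ι → F)
local notation "MM" => Matrix ι ι F
local notation "GG" => GL ι F
local notation "bb" => QuadraticMap.polar (DFunLike.coe Q)

theorem nm_pair (a b : VV) : nm Q [a, b] = Q a * Q b := by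
  simp [nm]

section main

variable [Fintype F] [h : Good Q]

theorem gsq_of_inv {g : GG} (hg : g ∈ Sim Q) (hX : simAut (Q := Q) ⟨g, hg⟩ * simAut ⟨g, hg⟩ = 1) :
    ∃ l : F, l ≠ 0 ∧ (g : MM) * (g : MM) = l • (1 : MM) := by
  rw [← map_mul, simAut_apply, psemiO_eq_one_iff] at hX
  obtain ⟨c, hc0, hc⟩ := hX
  exact ⟨c, hc0, hc⟩

/-- Under the condition that `-1` is inner, elements of the inner-diagonal group commuting with an involution outside it lie in the image of the special orthogonal group. -/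
theorem cent_pso (h2 : (2 : F) ≠ 0) (he : Even (Fintype.card ι)) (hne : ∃ v : VV, Q v ≠ 0) (hneg : muO (hq_of_good Q) (negS (Q := Q) he) = 1)
    {g s : GG} (hg : g ∈ Sim Q) (hK : ¬ KP Q g) (hs : s ∈ Sim Q) (hKs : KP Q s) (hc : simAut (Q := Q) ⟨s, hs⟩ * simAut ⟨g, hg⟩ = simAut ⟨g, hg⟩ * simAut ⟨s, hs⟩) :
    simAut (Q := Q) ⟨s, hs⟩ ∈ Cfsg.psoAut F (⇑Q) := by
  classical
  have hq := hq_of_good Q
  obtain ⟨v₀, hv₀⟩ := hne
  have hne' : ∃ v : VV, Q v ≠ 0 := ⟨v₀, hv₀⟩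
  have hrS : (rO Q v₀).1 ∈ Sim Q := og_le_sim (rO Q v₀).2
  have hK' : KP Q ((rO Q v₀).1 * g) := (KP_or he h.nd hq hg hv₀).resolve_left hK
  have hH : (rO Q v₀).1 * g ∈ Sim Q := Subgroup.mul_mem _ hrS hg
  have hrr : (rO Q v₀).1 * (rO Q v₀).1 = 1 := congrArg Subtype.val (Cfsg.Agent.Lib.Spinor.rO_mul_self v₀)
  obtain ⟨A, hA⟩ : ∃ A, A = simAut (Q := Q) ⟨(rO Q v₀).1, hrS⟩ := ⟨_, rfl⟩
  obtain ⟨H, hHd⟩ : ∃ H, H = simAut (Q := Q) ⟨(rO Q v₀).1 * g, hH⟩ := ⟨_, rfl⟩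
  obtain ⟨S, hS⟩ : ∃ S, S = simAut (Q := Q) ⟨s, hs⟩ := ⟨_, rfl⟩
  have hX : simAut (Q := Q) ⟨g, hg⟩ = A * H := by
    rw [hA, hHd, ← map_mul]
    congr 1
    apply Subtype.ext
    show g = (rO Q v₀).1 * ((rO Q v₀).1 * g)
    rw [← mul_assoc, hrr, one_mul]
  have hSG : S ∈ GD he hne' := mem_GD.2 ⟨s, hs, hKs, by rw [hS]; rfl⟩
  have hHG : H ∈ GD he hne' := mem_GD.2 ⟨_, hH, hK', by rw [hHd]; rfl⟩
  have hI : (Cfsg.Inn (PO Q)).Normal := Cfsg.innNormal _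
  have hcomm := comm_of_index_four (GD he hne') (Cfsg.Inn (PO Q)) (index_inn_GD h2 he hne' hneg) hSG hHG
  have hcomm2 : S * A * S⁻¹ * A⁻¹ ∈ Cfsg.Inn (PO Q) := by
    have h1 : S * (A * H) = (A * H) * S := by
      rw [← hX, hS]
      exact hc
    have h3 : S * A = A * H * S * H⁻¹ := by
      rw [eq_mul_inv_iff_mul_eq, ← h1, mul_assoc]
    have e : S * A * S⁻¹ * A⁻¹ = A * (S * H * S⁻¹ * H⁻¹)⁻¹ * A⁻¹ := by
      rw [h3]
      group
    rw [e]
    exact hI.conj_mem _ (Subgroup.inv_mem _ hcomm) A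
  obtain ⟨c, hcc⟩ := hs
  -- the commutator
  set a : VV := (s : MM) *ᵥ v₀ with ha
  have hQa : Q a = c * Q v₀ := hcc v₀
  have hQa0 : Q a ≠ 0 := by
    rw [hQa]
    exact mul_ne_zero c.ne_zero hv₀
  have hvv : ∀ v ∈ [a, v₀], Q v ≠ 0 := by
    intro v hv
    simp only [List.mem_cons, List.not_mem_nil, or_false] at hv
    rcases hv with rfl | rfl
    · exact hQa0
    · exact hv₀
  have hdet : (oM (lp Q [a, v₀])).det = 1 := by
    have := lp_det hvv
    simpa using this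
  have hy : lp Q [a, v₀] ∈ SOg Q := (mem_SOg_iff _).2 hdet
  have hconj : s * (rO Q v₀).1 = (rO Q a).1 * s := by
    apply Units.ext
    show (s : MM) * OG.mat (rO Q v₀) = OG.mat (rO Q a) * (s : MM)
    rw [rO_mat hv₀, rO_mat hQa0]
    exact rr_conj' c.ne_zero hcc hv₀
  have hz : S * A * S⁻¹ * A⁻¹ = soAut ⟨lp Q [a, v₀], hy⟩ := by
    have e1 : S * A * S⁻¹ * A⁻¹ = simAut (Q := Q) (⟨s, ⟨c, hcc⟩⟩ * ⟨(rO Q v₀).1, hrS⟩ * ⟨s, ⟨c, hcc⟩⟩⁻¹ * ⟨(rO Q v₀).1, hrS⟩⁻¹) := by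
      rw [map_mul, map_mul, map_mul, map_inv, map_inv, hS, hA]
    rw [e1, soAut_apply, simAut_apply]
    apply psemiO_congr _ rfl
    show s * (rO Q v₀).1 * s⁻¹ * ((rO Q v₀).1)⁻¹ = (lp Q [a, v₀]).1
    rw [hconj, mul_inv_cancel_right, lp_cons, lp_cons, lp_nil, mul_one]
    have hi : ((rO Q v₀).1)⁻¹ = (rO Q v₀).1 := inv_eq_of_mul_eq_one_left hrr
    rw [hi]
    rfl
  rw [hz, soAut_mem_inn_iff h2 he hneg, muO_lp hq _ hvv rfl, sgnF_eq_one_iff] at hcomm2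
  have hsq : IsSquare (c : F) := by
    obtain ⟨r, hr⟩ := hcomm2
    refine ⟨r / Q v₀, ?_⟩
    have h3 : Q a * Q v₀ = r * r := by
      rw [← hr, nm_pair]
    rw [hQa] at h3
    field_simp
    linear_combination h3
  rw [simAut_mem_pso_iff h2 he hne']
  apply Prod.ext
  · rw [Lam_fst, simMu_eq hne' ⟨s, ⟨c, hcc⟩⟩ hcc]
    exact sgnF_of_sq hsq
  · rw [Lam_snd]
    exact (kapS_eq_one_iff he hne' _).2 hKs

/-- An element of the inner-diagonal group commuting with the involution but not inner. -/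
theorem exists_noninn (h2 : (2 : F) ≠ 0) (he : Even (Fintype.card ι)) (hne : ∃ v : VV, Q v ≠ 0) (hneg : muO (hq_of_good Q) (negS (Q := Q) he) = 1)
    {g : GG} (hg : g ∈ Sim Q) (hK : ¬ KP Q g) {l : F} (hgg : (g : MM) * (g : MM) = l • (1 : MM)) :
    ∃ δ ∈ GD he hne, δ ∈ Subgroup.centralizer {simAut (Q := Q) ⟨g, hg⟩} ∧ δ ∉ Cfsg.Inn (PO Q) := by
  classical
  have hq := hq_of_good Q
  obtain ⟨a, b, ha, hb, hns, hcm⟩ := exists_bad h2 he hg hK hgg
  have hvv : ∀ v ∈ [a, b], Q v ≠ 0 := by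
    intro v hv
    simp only [List.mem_cons, List.not_mem_nil, or_false] at hv
    rcases hv with rfl | rfl
    · exact ha
    · exact hb
  have hdet : (oM (lp Q [a, b])).det = 1 := by
    have := lp_det hvv
    simpa using this
  have hy : lp Q [a, b] ∈ SOg Q := (mem_SOg_iff _).2 hdet
  refine ⟨soAut ⟨lp Q [a, b], hy⟩, ?_, ?_, ?_⟩
  · apply pso_le_GD h2 he hne
    rw [psoAut_eq_range]
    exact ⟨_, rfl⟩
  · rw [Subgroup.mem_centralizer_singleton_iff]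
    have e : soAut (Q := Q) ⟨lp Q [a, b], hy⟩ = simAut ⟨(lp Q [a, b]).1, og_le_sim (lp Q [a, b]).2⟩ := rfl
    rw [e, ← map_mul, ← map_mul]
    congr 1
    apply Subtype.ext
    apply Units.ext
    show OG.mat (lp Q [a, b]) * (g : MM) = (g : MM) * OG.mat (lp Q [a, b])
    rw [lp_mat hvv]
    simp only [List.map_cons, List.map_nil, List.prod_cons, List.prod_nil, mul_one]
    exact hcm.symm
  · rw [soAut_mem_inn_iff h2 he hneg, muO_lp hq _ hvv rfl, sgnF_of_not_sq]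
    · decide
    · rw [nm_pair]
      exact hns

/-- The count when `-1` is inner. -/
theorem split_gr_two (h2 : (2 : F) ≠ 0) (he : Even (Fintype.card ι)) (hne : ∃ v : VV, Q v ≠ 0) (hneg : muO (hq_of_good Q) (negS (Q := Q) he) = 1)
    {g : GG} (hg : g ∈ Sim Q) (hK : ¬ KP Q g) (hX : simAut (Q := Q) ⟨g, hg⟩ * simAut ⟨g, hg⟩ = 1) :
    Cfsg.splitClassCount (GD he hne) (Cfsg.Inn (PO Q)) (simAut (Q := Q) ⟨g, hg⟩) = 2 := by
  obtain ⟨l, hl, hgg⟩ := gsq_of_inv hg hX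
  apply split_two_gd h2 he hne hneg
  · intro δ hδ hc
    obtain ⟨s, hs, hKs, rfl⟩ := mem_GD.1 hδ
    exact cent_pso h2 he hne hneg hg hK hs hKs (Subgroup.mem_centralizer_singleton_iff.1 hc)
  · exact exists_noninn h2 he hne hneg hg hK hgg

/-- The count when `-1` is not inner. -/
theorem split_gr_le (h2 : (2 : F) ≠ 0) (he : Even (Fintype.card ι)) (hne : ∃ v : VV, Q v ≠ 0) (hneg : muO (hq_of_good Q) (negS (Q := Q) he) ≠ 1) (X : MulAut (PO Q)) :
    Cfsg.splitClassCount (GD he hne) (Cfsg.Inn (PO Q)) X = 1 ∨ Cfsg.splitClassCount (GD he hne) (Cfsg.Inn (PO Q)) X = 2 := by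
  have hI : (Cfsg.Inn (PO Q)).Normal := Cfsg.innNormal _
  rw [split_index _ _ (inn_le_GD he hne) X]
  have e : Cfsg.Inn (PO Q) = Cfsg.psoAut F (⇑Q) := le_antisymm (inn_le_pso h2) (pso_le_inn h2 he hneg)
  have hd := Subgroup.index_dvd_of_le (le_sup_left : (Cfsg.Inn (PO Q)).subgroupOf (GD he hne) ≤ (Cfsg.Inn (PO Q)).subgroupOf (GD he hne) ⊔ (Subgroup.centralizer {X}).subgroupOf (GD he hne))
  have h3 : ((Cfsg.Inn (PO Q)).subgroupOf (GD he hne)).index = 2 := by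
    rw [e]
    exact index_pso_GD h2 he hne
  rw [h3] at hd
  exact (Nat.dvd_prime Nat.prime_two).1 hd

end main

end Cfsg.Agent.Lib.AutPOm
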