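import Cfsg.Agent.Lib.AutPOm.GrRing

/-! Isometries of odd prime order: fixed points, and similarities commuting with them. -/

set_option autoImplicit false
set_option linter.unusedSimpArgs false
set_option linter.unusedVariables false
set_option linter.unusedSectionVars false

namespace Cfsg.Agent.Lib.AutPOm

open Matrix Module Polynomial
open Cfsg.Agent.Lib.Classical (polar_self_eq)
open Cfsg.Agent.Lib.Spinor (rr)

variable {F : Type*} [Field F] {ι : Type} [Fintype ι] [DecidableEq ι] {Q : QuadraticForm F (ι → F)}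

local notation "VV" => (ι → F)
local notation "MM" => Matrix ι ι F
local notation "bb" => QuadraticMap.polar (DFunLike.coe Q)

theorem Q_add' (x y : VV) : Q (x + y) = Q x + Q y + bb x y := by
  have := QuadraticMap.map_add Q x y
  exact this

section ring

variable {r : ℕ} [Finite F]

theorem tau_SR (hr : 2 ≤ r) (hrF : (r : F) ≠ 0) : tauR (SR r F) = SR r F := by
  have h1 := tt_mul_tau (F := F) (r := r) (by omega)
  have h3 : (tauR (tt : RR r F)) * SR r F = SR r F := by
    have := tt_mul_SR (F := F) (r := r)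
    calc tauR (tt : RR r F) * SR r F = tauR (tt : RR r F) * ((tt : RR r F) * SR r F) := by rw [this]
      _ = ((tt : RR r F) * tauR tt) * SR r F := by ring
      _ = SR r F := by rw [h1, one_mul]
  have h4 : (tt : RR r F) * tauR (SR r F) = tauR (SR r F) := by
    have := congrArg (tauR : RR r F →ₐ[F] RR r F) h3
    rw [map_mul, tauR_tauR hr] at this
    exact this
  have h5 : ∀ j : ℕ, (tt : RR r F) ^ j * tauR (SR r F) = tauR (SR r F) := by
    intro j
    induction j with
    | zero => simp
    | succ j ih => rw [pow_succ', mul_assoc, ih, h4]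
  have h6 : SR r F * tauR (SR r F) = (r : RR r F) * tauR (SR r F) := by
    have e : SR r F * tauR (SR r F) = ∑ j ∈ Finset.range r, (tt : RR r F) ^ j * tauR (SR r F) := Finset.sum_mul _ _ _
    rw [e, Finset.sum_congr rfl (fun j _ => h5 j), Finset.sum_const, Finset.card_range, nsmul_eq_mul]
  have h7 : ∀ j : ℕ, (tauR (tt : RR r F)) ^ j * SR r F = SR r F := by
    intro j
    induction j with
    | zero => simp
    | succ j ih => rw [pow_succ', mul_assoc, ih, h3]
  have h8 : tauR (SR r F) * SR r F = (r : RR r F) * SR r F := by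
    have e : tauR (SR r F) = ∑ j ∈ Finset.range r, (tauR (tt : RR r F)) ^ j := by
      rw [SR, map_sum]
      simp only [map_pow]
    have e' : tauR (SR r F) * SR r F = ∑ j ∈ Finset.range r, (tauR (tt : RR r F)) ^ j * SR r F := by
      rw [e]
      exact Finset.sum_mul _ _ _
    rw [e', Finset.sum_congr rfl (fun j _ => h7 j), Finset.sum_const, Finset.card_range, nsmul_eq_mul]
  have h9 : (r : RR r F) * (tauR (SR r F) - SR r F) = 0 := by
    rw [mul_sub, ← h6, ← h8, mul_comm, sub_self]
  have hu : IsUnit (r : RR r F) := by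
    have e : (r : RR r F) = algebraMap F (RR r F) (r : F) := (map_natCast _ r).symm
    rw [e]
    exact (IsUnit.mk0 _ hrF).map _
  have h10 := (hu.mul_right_eq_zero).1 h9
  exact sub_eq_zero.1 h10

end ring

section sub

theorem finrank_perp_eq (h2 : (2 : F) ≠ 0) {W : Submodule F VV} {a : VV} (ha : a ∈ W) (hQa : Q a ≠ 0) :
    Module.finrank F (W ⊓ LinearMap.ker (QuadraticMap.polarBilin Q a) : Submodule F VV) + 1 = Module.finrank F W := by
  have h1 := finrank_perp (Q := Q) W a
  have h3 : (W ⊓ LinearMap.ker (QuadraticMap.polarBilin Q a) : Submodule F VV) < W := by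
    refine lt_of_le_of_ne inf_le_left ?_
    intro he
    have : a ∈ (W ⊓ LinearMap.ker (QuadraticMap.polarBilin Q a) : Submodule F VV) := by
      rw [he]
      exact ha
    have h4 : bb a a = 0 := (Submodule.mem_inf.1 this).2
    rw [polar_self_eq] at h4
    exact (mul_ne_zero h2 hQa) h4
  have h4 := Submodule.finrank_lt_finrank_of_lt h3
  omega

variable [Fintype F]

/-- A similarity with given multiplier on a non-degenerate subspace of even dimension. -/
theorem exists_sim_on (h2 : (2 : F) ≠ 0) {c : F} (n : ℕ) : ∀ Z : Submodule F VV, Module.finrank F Z = 2 * n → (∀ x ∈ Z, (∀ y ∈ Z, bb x y = 0) → x = 0) →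
    ∃ s : VV →ₗ[F] VV, (∀ x ∈ Z, s x ∈ Z) ∧ (∀ x ∈ Z, Q (s x) = c * Q x) ∧ (∀ x, (∀ z ∈ Z, bb x z = 0) → s x = x) := by
  induction n with
  | zero =>
    intro Z hZ hnd
    have hb : Z = ⊥ := by
      apply Submodule.finrank_eq_zero.1
      simpa using hZ
    refine ⟨LinearMap.id, fun x hx => hx, fun x hx => ?_, fun x _ => rfl⟩
    rw [hb] at hx
    have : x = 0 := hx
    subst this
    simp
  | succ n ih =>
    intro Z hZ hnd
    obtain ⟨a, ha, hQa⟩ := exists_nonsing hnd (ne_bot_of_finrank (by omega))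
    have hZ₁ := perp_nondeg h2 hnd ha hQa
    have hf₁ := finrank_perp_eq h2 ha hQa
    obtain ⟨b, hb, hQb⟩ := exists_nonsing hZ₁ (ne_bot_of_finrank (by omega))
    have hZ₂ := perp_nondeg h2 hZ₁ hb hQb
    have hf₂ := finrank_perp_eq h2 hb hQb
    obtain ⟨hbZ, hab⟩ := Submodule.mem_inf.1 hb
    have hab' : bb a b = 0 := hab
    have hba' : bb b a = 0 := by rw [QuadraticMap.polar_comm]; exact hab'
    obtain ⟨s₂, hs₁, hs₂, hs₃⟩ := ih _ (by omega) hZ₂
    have hmem : ∀ {z : VV}, z ∈ ((Z ⊓ LinearMap.ker (QuadraticMap.polarBilin Q a)) ⊓ LinearMap.ker (QuadraticMap.polarBilin Q b) : Submodule F VV) → z ∈ Z ∧ bb a z = 0 ∧ bb b z = 0 := by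
      intro z hz
      obtain ⟨h3, h4⟩ := Submodule.mem_inf.1 hz
      obtain ⟨h5, h6⟩ := Submodule.mem_inf.1 h3
      exact ⟨h5, h6, h4⟩
    have hmem' : ∀ {z : VV}, z ∈ Z → bb a z = 0 → bb b z = 0 → z ∈ ((Z ⊓ LinearMap.ker (QuadraticMap.polarBilin Q a)) ⊓ LinearMap.ker (QuadraticMap.polarBilin Q b) : Submodule F VV) := by
      intro z h3 h4 h5
      exact Submodule.mem_inf.2 ⟨Submodule.mem_inf.2 ⟨h3, h4⟩, h5⟩
    obtain ⟨ξ, η, hξ⟩ := exists_two_sq h2 hQa hQb (c * Q a)
    set a' : VV := ξ • a + η • b with ha'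
    set b' : VV := (-(Q b * η / Q a)) • a + ξ • b with hb'
    have hQa2 : bb a a = 2 * Q a := polar_self_eq Q a
    have hQb2 : bb b b = 2 * Q b := polar_self_eq Q b
    have hpa : bb a a ≠ 0 := by rw [hQa2]; exact mul_ne_zero h2 hQa
    have hpb : bb b b ≠ 0 := by rw [hQb2]; exact mul_ne_zero h2 hQb
    have hQa' : Q a' = c * Q a := by
      rw [ha', Q_add', QuadraticMap.map_smul, QuadraticMap.map_smul, QuadraticMap.polar_smul_left, QuadraticMap.polar_smul_right, hab']
      simp only [smul_eq_mul]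
      linear_combination hξ
    have hQb' : Q b' = c * Q b := by
      rw [hb', Q_add', QuadraticMap.map_smul, QuadraticMap.map_smul, QuadraticMap.polar_smul_left, QuadraticMap.polar_smul_right, hab']
      simp only [smul_eq_mul]
      have e : (-(Q b * η / Q a)) * (-(Q b * η / Q a)) * Q a + ξ * ξ * Q b = (Q b / Q a) * (Q a * ξ ^ 2 + Q b * η ^ 2) := by
        field_simp
        ring
      rw [mul_zero, mul_zero, add_zero, e, hξ]
      field_simp
    have ha'b' : bb a' b' = 0 := by
      rw [ha', hb']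
      simp only [QuadraticMap.polar_add_left, QuadraticMap.polar_add_right, QuadraticMap.polar_smul_left, QuadraticMap.polar_smul_right, smul_eq_mul, hab', hba', hQa2, hQb2]
      field_simp
      ring
    have ha'Z : a' ∈ Z := Z.add_mem (Z.smul_mem _ ha) (Z.smul_mem _ hbZ)
    have hb'Z : b' ∈ Z := Z.add_mem (Z.smul_mem _ ha) (Z.smul_mem _ hbZ)
    have hperp : ∀ (u z : VV), u ∈ (Submodule.span F {a, b} : Submodule F VV) → bb a z = 0 → bb b z = 0 → bb u z = 0 := by
      intro u z hu hz₁ hz₂
      induction hu using Submodule.span_induction with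
      | mem x hx =>
        simp only [Set.mem_insert_iff, Set.mem_singleton_iff] at hx
        rcases hx with rfl | rfl
        · exact hz₁
        · exact hz₂
      | zero => simp
      | add x y _ _ hx hy => rw [QuadraticMap.polar_add_left, hx, hy, add_zero]
      | smul t x _ hx => rw [QuadraticMap.polar_smul_left, hx, smul_zero]
    have ha'sp : a' ∈ (Submodule.span F {a, b} : Submodule F VV) := Submodule.add_mem _ (Submodule.smul_mem _ _ (Submodule.subset_span (by simp))) (Submodule.smul_mem _ _ (Submodule.subset_span (by simp)))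
    have hb'sp : b' ∈ (Submodule.span F {a, b} : Submodule F VV) := Submodule.add_mem _ (Submodule.smul_mem _ _ (Submodule.subset_span (by simp))) (Submodule.smul_mem _ _ (Submodule.subset_span (by simp)))
    -- the map
    let la : VV →ₗ[F] F := (bb a a)⁻¹ • QuadraticMap.polarBilin Q a
    let lb : VV →ₗ[F] F := (bb b b)⁻¹ • QuadraticMap.polarBilin Q b
    have hla : ∀ x, la x = (bb a a)⁻¹ * bb a x := fun x => rfl
    have hlb : ∀ x, lb x = (bb b b)⁻¹ * bb b x := fun x => rfl
    let t : VV →ₗ[F] VV := LinearMap.id + la.smulRight (a' - a) + lb.smulRight (b' - b)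
    have ht : ∀ x, t x = x + la x • (a' - a) + lb x • (b' - b) := fun x => rfl
    have hsa : s₂ a = a := hs₃ a (fun z hz => (hmem hz).2.1)
    have hsb : s₂ b = b := hs₃ b (fun z hz => (hmem hz).2.2)
    have hdec : ∀ x ∈ Z, ∃ z, z ∈ ((Z ⊓ LinearMap.ker (QuadraticMap.polarBilin Q a)) ⊓ LinearMap.ker (QuadraticMap.polarBilin Q b) : Submodule F VV) ∧ x = la x • a + lb x • b + z := by
      intro x hx
      refine ⟨x - la x • a - lb x • b, hmem' (Z.sub_mem (Z.sub_mem hx (Z.smul_mem _ ha)) (Z.smul_mem _ hbZ)) ?_ ?_, by abel⟩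
      · rw [QuadraticMap.polar_sub_right, QuadraticMap.polar_sub_right, QuadraticMap.polar_smul_right, QuadraticMap.polar_smul_right, hab', hla]
        simp only [smul_eq_mul]
        field_simp
        ring
      · rw [QuadraticMap.polar_sub_right, QuadraticMap.polar_sub_right, QuadraticMap.polar_smul_right, QuadraticMap.polar_smul_right, hba', hlb]
        simp only [smul_eq_mul]
        field_simp
        ring
    have hta : t a = a' := by
      rw [ht, hla, hlb, hba', inv_mul_cancel₀ hpa]
      simp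
    have htb : t b = b' := by
      rw [ht, hla, hlb, hab', inv_mul_cancel₀ hpb]
      simp
    have htz : ∀ z, bb a z = 0 → bb b z = 0 → t z = z := by
      intro z h3 h4
      rw [ht, hla, hlb, h3, h4]
      simp
    have hs_val : ∀ x ∈ Z, ∃ z, z ∈ ((Z ⊓ LinearMap.ker (QuadraticMap.polarBilin Q a)) ⊓ LinearMap.ker (QuadraticMap.polarBilin Q b) : Submodule F VV) ∧ x = la x • a + lb x • b + z ∧ t (s₂ x) = la x • a' + lb x • b' + s₂ z := by
      intro x hx
      obtain ⟨z, hz, hxz⟩ := hdec x hx
      refine ⟨z, hz, hxz, ?_⟩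
      have hz' := hmem (hs₁ z hz)
      have e : t (s₂ (la x • a + lb x • b + z)) = la x • a' + lb x • b' + t (s₂ z) := by
        simp only [map_add, map_smul, hsa, hsb, hta, htb]
      rw [htz _ hz'.2.1 hz'.2.2] at e
      rw [← e, ← hxz]
    refine ⟨t ∘ₗ s₂, ?_, ?_, ?_⟩
    · intro x hx
      obtain ⟨z, hz, -, he⟩ := hs_val x hx
      show t (s₂ x) ∈ Z
      rw [he]
      exact Z.add_mem (Z.add_mem (Z.smul_mem _ ha'Z) (Z.smul_mem _ hb'Z)) (hmem (hs₁ z hz)).1
    · intro x hx
      obtain ⟨z, hz, hxz, he⟩ := hs_val x hx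
      show Q (t (s₂ x)) = c * Q x
      rw [he]
      have hz' := hmem (hs₁ z hz)
      have hz'' := hmem hz
      have hca : bb (la x • a' + lb x • b') (s₂ z) = 0 :=
        hperp _ _ (Submodule.add_mem _ (Submodule.smul_mem _ _ ha'sp) (Submodule.smul_mem _ _ hb'sp)) hz'.2.1 hz'.2.2
      have hcb : bb (la x • a + lb x • b) z = 0 :=
        hperp _ _ (Submodule.add_mem _ (Submodule.smul_mem _ _ (Submodule.subset_span (by simp))) (Submodule.smul_mem _ _ (Submodule.subset_span (by simp)))) hz''.2.1 hz''.2.2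
      have e1 : Q x = la x * la x * Q a + lb x * lb x * Q b + Q z := by
        conv_lhs => rw [hxz]
        rw [Q_add', hcb, Q_add', QuadraticMap.map_smul, QuadraticMap.map_smul, QuadraticMap.polar_smul_left, QuadraticMap.polar_smul_right, hab']
        simp
      rw [Q_add', hca, Q_add', QuadraticMap.map_smul, QuadraticMap.map_smul, QuadraticMap.polar_smul_left, QuadraticMap.polar_smul_right, ha'b', hQa', hQb', hs₂ z hz, e1]
      simp only [smul_eq_mul]
      ring
    · intro x hx
      show t (s₂ x) = x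
      have h3 : s₂ x = x := hs₃ x (fun z hz => hx z (hmem hz).1)
      rw [h3]
      apply htz
      · rw [QuadraticMap.polar_comm]
        exact hx a ha
      · rw [QuadraticMap.polar_comm]
        exact hx b hbZ

/-- A non-degenerate subspace of dimension at least two contains vectors whose values have non-square product. -/
theorem exists_pair_nonsq (h2 : (2 : F) ≠ 0) {Z : Submodule F VV} (hnd : ∀ x ∈ Z, (∀ y ∈ Z, bb x y = 0) → x = 0) (hf : 2 ≤ Module.finrank F Z) :
    ∃ a ∈ Z, ∃ b ∈ Z, Q a ≠ 0 ∧ Q b ≠ 0 ∧ ¬ IsSquare (Q a * Q b) := by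
  classical
  obtain ⟨a₀, ha₀, hQa⟩ := exists_nonsing hnd (ne_bot_of_finrank (by omega))
  have hW₁ := perp_nondeg h2 hnd ha₀ hQa
  have hfin₁ := finrank_perp (Q := Q) Z a₀
  obtain ⟨b₀, hb₀, hQb⟩ := exists_nonsing hW₁ (ne_bot_of_finrank (by omega))
  obtain ⟨hb₀W, hb₀a⟩ := Submodule.mem_inf.1 hb₀
  have hab : bb a₀ b₀ = 0 := hb₀a
  obtain ⟨ν, hν⟩ := FiniteField.exists_nonsquare (F := F) (fun hch => h2 (by
    have := ringChar.Nat.cast_ringChar (R := F)
    rw [hch] at this
    exact_mod_cast this))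
  obtain ⟨α, β, hαβ⟩ := exists_two_sq h2 hQa hQb (ν * Q a₀)
  have hQx : Q (α • a₀ + β • b₀) = ν * Q a₀ := by
    rw [Q_add', QuadraticMap.map_smul, QuadraticMap.map_smul, QuadraticMap.polar_smul_left, QuadraticMap.polar_smul_right, hab]
    simp only [smul_eq_mul]
    linear_combination hαβ
  have hν0 : ν ≠ 0 := by
    rintro rfl
    exact hν IsSquare.zero
  refine ⟨a₀, ha₀, _, Z.add_mem (Z.smul_mem α ha₀) (Z.smul_mem β hb₀W), hQa, ?_, ?_⟩
  · rw [hQx]
    exact mul_ne_zero hν0 hQa
  · rw [hQx]
    rintro ⟨r, hr⟩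
    apply hν
    refine ⟨r / Q a₀, ?_⟩
    field_simp
    linear_combination hr

end sub

end Cfsg.Agent.Lib.AutPOm
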