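import Cfsg.Agent.Lib.AutPOm.GrOdd

/-! Isometries of odd prime order: decomposition of the space and similarities commuting with them. -/

set_option autoImplicit false
set_option linter.unusedSimpArgs false
set_option linter.unusedVariables false
set_option linter.unusedSectionVars false

namespace Cfsg.Agent.Lib.AutPOm

open Matrix Module Polynomial
open Cfsg.Agent.Lib.Classical (polar_self_eq)
open Cfsg.Agent.Lib.ClassMax.OmegaCore (mem_iso_iff)
open Cfsg.Agent.Lib.AutPSL (coe_scalar_mul)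
open Cfsg.Agent.Lib.Spinor (rr)
open scoped MatrixGroups

variable {F : Type*} [Field F] {ι : Type} [Fintype ι] [DecidableEq ι] {Q : QuadraticForm F (ι → F)}

local notation "VV" => (ι → F)
local notation "MM" => Matrix ι ι F
local notation "GG" => Matrix.GeneralLinearGroup ι F
local notation "bb" => QuadraticMap.polar (DFunLike.coe Q)

/-- The sum of the powers. -/
noncomputable def SG (M : MM) (r : ℕ) : MM := ∑ j ∈ Finset.range r, M ^ j

theorem M_SG {M : MM} {r : ℕ} (hG : M ^ r = 1) : M * SG M r = SG M r := by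
  have h := mul_geom_sum M r
  rw [hG, sub_self, sub_mul, one_mul] at h
  exact sub_eq_zero.1 h

theorem SG_M {M : MM} {r : ℕ} (hG : M ^ r = 1) : SG M r * M = SG M r := by
  have h := geom_sum_mul M r
  rw [hG, sub_self, mul_sub, mul_one] at h
  exact sub_eq_zero.1 h

theorem SG_fixed {M : MM} {r : ℕ} {x : VV} (hx : M *ᵥ x = x) : SG M r *ᵥ x = (r : F) • x := by
  have hp : ∀ j : ℕ, M ^ j *ᵥ x = x := by
    intro j
    induction j with
    | zero => simp
    | succ j ih => rw [pow_succ, ← Matrix.mulVec_mulVec, hx, ih]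
  rw [SG, Matrix.sum_mulVec, Finset.sum_congr rfl (fun j _ => hp j), Finset.sum_const, Finset.card_range, Nat.cast_smul_eq_nsmul]

section skew

/-- An injective skew map on a non-degenerate subspace forces even dimension. -/
theorem even_of_skew (h2 : (2 : F) ≠ 0) {W : Submodule F VV} {H : MM} (hW : ∀ x ∈ W, (∀ y ∈ W, bb x y = 0) → x = 0) (hHW : ∀ x ∈ W, H *ᵥ x ∈ W)
    (hinj : ∀ x ∈ W, H *ᵥ x = 0 → x = 0) (hs : ∀ x y, bb (H *ᵥ x) y = - bb x (H *ᵥ y)) : Even (Module.finrank F W) := by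
  classical
  obtain ⟨d, hd⟩ : ∃ d, d = Module.finrank F W := ⟨_, rfl⟩
  rw [← hd]
  let b : Basis (Fin d) F W := (Module.finBasis F W).reindex (finCongr hd.symm)
  let N : Matrix (Fin d) (Fin d) F := Matrix.of fun i j => bb (H *ᵥ (b i : VV)) (b j : VV)
  have hT : Nᵀ = -N := by
    ext i j
    simp only [N, Matrix.transpose_apply, Matrix.of_apply, Matrix.neg_apply]
    rw [hs, QuadraticMap.polar_comm]
  have hdet : N.det ≠ 0 := by
    intro h0
    obtain ⟨v, hv, hNv⟩ := Matrix.exists_mulVec_eq_zero_iff.2 h0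
    apply hv
    have hli := b.linearIndependent
    set z : W := ∑ j, v j • b j with hz
    have hzv : (z : VV) = ∑ j, v j • (b j : VV) := by
      rw [hz]
      simp [Submodule.coe_sum]
    have h1 : ∀ i, bb (H *ᵥ (b i : VV)) (z : VV) = 0 := by
      intro i
      have h3 := congrFun hNv i
      simp only [N, Matrix.mulVec, dotProduct, Matrix.of_apply, Pi.zero_apply] at h3
      have e : bb (H *ᵥ (b i : VV)) (∑ j, v j • (b j : VV)) = ∑ j, bb (H *ᵥ (b i : VV)) (b j : VV) * v j := by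
        change (QuadraticMap.polarBilin Q (H *ᵥ (b i : VV))) (∑ j, v j • (b j : VV)) = _
        rw [map_sum]
        apply Finset.sum_congr rfl
        intro j _
        rw [map_smul, smul_eq_mul, mul_comm]
        rfl
      rw [hzv, e, h3]
    have hall : ∀ y : W, bb (H *ᵥ (y : VV)) (z : VV) = 0 := by
      intro y
      let ℓ : W →ₗ[F] F := ((QuadraticMap.polarBilin Q).flip (z : VV)) ∘ₗ H.mulVecLin ∘ₗ W.subtype
      have hℓ : ℓ = 0 := by
        apply b.ext
        intro i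
        exact h1 i
      have := LinearMap.congr_fun hℓ y
      exact this
    have hz0 : H *ᵥ (z : VV) = 0 := by
      apply hW _ (hHW _ z.2)
      intro y hy
      have h3 := hall ⟨y, hy⟩
      rw [hs] at h3
      have h4 : bb y (H *ᵥ (z : VV)) = 0 := by simpa using h3
      rw [QuadraticMap.polar_comm]
      exact h4
    have hz1 := hinj _ z.2 hz0
    have hz2 : z = 0 := Subtype.ext hz1
    rw [hz] at hz2
    have := (Fintype.linearIndependent_iff.1 hli) v hz2
    funext j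
    exact this j
  have h3 : (-1 : F) ^ d = 1 := by
    have h4 := congrArg Matrix.det hT
    rw [Matrix.det_transpose, Matrix.det_neg, Fintype.card_fin] at h4
    have h5 : ((-1 : F) ^ d - 1) * N.det = 0 := by linear_combination -h4
    exact sub_eq_zero.1 ((mul_eq_zero.1 h5).resolve_right hdet)
  by_contra hodd
  rw [Nat.not_even_iff_odd] at hodd
  rw [hodd.neg_one_pow] at h3
  apply h2
  linear_combination -h3

end skew

section main

variable [Fintype F] [h : Good Q] {r : ℕ} {G : Matrix.GeneralLinearGroup ι F}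

/-- The adjoint of the isometry. -/
theorem iso_polar (hiso : ∀ v, Q ((G : MM) *ᵥ v) = Q v) (x y : VV) : bb ((G : MM) *ᵥ x) ((G : MM) *ᵥ y) = bb x y := by
  have := sim_polar (Q := Q) (g := (G : MM)) (c := 1) (fun v => by rw [one_mul]; exact hiso v) x y
  rwa [one_mul] at this

theorem iso_adj (hiso : ∀ v, Q ((G : MM) *ᵥ v) = Q v) (x y : VV) : bb (((G⁻¹ : GG) : MM) *ᵥ x) y = bb x ((G : MM) *ᵥ y) := by
  have h1 := iso_polar hiso (((G⁻¹ : GG) : MM) *ᵥ x) y
  rw [gl_mul_inv] at h1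
  exact h1.symm

theorem SG_eq_Phi (hG : (G : MM) ^ r = 1) : SG (G : MM) r = PhiR (F := F) (G : MM) hG (SR r F) := by
  rw [PhiR_SR_apply, SG]

theorem SG_adj (hr : 2 ≤ r) (hrF : (r : F) ≠ 0) (hG : (G : MM) ^ r = 1) (hiso : ∀ v, Q ((G : MM) *ᵥ v) = Q v) (x y : VV) : bb (SG (G : MM) r *ᵥ x) y = bb x (SG (G : MM) r *ᵥ y) := by
  have h1 := PhiR_adj (Q := Q) (G : MM) hG (by omega) hiso (SR r F) x y
  rw [tau_SR hr hrF, ← SG_eq_Phi] at h1
  exact h1

/-- The fixed space. -/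
noncomputable abbrev W0 (G : GG) : Submodule F VV := eigW (G : MM) 1

/-- The complement of the fixed space. -/
noncomputable abbrev W1 (G : GG) (r : ℕ) : Submodule F VV := LinearMap.ker (SG (G : MM) r).mulVecLin

theorem mem_W0 {x : VV} : x ∈ W0 G ↔ (G : MM) *ᵥ x = x := by
  rw [mem_eigW, one_smul]

theorem mem_W1 {x : VV} : x ∈ W1 G r ↔ SG (G : MM) r *ᵥ x = 0 := by
  rw [LinearMap.mem_ker, Matrix.mulVecLin_apply]

theorem pi_fixed (hG : (G : MM) ^ r = 1) (x : VV) : (G : MM) *ᵥ ((r : F)⁻¹ • (SG (G : MM) r *ᵥ x)) = (r : F)⁻¹ • (SG (G : MM) r *ᵥ x) := by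
  rw [Matrix.mulVec_smul, Matrix.mulVec_mulVec, M_SG hG]

theorem pi_ker (hrF : (r : F) ≠ 0) (hG : (G : MM) ^ r = 1) (x : VV) : SG (G : MM) r *ᵥ (x - (r : F)⁻¹ • (SG (G : MM) r *ᵥ x)) = 0 := by
  have h1 : (G : MM) *ᵥ (SG (G : MM) r *ᵥ x) = SG (G : MM) r *ᵥ x := by
    rw [Matrix.mulVec_mulVec, M_SG hG]
  rw [Matrix.mulVec_sub, Matrix.mulVec_smul, SG_fixed h1, smul_smul, inv_mul_cancel₀ hrF, one_smul, sub_self]

theorem W_orth (hr : 2 ≤ r) (hrF : (r : F) ≠ 0) (hG : (G : MM) ^ r = 1) (hiso : ∀ v, Q ((G : MM) *ᵥ v) = Q v) {x z : VV} (hx : x ∈ W0 G) (hz : z ∈ W1 G r) : bb x z = 0 := by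
  have h1 := SG_adj hr hrF hG hiso x z
  rw [SG_fixed (mem_W0.1 hx), mem_W1.1 hz, QuadraticMap.polar_smul_left] at h1
  have h3 : bb x 0 = 0 := by simp
  rw [h3, smul_eq_mul] at h1
  exact (mul_eq_zero.1 h1).resolve_left hrF

theorem W0_nondeg (hr : 2 ≤ r) (hrF : (r : F) ≠ 0) (hG : (G : MM) ^ r = 1) (hiso : ∀ v, Q ((G : MM) *ᵥ v) = Q v) :
    ∀ x ∈ W0 G, (∀ y ∈ W0 G, bb x y = 0) → x = 0 := by
  intro x hx hxy
  apply h.nd.1 x
  intro u
  show bb x u = 0
  have e : u = (r : F)⁻¹ • (SG (G : MM) r *ᵥ u) + (u - (r : F)⁻¹ • (SG (G : MM) r *ᵥ u)) := by abel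
  rw [e, QuadraticMap.polar_add_right, hxy _ (mem_W0.2 (pi_fixed hG u)), W_orth hr hrF hG hiso hx (mem_W1.2 (pi_ker hrF hG u)), add_zero]

theorem W1_nondeg (hr : 2 ≤ r) (hrF : (r : F) ≠ 0) (hG : (G : MM) ^ r = 1) (hiso : ∀ v, Q ((G : MM) *ᵥ v) = Q v) :
    ∀ x ∈ W1 G r, (∀ y ∈ W1 G r, bb x y = 0) → x = 0 := by
  intro x hx hxy
  apply h.nd.1 x
  intro u
  show bb x u = 0
  have e : u = (r : F)⁻¹ • (SG (G : MM) r *ᵥ u) + (u - (r : F)⁻¹ • (SG (G : MM) r *ᵥ u)) := by abel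
  rw [e, QuadraticMap.polar_add_right, hxy _ (mem_W1.2 (pi_ker hrF hG u)), QuadraticMap.polar_comm, W_orth hr hrF hG hiso (mem_W0.2 (pi_fixed hG u)) hx, zero_add]

theorem W_finrank (hrF : (r : F) ≠ 0) (hG : (G : MM) ^ r = 1) : Module.finrank F (W0 G) + Module.finrank F (W1 G r) = Fintype.card ι := by
  have hc : IsCompl (W0 G) (W1 G r) := by
    constructor
    · rw [Submodule.disjoint_def]
      intro x hx hx'
      have h1 := SG_fixed (r := r) (mem_W0.1 hx)
      rw [mem_W1.1 hx'] at h1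
      have h3 := (smul_eq_zero.1 h1.symm).resolve_left hrF
      exact h3
    · rw [codisjoint_iff, eq_top_iff]
      intro u _
      have e : u = (r : F)⁻¹ • (SG (G : MM) r *ᵥ u) + (u - (r : F)⁻¹ • (SG (G : MM) r *ᵥ u)) := by abel
      rw [e]
      exact Submodule.add_mem_sup (mem_W0.2 (pi_fixed hG u)) (mem_W1.2 (pi_ker hrF hG u))
  have := Submodule.finrank_add_eq_of_isCompl hc
  rw [this, Module.finrank_fintype_fun_eq_card]

/-- The skew operator. -/
noncomputable def HG (G : GG) : MM := (G : MM) - ((G⁻¹ : GG) : MM)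

theorem HG_skew (hiso : ∀ v, Q ((G : MM) *ᵥ v) = Q v) (x y : VV) : bb (HG G *ᵥ x) y = - bb x (HG G *ᵥ y) := by
  have h1 := iso_adj hiso x y
  have h3 := iso_adj hiso y x
  rw [QuadraticMap.polar_comm] at h3
  rw [HG, Matrix.sub_mulVec, Matrix.sub_mulVec, QuadraticMap.polar_sub_left, QuadraticMap.polar_sub_right, h1]
  have h4 : bb ((G : MM) *ᵥ x) y = bb x (((G⁻¹ : GG) : MM) *ᵥ y) := by
    have h5 := iso_polar hiso x (((G⁻¹ : GG) : MM) *ᵥ y)
    rw [gl_mul_inv] at h5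
    exact h5
  rw [h4]
  ring

theorem HG_fixed (hr : Odd r) (hG : (G : MM) ^ r = 1) {x : VV} (hx : HG G *ᵥ x = 0) : (G : MM) *ᵥ x = x := by
  obtain ⟨k, rfl⟩ := hr
  have h1 : (G : MM) *ᵥ x = ((G⁻¹ : GG) : MM) *ᵥ x := by
    rw [HG, Matrix.sub_mulVec] at hx
    exact sub_eq_zero.1 hx
  have h3 : (G : MM) *ᵥ ((G : MM) *ᵥ x) = x := by
    rw [h1]
    exact gl_mul_inv G x
  have hp : ∀ j : ℕ, ((G : MM) ^ 2) ^ j *ᵥ x = x := by
    intro j
    induction j with
    | zero => simp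
    | succ j ih =>
      have e : (G : MM) ^ 2 *ᵥ x = x := by rw [pow_two, ← Matrix.mulVec_mulVec, h3]
      rw [pow_succ, ← Matrix.mulVec_mulVec, e, ih]
  have h5 := hp (k + 1)
  rw [← pow_mul] at h5
  have e : 2 * (k + 1) = (2 * k + 1) + 1 := by ring
  rw [e, pow_succ, hG, one_mul] at h5
  exact h5

theorem W1_even (h2 : (2 : F) ≠ 0) (hr2 : 2 ≤ r) (hr : Odd r) (hrF : (r : F) ≠ 0) (hG : (G : MM) ^ r = 1) (hiso : ∀ v, Q ((G : MM) *ᵥ v) = Q v) : Even (Module.finrank F (W1 G r)) := by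
  apply even_of_skew h2 (W1_nondeg hr2 hrF hG hiso) (H := HG G) _ _ (HG_skew hiso)
  · intro x hx
    rw [mem_W1, HG, Matrix.mulVec_mulVec, mul_sub, SG_M hG]
    have e : SG (G : MM) r * ((G⁻¹ : GG) : MM) = SG (G : MM) r := by
      calc SG (G : MM) r * ((G⁻¹ : GG) : MM) = (SG (G : MM) r * (G : MM)) * ((G⁻¹ : GG) : MM) := by rw [SG_M hG]
        _ = SG (G : MM) r := by
          rw [mul_assoc, ← Units.val_mul, mul_inv_cancel]
          simp
    rw [e, sub_self, Matrix.zero_mulVec]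
  · intro x hx h0
    have h1 := HG_fixed hr hG h0
    have h3 := SG_fixed (r := r) h1
    rw [mem_W1.1 hx] at h3
    exact (smul_eq_zero.1 h3.symm).resolve_left hrF

end main

end Cfsg.Agent.Lib.AutPOm
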