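import Cfsg.Agent.Lib.AutPOm.GrOdd2
import Cfsg.Agent.Lib.AutPSL.GInvDet

/-! Isometries of odd prime order: similarities commuting with them. -/

set_option autoImplicit false
set_option linter.unusedSimpArgs false
set_option linter.unusedVariables false
set_option linter.unusedSectionVars false

namespace Cfsg.Agent.Lib.AutPOm

open Matrix Module Polynomial
open Cfsg.Agent.Lib.Classical (polar_self_eq reflection_Q)
open Cfsg.Agent.Lib.ClassMax.OmegaCore (mem_iso_iff)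
open Cfsg.Agent.Lib.AutPSL (coe_scalar_mul)
open Cfsg.Agent.Lib.Spinor (rr rO rO_mat matrix_ext OG.mat)
open scoped MatrixGroups

variable {F : Type*} [Field F] {ι : Type} [Fintype ι] [DecidableEq ι] {Q : QuadraticForm F (ι → F)}

local notation "VV" => (ι → F)
local notation "MM" => Matrix ι ι F
local notation "GG" => Matrix.GeneralLinearGroup ι F
local notation "bb" => QuadraticMap.polar (DFunLike.coe Q)

/-- Similarities of non-degenerate alternating forms have determinant a power of the multiplier. -/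
theorem det_of_alt_sim {m : ℕ} (hcard : Fintype.card ι = 2 * m) (B : LinearMap.BilinForm F VV) (hA : B.IsAlt) (hnd : B.Nondegenerate) (S : MM) {c : F} (hc : c ≠ 0)
    (hS : ∀ x y, B (S *ᵥ x) (S *ᵥ y) = c * B x y) : S.det = c ^ m := by
  classical
  obtain ⟨L, hL⟩ := Cfsg.Agent.Lib.AutPSL.alt_iso (F := F) (V := VV) (m := m) (by rw [Module.finrank_fintype_fun_eq_card, hcard]) B hA hnd
  let A₁ : Matrix (Fin m ⊕ Fin m) (Fin m ⊕ Fin m) F := matT L S
  have hA₁ : ∀ u, L (A₁ *ᵥ u) = S *ᵥ L u := by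
    intro u
    show L (matT L S *ᵥ u) = _
    rw [matT_mulVec, LinearEquiv.apply_symm_apply]
  have hdet : A₁.det = S.det := det_matT L S
  have h1 : ∀ u v, Cfsg.sympForm m F (A₁ *ᵥ u) (A₁ *ᵥ v) = c * Cfsg.sympForm m F u v := by
    intro u v
    rw [← hL, hA₁, hA₁, hS, hL]
  let δ : Matrix (Fin m ⊕ Fin m) (Fin m ⊕ Fin m) F := Matrix.fromBlocks (c⁻¹ • 1) 0 0 1
  have hδ : ∀ u v, Cfsg.sympForm m F (δ *ᵥ u) (δ *ᵥ v) = c⁻¹ * Cfsg.sympForm m F u v := by
    intro u v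
    have hsf : ∀ u v : Fin m ⊕ Fin m → F, Cfsg.sympForm m F u v = ∑ i, (u (Sum.inr i) * v (Sum.inl i) - u (Sum.inl i) * v (Sum.inr i)) := by
      intro u v
      simp only [Cfsg.sympForm, Matrix.J, dotProduct, Fintype.sum_sum_type, Matrix.mulVec, Matrix.fromBlocks_apply₁₁, Matrix.fromBlocks_apply₁₂, Matrix.fromBlocks_apply₂₁, Matrix.fromBlocks_apply₂₂,
        Matrix.zero_apply, zero_mul, Finset.sum_const_zero, zero_add, add_zero, Matrix.neg_apply, Matrix.one_apply, ite_mul, one_mul, neg_mul, Finset.sum_neg_distrib, Finset.sum_ite_eq, Finset.mem_univ, if_true, Finset.mul_sum]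
      simp only [Finset.sum_sub_distrib, neg_zero, ite_mul, mul_ite, zero_mul, mul_zero, one_mul, neg_mul, mul_neg, mul_one, Finset.sum_ite_eq, Finset.mem_univ, if_true, apply_ite Neg.neg, Finset.sum_neg_distrib, Finset.sum_add_distrib]
      ring
    have hδi : ∀ (w : Fin m ⊕ Fin m → F) i, (δ *ᵥ w) (Sum.inl i) = c⁻¹ * w (Sum.inl i) := by
      intro w i
      simp [δ, Matrix.mulVec, dotProduct, Fintype.sum_sum_type, Matrix.one_apply, Matrix.smul_apply]
    have hδr : ∀ (w : Fin m ⊕ Fin m → F) i, (δ *ᵥ w) (Sum.inr i) = w (Sum.inr i) := by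
      intro w i
      simp [δ, Matrix.mulVec, dotProduct, Fintype.sum_sum_type, Matrix.one_apply]
    rw [hsf, hsf, Finset.mul_sum]
    apply Finset.sum_congr rfl
    intro i _
    rw [hδi, hδi, hδr, hδr]
    ring
  have hsp : A₁ * δ ∈ Matrix.symplecticGroup (Fin m) F := by
    apply Cfsg.Agent.Lib.Classical.mem_sp_of_preserves
    intro u v
    rw [← Matrix.mulVec_mulVec, ← Matrix.mulVec_mulVec, h1, hδ, ← mul_assoc, mul_inv_cancel₀ hc, one_mul]
  have hd1 := Cfsg.Agent.Lib.AutPSL.det_sp (F := F) ⟨A₁ * δ, hsp⟩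
  have hd1' : (A₁ * δ).det = 1 := hd1
  have hδd : δ.det = (c⁻¹) ^ m := by
    simp only [δ]
    rw [Matrix.det_fromBlocks_zero₁₂, Matrix.det_one, mul_one, Matrix.det_smul, Matrix.det_one, mul_one, Fintype.card_fin]
  rw [Matrix.det_mul, hδd, hdet] at hd1'
  have h3 : S.det * (c⁻¹) ^ m * c ^ m = c ^ m := by rw [hd1', one_mul]
  rw [mul_assoc, ← mul_pow, inv_mul_cancel₀ hc, one_pow, mul_one] at h3
  exact h3

section main

variable [Fintype F] [h : Good Q] {r : ℕ} {G : Matrix.GeneralLinearGroup ι F}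

theorem Phi_norm (hr : 1 ≤ r) (hrF : (r : F) ≠ 0) (hG : (G : MM) ^ r = 1) {a b : RR r F} (hab : (a * tauR a - b) * (tt + tauR tt - 2) = 0) {z : VV} (hz : SG (G : MM) r *ᵥ z = 0) :
    PhiR (G : MM) hG (a * tauR a) *ᵥ z = PhiR (G : MM) hG b *ᵥ z := by
  obtain ⟨u, hu⟩ := exists_inv_mod (F := F) hr hrF
  have h1 : PhiR (G : MM) hG (1 - algebraMap F (RR r F) (r : F)⁻¹ * SR r F) *ᵥ z = z := by
    rw [map_sub, map_one, map_mul, AlgHom.commutes, ← SG_eq_Phi, Matrix.sub_mulVec, Matrix.one_mulVec, ← Matrix.mulVec_mulVec, hz, Matrix.mulVec_zero, sub_zero]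
  have h3 : (a * tauR a - b) * (1 - algebraMap F (RR r F) (r : F)⁻¹ * SR r F) = 0 := by
    rw [← hu, ← mul_assoc, hab, zero_mul]
  have h4 := congrArg (fun x => PhiR (G : MM) hG x *ᵥ z) h3
  simp only [map_mul (PhiR (G : MM) hG), map_zero, Matrix.zero_mulVec] at h4
  rw [← Matrix.mulVec_mulVec, h1, map_sub, Matrix.sub_mulVec] at h4
  exact sub_eq_zero.1 h4

theorem Phi_Q (h2 : (2 : F) ≠ 0) (hr : 1 ≤ r) (hrF : (r : F) ≠ 0) (hG : (G : MM) ^ r = 1) (hiso : ∀ v, Q ((G : MM) *ᵥ v) = Q v) {a : RR r F} {c : F} (hab : (a * tauR a - algebraMap F (RR r F) c) * (tt + tauR tt - 2) = 0) {z : VV} (hz : SG (G : MM) r *ᵥ z = 0) :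
    Q (PhiR (G : MM) hG a *ᵥ z) = c * Q z := by
  have h1 := PhiR_adj (Q := Q) (G : MM) hG hr hiso a z (PhiR (G : MM) hG a *ᵥ z)
  have h3 := Phi_norm hr hrF hG hab hz
  rw [Matrix.mulVec_mulVec, ← map_mul, mul_comm (tauR a) a, h3, AlgHom.commutes, Algebra.algebraMap_eq_smul_one, Matrix.smul_mulVec, Matrix.one_mulVec, QuadraticMap.polar_smul_right, polar_self_eq, polar_self_eq, smul_eq_mul] at h1
  apply mul_left_cancel₀ h2
  linear_combination h1

theorem gl_iso_inv_comm {s : GG} (hc : s * G = G * s) : (s : MM) * ((G⁻¹ : GG) : MM) = ((G⁻¹ : GG) : MM) * (s : MM) := by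
  have : s * G⁻¹ = G⁻¹ * s := by
    rw [mul_inv_eq_iff_eq_mul, mul_assoc, hc, inv_mul_cancel_left]
  exact congrArg Units.val this

theorem HG_comm {s : GG} (hc : s * G = G * s) : (s : MM) * HG G = HG G * (s : MM) := by
  have h1 : (s : MM) * (G : MM) = (G : MM) * (s : MM) := congrArg Units.val hc
  rw [HG, mul_sub, sub_mul, h1, gl_iso_inv_comm hc]

/-- When there is no fixed vector, the similarity has the right determinant. -/
theorem KP_of_W0_bot (h2 : (2 : F) ≠ 0) (he : Even (Fintype.card ι)) (hro : Odd r) (hG : (G : MM) ^ r = 1) (hiso : ∀ v, Q ((G : MM) *ᵥ v) = Q v) (hW0 : W0 G = ⊥)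
    {s : GG} {c : F} (hc : c ≠ 0) (hsc : s * G = G * s) (hs : ∀ v, Q ((s : MM) *ᵥ v) = c * Q v) : KP Q s := by
  obtain ⟨m, hm⟩ := he
  have hcard : Fintype.card ι = 2 * m := by omega
  refine Or.inl ⟨h2, c, hs, ?_⟩
  rw [hcard, Nat.mul_div_cancel_left _ (by norm_num : 0 < 2)]
  let B : LinearMap.BilinForm F VV := (QuadraticMap.polarBilin Q) ∘ₗ (HG G).mulVecLin
  have hB : ∀ x y, B x y = bb (HG G *ᵥ x) y := fun x y => rfl
  have hzero : ∀ x : VV, HG G *ᵥ x = 0 → x = 0 := by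
    intro x hx
    have h3 : x ∈ W0 G := mem_W0.2 (HG_fixed hro hG hx)
    rw [hW0] at h3
    exact (Submodule.mem_bot F).1 h3
  apply det_of_alt_sim hcard B _ _ (s : MM) hc
  · intro x y
    have e : HG G *ᵥ ((s : MM) *ᵥ x) = (s : MM) *ᵥ (HG G *ᵥ x) := by
      rw [Matrix.mulVec_mulVec, Matrix.mulVec_mulVec, HG_comm hsc]
    rw [hB, hB, e, sim_polar hs]
  · intro x
    rw [hB]
    have h3 := HG_skew hiso x x
    have h4 : (2 : F) * bb (HG G *ᵥ x) x = 0 := by
      rw [QuadraticMap.polar_comm _ x (HG G *ᵥ x)] at h3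
      linear_combination h3
    exact (mul_eq_zero.1 h4).resolve_left h2
  · constructor
    · intro x hx
      apply hzero
      apply h.nd.1
      intro y
      exact hx y
    · intro y hy
      apply hzero
      apply h.nd.1
      intro x
      have h3 := hy x
      rw [hB, HG_skew hiso] at h3
      show bb (HG G *ᵥ y) x = 0
      rw [QuadraticMap.polar_comm]
      exact neg_eq_zero.1 h3

/-- A similarity commuting with the isometry, with prescribed multiplier. -/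
theorem exists_comm_sim (h2 : (2 : F) ≠ 0) (he : Even (Fintype.card ι)) (hr3 : 3 ≤ r) (hro : Odd r) (hrF : (r : F) ≠ 0) (hG : (G : MM) ^ r = 1) (hiso : ∀ v, Q ((G : MM) *ᵥ v) = Q v)
    {c : F} (hc : c ≠ 0) : ∃ s : GG, s * G = G * s ∧ (∀ v, Q ((s : MM) *ᵥ v) = c * Q v) ∧ KP Q s := by
  classical
  have hr1 : 1 ≤ r := by omega
  have hr2 : 2 ≤ r := by omega
  have hev : Even (Module.finrank F (W0 G)) := by
    have h1 := W_finrank hrF hG
    have h3 := W1_even (Q := Q) h2 hr2 hro hrF hG hiso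
    rw [← h1] at he
    exact (Nat.even_add.1 he).2 h3
  obtain ⟨n₀, hn₀⟩ := hev
  obtain ⟨s₀, hs₀W, hs₀Q, -⟩ := exists_sim_on (Q := Q) h2 (c := c) n₀ (W0 G) (by omega) (W0_nondeg hr2 hrF hG hiso)
  obtain ⟨α, β, hαβ⟩ := exists_norm hr3 hro h2 hrF (algebraMap F (R0 r F) c)
  set a : RR r F := (α : RR r F) + (β : RR r F) * tt with ha
  have hab : (a * tauR a - algebraMap F (RR r F) c) * (tt + tauR tt - 2) = 0 := hαβ
  set A : MM := PhiR (G : MM) hG a with hA
  let P : VV → VV := fun v => (r : F)⁻¹ • (SG (G : MM) r *ᵥ v)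
  have hPW0 : ∀ v, P v ∈ W0 G := fun v => mem_W0.2 (pi_fixed hG v)
  have hPW1 : ∀ v, v - P v ∈ W1 G r := fun v => mem_W1.2 (pi_ker hrF hG v)
  have hAW1 : ∀ z ∈ W1 G r, A *ᵥ z ∈ W1 G r := by
    intro z hz
    rw [mem_W1, Matrix.mulVec_mulVec, SG_eq_Phi hG, hA, ← map_mul, mul_comm, map_mul, ← Matrix.mulVec_mulVec, ← SG_eq_Phi hG, mem_W1.1 hz, Matrix.mulVec_zero]
  let T : VV →ₗ[F] VV := A.mulVecLin ∘ₗ (LinearMap.id - ((r : F)⁻¹ • (SG (G : MM) r).mulVecLin)) + s₀ ∘ₗ ((r : F)⁻¹ • (SG (G : MM) r).mulVecLin)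
  have hT : ∀ v, T v = A *ᵥ (v - P v) + s₀ (P v) := fun v => rfl
  let C : MM := LinearMap.toMatrix' T
  have hCT : ∀ v, C *ᵥ v = A *ᵥ (v - P v) + s₀ (P v) := by
    intro v
    show LinearMap.toMatrix' T *ᵥ v = _
    rw [LinearMap.toMatrix'_mulVec, hT]
  have hCQ : ∀ v, Q (C *ᵥ v) = c * Q v := by
    intro v
    have hv : v = P v + (v - P v) := by abel
    have e1 : Q v = Q (P v) + Q (v - P v) := by
      conv_lhs => rw [hv]
      rw [Q_add', W_orth hr2 hrF hG hiso (hPW0 v) (hPW1 v), add_zero]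
    have h3 : bb (A *ᵥ (v - P v)) (s₀ (P v)) = 0 := by
      rw [QuadraticMap.polar_comm]
      exact W_orth hr2 hrF hG hiso (hs₀W _ (hPW0 v)) (hAW1 _ (hPW1 v))
    rw [hCT, Q_add', h3, add_zero, hs₀Q _ (hPW0 v), hA, Phi_Q h2 hr1 hrF hG hiso hab (mem_W1.1 (hPW1 v)), e1]
    ring
  have hCG : C * (G : MM) = (G : MM) * C := by
    apply matrix_ext
    intro v
    rw [← Matrix.mulVec_mulVec, ← Matrix.mulVec_mulVec, hCT, hCT]
    have hPG : P ((G : MM) *ᵥ v) = P v := by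
      show (r : F)⁻¹ • (SG (G : MM) r *ᵥ ((G : MM) *ᵥ v)) = _
      rw [Matrix.mulVec_mulVec, SG_M hG]
    have hGP : (G : MM) *ᵥ P v = P v := mem_W0.1 (hPW0 v)
    rw [hPG, Matrix.mulVec_add, mem_W0.1 (hs₀W _ (hPW0 v))]
    congr 1
    have e2 : (G : MM) *ᵥ v - P v = (G : MM) *ᵥ (v - P v) := by
      rw [Matrix.mulVec_sub, hGP]
    rw [e2, Matrix.mulVec_mulVec, Matrix.mulVec_mulVec, hA, PhiR_mulVec_comm]
  have hinj : Function.Injective C.mulVec := by
    show Function.Injective C.mulVecLin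
    rw [injective_iff_map_eq_zero (C.mulVecLin)]
    intro x hx
    have hx' : C *ᵥ x = 0 := hx
    apply h.nd.1
    intro y
    show bb x y = 0
    have h3 := sim_polar hCQ x y
    rw [hx'] at h3
    have h4 : bb 0 (C *ᵥ y) = 0 := by simp
    rw [h4] at h3
    exact (mul_eq_zero.1 h3.symm).resolve_left hc
  have hu : IsUnit C := Matrix.mulVec_injective_iff_isUnit.1 hinj
  let s : GG := hu.unit
  have hsC : (s : MM) = C := hu.unit_spec
  have hsc : s * G = G * s := by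
    apply Units.ext
    show (s : MM) * (G : MM) = (G : MM) * (s : MM)
    rw [hsC, hCG]
  have hsQ : ∀ v, Q ((s : MM) *ᵥ v) = c * Q v := by
    intro v
    rw [hsC, hCQ]
  by_cases hW0 : W0 G = ⊥
  · exact ⟨s, hsc, hsQ, KP_of_W0_bot h2 he hro hG hiso hW0 hc hsc hsQ⟩
  · obtain ⟨u, huW, hQu⟩ := exists_nonsing (W0_nondeg hr2 hrF hG hiso) hW0
    have hsS : s ∈ Sim Q := ⟨Units.mk0 c hc, hsQ⟩
    have huG : (G : MM) *ᵥ u = u := mem_W0.1 huW
    have hrG : (G : MM) * rr Q u = rr Q u * (G : MM) := by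
      have := rr_conj' (Q := Q) (g := G) (c := 1) one_ne_zero (fun v => by rw [one_mul]; exact hiso v) hQu
      rwa [huG] at this
    rcases KP_or he h.nd (hq_of_good Q) hsS hQu with hK | hK
    · exact ⟨s, hsc, hsQ, hK⟩
    · refine ⟨(rO Q u).1 * s, ?_, ?_, hK⟩
      · apply Units.ext
        show OG.mat (rO Q u) * (s : MM) * (G : MM) = (G : MM) * (OG.mat (rO Q u) * (s : MM))
        have h3 : (s : MM) * (G : MM) = (G : MM) * (s : MM) := congrArg Units.val hsc
        rw [rO_mat hQu, mul_assoc, h3, ← mul_assoc, ← mul_assoc, hrG]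
      · intro v
        show Q ((OG.mat (rO Q u) * (s : MM)) *ᵥ v) = _
        rw [rO_mat hQu, ← Matrix.mulVec_mulVec]
        rw [reflection_Q Q u _ hQu, hsQ]

end main

end Cfsg.Agent.Lib.AutPOm
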