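import Cfsg.Agent.Lib.AutPOm.GrOdd3

/-! Automorphisms of odd prime order induced by similarities: conjugacy under subgroups. -/

set_option autoImplicit false
set_option linter.unusedSimpArgs false
set_option linter.unusedVariables false
set_option linter.unusedSectionVars false

namespace Cfsg.Agent.Lib.AutPOm

open Matrix Module Polynomial Cfsg.Agent.Lib.Classical
open Cfsg.Agent.Lib.Classical (polar_self_eq reflection_Q)
open Cfsg.Agent.Lib.ClassMax.OmegaCore (mem_iso_iff)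
open Cfsg.Agent.Lib.AutPSL (coe_scalar_mul)
open Cfsg.Agent.Lib.Spinor (rr rO rO_mat matrix_ext OG.mat)
open scoped MatrixGroups

section groups

variable {X : Type*} [Group X]

theorem conjUnder_mono {A B : Subgroup X} (hAB : A ≤ B) {x y : X} (h : Cfsg.IsConjUnder A x y) : Cfsg.IsConjUnder B x y := by
  obtain ⟨a, ha, e⟩ := h
  exact ⟨a, hAB ha, e⟩

theorem conjUnder_of_factor {A B : Subgroup X} {x y : X} (hf : ∀ b ∈ B, ∃ a ∈ A, ∃ z, z * x = x * z ∧ b = a * z) (h : Cfsg.IsConjUnder B x y) : Cfsg.IsConjUnder A x y := by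
  obtain ⟨b, hb, e⟩ := h
  obtain ⟨a, ha, z, hz, rfl⟩ := hf b hb
  refine ⟨a, ha, ?_⟩
  rw [e, _root_.mul_inv_rev, mul_assoc a z x, hz]
  group

end groups

variable {F : Type*} [Field F] {ι : Type} [Fintype ι] [DecidableEq ι] {Q : QuadraticForm F (ι → F)}

local notation "VV" => (ι → F)
local notation "MM" => Matrix ι ι F
local notation "GG" => Matrix.GeneralLinearGroup ι F
local notation "bb" => QuadraticMap.polar (DFunLike.coe Q)

theorem poAut_le_pgo [Fintype F] [h : Good Q] : Cfsg.poAut F (⇑Q) ≤ Cfsg.pgoAut F (⇑Q) := by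
  rw [Cfsg.poAut, Cfsg.autSubgroupOf, Subgroup.closure_le]
  rintro β ⟨g, hg, hi⟩
  exact Subgroup.subset_closure ⟨g, og_le_sim hg, hi⟩

theorem ogAut_mem_po [Fintype F] [h : Good Q] (A : OG Q) : ogAut A ∈ Cfsg.poAut F (⇑Q) :=
  Subgroup.subset_closure ⟨A.1, A.2, psemiO_induced _ _ _⟩

section main

variable [Fintype F] [h : Good Q] {r : ℕ}

/-- Normal form of an automorphism of odd order induced by a similarity. -/
theorem normal_form (hne : ∃ v : VV, Q v ≠ 0) (hro : Odd r) {x : MulAut (PO Q)} (hx : x ∈ Cfsg.pgoAut F (⇑Q)) (hxr : x ^ r = 1) :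
    ∃ (G : GG) (hG : G ∈ Sim Q), x = simAut ⟨G, hG⟩ ∧ (G : MM) ^ r = 1 ∧ ∀ v, Q ((G : MM) *ᵥ v) = Q v := by
  classical
  rw [pgoAut_eq_range] at hx
  obtain ⟨⟨g, hg⟩, rfl⟩ := hx
  obtain ⟨k, rfl⟩ := hro
  have hg' := hg
  obtain ⟨c, hc⟩ := hg'
  have h1 : simAut (Q := Q) ⟨g ^ (2 * k + 1), Subgroup.pow_mem _ hg _⟩ = 1 := by
    rw [← hxr, ← map_pow]
    rfl
  rw [simAut_apply, psemiO_eq_one_iff] at h1
  obtain ⟨l, hl0, hl⟩ := h1
  have hl' : (g : MM) ^ (2 * k + 1) = l • (1 : MM) := by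
    rw [← hl]
    simp
  have hQp : ∀ n : ℕ, ∀ v, Q (((g : MM) ^ n) *ᵥ v) = (c : F) ^ n * Q v := by
    intro n
    induction n with
    | zero => simp
    | succ n ih =>
      intro v
      rw [pow_succ, ← Matrix.mulVec_mulVec, ih, hc, pow_succ]
      ring
  obtain ⟨v₀, hv₀⟩ := hne
  have hc0 : (c : F) ≠ 0 := c.ne_zero
  have hcr : (c : F) ^ (2 * k + 1) = l ^ 2 := by
    have h3 := hQp (2 * k + 1) v₀
    rw [hl', Matrix.smul_mulVec, Matrix.one_mulVec, QuadraticMap.map_smul, smul_eq_mul] at h3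
    apply mul_right_cancel₀ hv₀
    rw [← h3]
    ring
  set u : F := (c : F) ^ k / l with hu
  have hu0 : u ≠ 0 := div_ne_zero (pow_ne_zero _ hc0) hl0
  have hu2 : u ^ 2 * c = 1 := by
    rw [hu]
    field_simp
    rw [← hcr]
    ring
  set μ : F := u ^ (2 * k + 1) * l with hμ
  have hμ2 : μ ^ 2 = 1 := by
    have e : μ ^ 2 = (u ^ 2 * c) ^ (2 * k + 1) := by
      rw [hμ, mul_pow, mul_pow (u ^ 2), hcr]
      ring
    rw [e, hu2, one_pow]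
  have hμ0 : μ ≠ 0 := by
    intro h0
    rw [h0] at hμ2
    norm_num at hμ2
  set d : F := μ * u with hd
  have hd0 : d ≠ 0 := mul_ne_zero hμ0 hu0
  have hd2 : d ^ 2 * c = 1 := by
    rw [hd, mul_pow, hμ2, one_mul, hu2]
  have hdr : d ^ (2 * k + 1) * l = 1 := by
    have e : d ^ (2 * k + 1) * l = (μ ^ 2) ^ (k + 1) := by
      rw [hd, mul_pow, mul_assoc, ← hμ]
      ring
    rw [e, hμ2, one_pow]
  let G : GG := Matrix.GeneralLinearGroup.scalar ι (Units.mk0 d hd0) * g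
  have hGm : (G : MM) = d • (g : MM) := by
    show ((Matrix.GeneralLinearGroup.scalar ι (Units.mk0 d hd0) * g : GG) : MM) = _
    rw [coe_scalar_mul]
    rfl
  have hGS : G ∈ Sim Q := Subgroup.mul_mem _ (sim_scalar _) hg
  refine ⟨G, hGS, ?_, ?_, ?_⟩
  · rw [simAut_apply, simAut_apply]
    exact (psemiO_smul_eq _ _ _ hGm hd0).symm
  · rw [hGm, _root_.smul_pow, hl', smul_smul, hdr, one_smul]
  · intro v
    rw [hGm, Matrix.smul_mulVec, QuadraticMap.map_smul, hc, smul_eq_mul]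
    linear_combination (Q v) * hd2

theorem simAut_comm {G s : GG} (hG : G ∈ Sim Q) (hs : s ∈ Sim Q) (hc : s * G = G * s) : simAut (Q := Q) ⟨s, hs⟩ * simAut ⟨G, hG⟩ = simAut ⟨G, hG⟩ * simAut ⟨s, hs⟩ := by
  rw [← map_mul, ← map_mul]
  congr 1
  exact Subtype.ext hc

/-- Factorisation of the similarity image. -/
theorem factor_pgo (h2 : (2 : F) ≠ 0) (he : Even (Fintype.card ι)) (hr3 : 3 ≤ r) (hro : Odd r) (hrF : (r : F) ≠ 0) {G : GG} (hGS : G ∈ Sim Q) (hG : (G : MM) ^ r = 1) (hiso : ∀ v, Q ((G : MM) *ᵥ v) = Q v) :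
    ∀ b ∈ Cfsg.pgoAut F (⇑Q), ∃ a ∈ Cfsg.poAut F (⇑Q), ∃ z, z * simAut (Q := Q) ⟨G, hGS⟩ = simAut ⟨G, hGS⟩ * z ∧ b = a * z := by
  intro b hb
  rw [pgoAut_eq_range] at hb
  obtain ⟨⟨t, ht⟩, rfl⟩ := hb
  have ht' := ht
  obtain ⟨c, hc⟩ := ht'
  obtain ⟨s, hsc, hsQ, -⟩ := exists_comm_sim (Q := Q) h2 he hr3 hro hrF hG hiso c.ne_zero
  have hsS : s ∈ Sim Q := ⟨c, hsQ⟩
  have hmem : t * s⁻¹ ∈ Cfsg.isometryGroup F (⇑Q) := by
    rw [mem_iso_iff]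
    intro v
    have e : v = (s : MM) *ᵥ (((s⁻¹ : GG) : MM) *ᵥ v) := (gl_mul_inv s v).symm
    have h1 : Q ((s : MM) *ᵥ (((s⁻¹ : GG) : MM) *ᵥ v)) = c * Q (((s⁻¹ : GG) : MM) *ᵥ v) := hsQ _
    rw [← e] at h1
    have h3 : (((t * s⁻¹ : GG)) : MM) *ᵥ v = (t : MM) *ᵥ (((s⁻¹ : GG) : MM) *ᵥ v) := by
      rw [Matrix.mulVec_mulVec]
      rfl
    rw [h3, hc, h1]
  refine ⟨ogAut ⟨t * s⁻¹, hmem⟩, ogAut_mem_po _, simAut ⟨s, hsS⟩, simAut_comm hGS hsS hsc, ?_⟩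
  show _ = simAut _ * _
  rw [← map_mul]
  congr 1
  apply Subtype.ext
  show t = t * s⁻¹ * s
  group

/-- Factorisation of the inner-diagonal group. -/
theorem factor_GD (h2 : (2 : F) ≠ 0) (he : Even (Fintype.card ι)) (hne : ∃ v : VV, Q v ≠ 0) (hr3 : 3 ≤ r) (hro : Odd r) (hrF : (r : F) ≠ 0) {G : GG} (hGS : G ∈ Sim Q) (hG : (G : MM) ^ r = 1) (hiso : ∀ v, Q ((G : MM) *ᵥ v) = Q v)
    (hE2 : ∃ w : ↥(SOg Q), w.1.1 * G = G * w.1.1 ∧ muO (hq_of_good Q) w = -1) :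
    ∀ b ∈ GD he hne, ∃ a ∈ Cfsg.Inn (PO Q), ∃ z, z * simAut (Q := Q) ⟨G, hGS⟩ = simAut ⟨G, hGS⟩ * z ∧ b = a * z := by
  intro b hb
  obtain ⟨t, ht, hKt, rfl⟩ := mem_GD.1 hb
  have ht' := ht
  obtain ⟨c, hc⟩ := ht'
  obtain ⟨s, hsc, hsQ, hKs⟩ := exists_comm_sim (Q := Q) h2 he hr3 hro hrF hG hiso c.ne_zero
  have hsS : s ∈ Sim Q := ⟨c, hsQ⟩
  have hqg := hq_of_good Q
  -- the quotient lies in the special orthogonal image
  have hL : Lam he hne (⟨t, ht⟩ * (⟨s, hsS⟩ : ↥(Sim Q))⁻¹) = 1 := by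
    rw [map_mul, map_inv]
    have e : Lam he hne ⟨t, ht⟩ = Lam he hne ⟨s, hsS⟩ := by
      apply Prod.ext
      · rw [Lam_fst, Lam_fst, simMu_eq hne ⟨t, ht⟩ hc, simMu_eq hne ⟨s, hsS⟩ hsQ]
      · rw [Lam_snd, Lam_snd, (kapS_eq_one_iff he hne _).2 hKt, (kapS_eq_one_iff he hne _).2 hKs]
    rw [e, mul_inv_cancel]
  have hpso := (simAut_mem_pso_iff h2 he hne _).2 hL
  rw [psoAut_eq_range] at hpso
  obtain ⟨u, hu⟩ := hpso
  have hb' : psemiO t (RingEquiv.refl F) (semi_of_sim ht) = soAut u * simAut ⟨s, hsS⟩ := by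
    rw [hu, map_mul, map_inv, inv_mul_cancel_right]
    rfl
  rw [hb']
  have hcz := simAut_comm hGS hsS hsc
  by_cases hμ : muO hqg u = 1
  · exact ⟨soAut u, mem_inn_of_mu h2 hqg u hμ, _, hcz, rfl⟩
  · obtain ⟨w, hwc, hwμ⟩ := hE2
    have hμ' : muO hqg u = -1 := (Int.units_eq_one_or _).resolve_left hμ
    have hm1 : muO hqg (u * w⁻¹) = 1 := by
      rw [map_mul, map_inv, hμ', hwμ]
      decide
    have hcw : soAut (Q := Q) w * simAut (Q := Q) ⟨G, hGS⟩ = simAut ⟨G, hGS⟩ * soAut w := simAut_comm hGS (og_le_sim w.1.2) hwc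
    refine ⟨soAut (u * w⁻¹), mem_inn_of_mu h2 hqg _ hm1, soAut w * simAut ⟨s, hsS⟩, ?_, ?_⟩
    · rw [mul_assoc, hcz, ← mul_assoc, hcw, mul_assoc]
    · rw [map_mul, map_inv]
      group

/-- The generic statement. -/
theorem gr_odd_wrap (h2 : (2 : F) ≠ 0) (he : Even (Fintype.card ι)) (hne : ∃ v : VV, Q v ≠ 0) (hr3 : 3 ≤ r) (hro : Odd r) (hrF : (r : F) ≠ 0) {x : MulAut (PO Q)} (hx : x ∈ Cfsg.pgoAut F (⇑Q)) (hxr : orderOf x = r)
    (hE2 : ∀ G : GG, (G : MM) ^ r = 1 → (∀ v, Q ((G : MM) *ᵥ v) = Q v) → ∃ w : ↥(SOg Q), w.1.1 * G = G * w.1.1 ∧ muO (hq_of_good Q) w = -1) :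
    (∀ y : MulAut (PO Q), (Cfsg.IsConjUnder (Cfsg.Inn (PO Q)) x y ↔ Cfsg.IsConjUnder (GD he hne) x y) ∧ (Cfsg.IsConjUnder (Cfsg.psoAut F (⇑Q)) x y ↔ Cfsg.IsConjUnder (GD he hne) x y)) ∧
      (∀ y : MulAut (PO Q), Cfsg.IsConjUnder (Cfsg.poAut F (⇑Q)) x y ↔ Cfsg.IsConjUnder (Cfsg.pgoAut F (⇑Q)) x y) := by
  obtain ⟨G, hGS, rfl, hG, hiso⟩ := normal_form (Q := Q) hne hro hx (by rw [← hxr, pow_orderOf_eq_one])
  have hf1 := factor_GD (Q := Q) h2 he hne hr3 hro hrF hGS hG hiso (hE2 G hG hiso)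
  have hf2 := factor_pgo (Q := Q) h2 he hr3 hro hrF hGS hG hiso
  refine ⟨fun y => ⟨⟨conjUnder_mono (inn_le_GD he hne), conjUnder_of_factor hf1⟩, ⟨conjUnder_mono (pso_le_GD h2 he hne), fun h1 => conjUnder_mono (inn_le_pso h2) (conjUnder_of_factor hf1 h1)⟩⟩, fun y => ⟨conjUnder_mono poAut_le_pgo, conjUnder_of_factor hf2⟩⟩

end main

end Cfsg.Agent.Lib.AutPOm
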