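import Cfsg.Agent.Lib.AutPOm.GrMain

/-! Involutory graph automorphisms of the plus-type groups. -/

set_option autoImplicit false
set_option linter.unusedSimpArgs false
set_option linter.unusedVariables false
set_option linter.unusedSectionVars false

namespace Cfsg.Agent.Lib.AutPOm

variable {F : Type*} [Field F] [Fintype F] {m : ℕ}

theorem gr_plus_core (hm : 4 ≤ m) (h2 : (2 : F) ≠ 0) (hne : ∃ v : Fin m ⊕ Fin m → F, hypQF m F v ≠ 0) (γ : MulAut (PO (hypQF m F))) {g : GL (Fin m ⊕ Fin m) F} (hg : g ∈ Sim (hypQF m F))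
    (hK : ¬ KP (hypQF m F) g) (hγ : γ = simAut ⟨g, hg⟩) (hγ2 : orderOf γ = 2) :
    (Cfsg.splitClassCount (GD (even_II m) hne) (Cfsg.Inn (PO (hypQF m F))) γ = 1 ∨ Cfsg.splitClassCount (GD (even_II m) hne) (Cfsg.Inn (PO (hypQF m F))) γ = 2) ∧
      (¬ (Odd m ∧ Fintype.card F % 4 = 3) → Cfsg.splitClassCount (GD (even_II m) hne) (Cfsg.Inn (PO (hypQF m F))) γ = 2) := by
  have hG : Good (hypQF m F) := good_hyp hm
  have hX : simAut (Q := hypQF m F) ⟨g, hg⟩ * simAut ⟨g, hg⟩ = 1 := by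
    rw [← hγ, ← pow_two, ← hγ2, pow_orderOf_eq_one]
  have hiff := hneg_plus_iff (F := F) (m := m) h2 hm
  by_cases hneg : muO (hq_of_good (hypQF m F)) (negS (Q := hypQF m F) (even_II m)) = 1
  · have h2c := split_gr_two h2 (even_II m) hne hneg hg hK hX
    rw [← hγ] at h2c
    exact ⟨Or.inr h2c, fun _ => h2c⟩
  · refine ⟨split_gr_le h2 (even_II m) hne hneg γ, fun h3 => ?_⟩
    exact absurd (hiff.2 h3) hneg

/-- `S2718`. -/
theorem gr_plus (hodd : Odd (Fintype.card F)) (hm : 4 ≤ m) (γ : MulAut (Cfsg.POmega F (Cfsg.quadFormPlus m F))) (hγ : Cfsg.IsSimilarityGraphAutPOmegaPlus m γ) (hγ2 : orderOf γ = 2) :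
    (Cfsg.splitClassCount (Cfsg.inndiagPOmegaPlus m F) (Cfsg.Inn (Cfsg.POmega F (Cfsg.quadFormPlus m F))) γ = 1 ∨ Cfsg.splitClassCount (Cfsg.inndiagPOmegaPlus m F) (Cfsg.Inn (Cfsg.POmega F (Cfsg.quadFormPlus m F))) γ = 2) ∧ (¬ (Odd m ∧ Fintype.card F % 4 = 3) → Cfsg.splitClassCount (Cfsg.inndiagPOmegaPlus m F) (Cfsg.Inn (Cfsg.POmega F (Cfsg.quadFormPlus m F))) γ = 2) := by
  classical
  have hm3 : 3 ≤ m := by omega
  have hG : Good (hypQF m F) := good_hyp hm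
  have h2 : (2 : F) ≠ 0 := two_ne_gr hodd
  have hne := ne_of_good (Q := hypQF m F)
  have einn := inndiag_plus_eq (F := F) (m := m) hm3 hne
  obtain ⟨g, hg, hKn, hind⟩ := hγ
  have hg' : g ∈ Sim (hypQF m F) := hg
  have hK : ¬ KP (hypQF m F) g := fun h3 => hKn ((hyp_link hm3 hg').2 h3)
  have hγe := induced_eq (Q := hypQF m F) (hs := semi_of_sim hg') hind
  rw [einn]
  exact gr_plus_core hm h2 hne γ hg' hK hγe hγ2

end Cfsg.Agent.Lib.AutPOm
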