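import Cfsg.Agent.Lib.AutPOm.GrMain

/-! The group ring of a cyclic group of odd order and the norm equation. -/

set_option autoImplicit false
set_option linter.unusedSimpArgs false
set_option linter.unusedVariables false
set_option linter.unusedSectionVars false

namespace Cfsg.Agent.Lib.AutPOm

open Matrix Module Polynomial

section solve

theorem solve_field {k : Type*} [Field k] [Finite k] (y b : k) (h2 : (2 : k) ≠ 0) (hy2 : y + 2 ≠ 0) :
    ∃ α β : k, (α ^ 2 + y * α * β + β ^ 2 - b) * (y - 2) = 0 := by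
  classical
  have : Fintype k := Fintype.ofFinite k
  by_cases hy : y = 2
  · exact ⟨0, 0, by rw [hy]; ring⟩
  have hy' : y - 2 ≠ 0 := sub_ne_zero.2 hy
  have h4 : (4 : k) ≠ 0 := by
    have : (4 : k) = 2 * 2 := by norm_num
    rw [this]
    exact mul_ne_zero h2 h2
  have hB : 1 - y ^ 2 / 4 ≠ 0 := by
    intro h0
    have h3 : (y - 2) * (y + 2) = 0 := by
      field_simp at h0
      linear_combination -h0
    rcases mul_eq_zero.1 h3 with h5 | h5
    · exact hy' h5
    · exact hy2 h5
  obtain ⟨x, t, hxt⟩ := exists_two_sq h2 one_ne_zero hB b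
  refine ⟨x - y * t / 2, t, ?_⟩
  have e : (x - y * t / 2) ^ 2 + y * (x - y * t / 2) * t + t ^ 2 = 1 * x ^ 2 + (1 - y ^ 2 / 4) * t ^ 2 := by
    field_simp
    ring
  rw [e, hxt, sub_self, zero_mul]

variable {S : Type*} [CommRing S] [Finite S] [IsReduced S]

theorem solve_binary (y b : S) (h2 : IsUnit (2 : S)) (hy2 : IsUnit (y + 2)) : ∃ α β : S, (α ^ 2 + y * α * β + β ^ 2 - b) * (y - 2) = 0 := by
  classical
  have key : ∀ I : MaximalSpectrum S, ∃ α β : S ⧸ I.asIdeal, (α ^ 2 + (Ideal.Quotient.mk I.asIdeal y) * α * β + β ^ 2 - Ideal.Quotient.mk I.asIdeal b) * (Ideal.Quotient.mk I.asIdeal y - 2) = 0 := by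
    intro I
    let _ : Field (S ⧸ I.asIdeal) := Ideal.Quotient.field I.asIdeal
    have hf : Finite (S ⧸ I.asIdeal) := Finite.of_surjective (Ideal.Quotient.mk I.asIdeal) Ideal.Quotient.mk_surjective
    have e2 : Ideal.Quotient.mk I.asIdeal 2 = 2 := map_ofNat _ 2
    have h2' : (2 : S ⧸ I.asIdeal) ≠ 0 := by
      have := h2.map (Ideal.Quotient.mk I.asIdeal)
      rw [e2] at this
      exact this.ne_zero
    have hy' : Ideal.Quotient.mk I.asIdeal y + 2 ≠ 0 := by
      have := hy2.map (Ideal.Quotient.mk I.asIdeal)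
      rw [map_add, e2] at this
      exact this.ne_zero
    exact solve_field _ _ h2' hy'
  choose a' b' hab using key
  let E := IsArtinianRing.equivPi S
  have hE : ∀ (x : S) (I : MaximalSpectrum S), E x I = Ideal.Quotient.mk I.asIdeal x := fun x I => rfl
  refine ⟨E.symm a', E.symm b', ?_⟩
  apply E.injective
  funext I
  have h1 : ∀ f : ∀ I : MaximalSpectrum S, S ⧸ I.asIdeal, Ideal.Quotient.mk I.asIdeal (E.symm f) = f I := by
    intro f
    rw [← hE, AlgEquiv.apply_symm_apply]
  rw [hE, map_zero]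
  simp only [map_mul, map_sub, map_add, map_pow, h1, map_ofNat]
  exact hab I

/-- A non-trivial component of a finite reduced ring acting on a matrix algebra. -/
theorem exists_component {M : Type*} [Ring M] [Nontrivial M] (ψ : S →+* M) :
    ∃ (I : MaximalSpectrum S) (e : S), e * e = e ∧ ψ e ≠ 0 ∧ ∀ z ∈ I.asIdeal, z * e = 0 := by
  classical
  let E := IsArtinianRing.equivPi S
  have hE : ∀ (x : S) (I : MaximalSpectrum S), E x I = Ideal.Quotient.mk I.asIdeal x := fun x I => rfl
  have h1 : ∀ f : ∀ I : MaximalSpectrum S, S ⧸ I.asIdeal, ∀ I, Ideal.Quotient.mk I.asIdeal (E.symm f) = f I := by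
    intro f I
    rw [← hE, AlgEquiv.apply_symm_apply]
  have : Fintype (MaximalSpectrum S) := Fintype.ofFinite _
  let e : MaximalSpectrum S → S := fun I => E.symm (Pi.single I 1)
  have hsum : ∑ I, e I = 1 := by
    apply E.injective
    rw [map_sum, map_one]
    funext J
    rw [Finset.sum_apply]
    simp only [e, AlgEquiv.apply_symm_apply]
    rw [Finset.sum_eq_single J]
    · simp
    · intro I _ hI
      exact Pi.single_eq_of_ne (Ne.symm hI) _
    · simp
  have hex : ∃ I, ψ (e I) ≠ 0 := by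
    by_contra hno
    push Not at hno
    have : ψ (∑ I, e I) = 0 := by
      rw [map_sum]
      exact Finset.sum_eq_zero (fun I _ => hno I)
    rw [hsum, map_one] at this
    exact one_ne_zero this
  obtain ⟨I, hI⟩ := hex
  refine ⟨I, e I, ?_, hI, ?_⟩
  · apply E.injective
    rw [map_mul]
    simp only [e, AlgEquiv.apply_symm_apply]
    funext J
    by_cases hJ : J = I
    · subst hJ
      simp
    · simp [Pi.single_eq_of_ne hJ]
  · intro z hz
    apply E.injective
    rw [map_mul, map_zero]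
    simp only [e, AlgEquiv.apply_symm_apply]
    funext J
    by_cases hJ : J = I
    · subst hJ
      simp only [Pi.mul_apply, Pi.single_eq_same, mul_one, Pi.zero_apply]
      rw [hE]
      exact Ideal.Quotient.eq_zero_iff_mem.2 hz
    · simp [Pi.single_eq_of_ne hJ]

end solve

section groupRing

variable {F : Type*} [Field F] {r : ℕ}

/-- The group ring of the cyclic group of order `r`. -/
def RR (r : ℕ) (F : Type*) [Field F] := AdjoinRoot (X ^ r - C 1 : F[X])

noncomputable instance : CommRing (RR r F) := inferInstanceAs (CommRing (AdjoinRoot (X ^ r - C 1 : F[X])))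

noncomputable instance : Algebra F (RR r F) := inferInstanceAs (Algebra F (AdjoinRoot (X ^ r - C 1 : F[X])))

/-- The generator. -/
noncomputable def tt : RR r F := AdjoinRoot.root (X ^ r - C 1 : F[X])

theorem tt_pow : (tt : RR r F) ^ r = 1 := by
  have h := AdjoinRoot.mk_self (f := (X ^ r - C 1 : F[X]))
  have e : (AdjoinRoot.mk (X ^ r - C 1 : F[X])) (X ^ r - C 1) = (AdjoinRoot.root (X ^ r - C 1 : F[X])) ^ r - (1 : AdjoinRoot (X ^ r - C 1 : F[X])) := by
    simp only [map_sub, map_pow, AdjoinRoot.mk_X, AdjoinRoot.mk_C, map_one]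
  rw [e] at h
  exact sub_eq_zero.1 h

/-- The map to an algebra. -/
noncomputable def liftRR {T : Type*} [Ring T] [Algebra F T] (x : T) (hx : x ^ r = 1) : RR r F →ₐ[F] T :=
  Ideal.Quotient.liftₐ (Ideal.span {(X ^ r - C 1 : F[X])}) (aeval x) (by
    intro a ha
    obtain ⟨c, rfl⟩ := Ideal.mem_span_singleton'.1 ha
    rw [map_mul, map_sub, map_pow, aeval_X, aeval_C, hx, map_one, sub_self, mul_zero])

/-- Polynomials in the generator. -/
noncomputable def mkR (p : F[X]) : RR r F := AdjoinRoot.mk (X ^ r - C 1 : F[X]) p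

theorem mkR_X : mkR (r := r) (X : F[X]) = tt := AdjoinRoot.mk_X

theorem mkR_surj (x : RR r F) : ∃ p : F[X], mkR p = x := AdjoinRoot.mk_surjective x

theorem mkR_add (p q : F[X]) : mkR (r := r) (p + q) = mkR p + mkR q := map_add (AdjoinRoot.mk (X ^ r - C 1 : F[X])) p q

theorem mkR_mul (p q : F[X]) : mkR (r := r) (p * q) = mkR p * mkR q := map_mul (AdjoinRoot.mk (X ^ r - C 1 : F[X])) p q

theorem mkR_pow (p : F[X]) (n : ℕ) : mkR (r := r) (p ^ n) = mkR p ^ n := map_pow (AdjoinRoot.mk (X ^ r - C 1 : F[X])) p n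

theorem mkR_C (a : F) : mkR (r := r) (C a) = algebraMap F (RR r F) a := rfl

theorem liftRR_mk {T : Type*} [Ring T] [Algebra F T] (x : T) (hx : x ^ r = 1) (p : F[X]) : liftRR (F := F) x hx (mkR p : RR r F) = aeval x p := rfl

theorem liftRR_tt {T : Type*} [Ring T] [Algebra F T] (x : T) (hx : x ^ r = 1) : liftRR (F := F) x hx (tt : RR r F) = x := by
  rw [← mkR_X, liftRR_mk, aeval_X]

theorem tt_inv_pow : ((tt : RR r F) ^ (r - 1)) ^ r = 1 := by
  rw [← pow_mul, mul_comm, pow_mul, tt_pow, one_pow]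

/-- The involution. -/
noncomputable def tauR : RR r F →ₐ[F] RR r F := liftRR ((tt : RR r F) ^ (r - 1)) tt_inv_pow

theorem tauR_tt : tauR (tt : RR r F) = tt ^ (r - 1) := liftRR_tt _ _

theorem tt_mul_tau (hr : 1 ≤ r) : (tt : RR r F) * tauR tt = 1 := by
  rw [tauR_tt, ← pow_succ']
  have : r - 1 + 1 = r := by omega
  rw [this, tt_pow]

theorem algHom_ext_RR {T : Type*} [Ring T] [Algebra F T] {f g : RR r F →ₐ[F] T} (h : f tt = g tt) : f = g :=
  AdjoinRoot.algHom_ext (f := (X ^ r - C 1 : F[X])) h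

theorem tauR_tauR (hr : 2 ≤ r) (x : RR r F) : tauR (tauR x) = x := by
  have h : ((tauR : RR r F →ₐ[F] RR r F).comp tauR) = AlgHom.id F (RR r F) := by
    apply algHom_ext_RR
    rw [AlgHom.comp_apply, tauR_tt, map_pow, tauR_tt, AlgHom.id_apply, ← pow_mul]
    obtain ⟨k, rfl⟩ : ∃ k, r = k + 2 := ⟨r - 2, by omega⟩
    have e : (k + 2 - 1) * (k + 2 - 1) = (k + 2) * k + 1 := by
      have : k + 2 - 1 = k + 1 := by omega
      rw [this]
      ring
    rw [e, pow_succ, pow_mul, tt_pow, one_pow, one_mul]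
  exact congrArg (fun f : RR r F →ₐ[F] RR r F => f x) h

/-- The fixed subring. -/
noncomputable abbrev R0 (r : ℕ) (F : Type*) [Field F] : Subalgebra F (RR r F) :=
  AlgHom.equalizer (tauR : RR r F →ₐ[F] RR r F) (AlgHom.id F (RR r F))

theorem mem_R0 {x : RR r F} : x ∈ R0 r F ↔ tauR x = x := Iff.rfl

theorem tau_val (x : R0 r F) : tauR (x : RR r F) = x := x.2

/-- The trace of the generator. -/
noncomputable def yy (hr : 2 ≤ r) : R0 r F := ⟨tt + tauR tt, by
  rw [mem_R0, map_add, tauR_tauR hr, add_comm]⟩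

theorem yy_val (hr : 2 ≤ r) : ((yy hr : R0 r F) : RR r F) = tt + tauR tt := rfl

variable [Finite F]

theorem finite_RR (hr : 1 ≤ r) : Finite (RR r F) := by
  have hm : (X ^ r - C 1 : F[X]).Monic := monic_X_pow_sub_C 1 (by omega)
  have h1 := hm.finite_adjoinRoot
  exact Module.finite_of_finite F (M := AdjoinRoot (X ^ r - C 1 : F[X]))

theorem reduced_RR (hr : (r : F) ≠ 0) : IsReduced (RR r F) := by
  have hs := separable_X_pow_sub_C (F := F) (n := r) 1 hr one_ne_zero
  exact (Ideal.isRadical_iff_quotient_reduced _).1 (isRadical_iff_span_singleton.1 hs.squarefree.isRadical)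

/-- The binary norm equation. -/
theorem exists_norm (hr : 3 ≤ r) (hro : Odd r) (h2 : (2 : F) ≠ 0) (hrF : (r : F) ≠ 0) (b : R0 r F) :
    ∃ α β : R0 r F, (((α : RR r F) + (β : RR r F) * tt) * tauR ((α : RR r F) + (β : RR r F) * tt) - (b : RR r F)) * (tt + tauR tt - 2) = 0 := by
  classical
  have hf : Finite (RR r F) := finite_RR (by omega)
  have hred : IsReduced (RR r F) := reduced_RR hrF
  have hred0 : IsReduced (R0 r F) := isReduced_of_injective (R0 r F).val Subtype.val_injective
  have hf0 : Finite (R0 r F) := Subtype.finite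
  have hr2 : 2 ≤ r := by omega
  have htt := tt_mul_tau (F := F) (r := r) (by omega)
  -- units
  have h2u : IsUnit (2 : R0 r F) := by
    have e2 : algebraMap F (R0 r F) 2 = 2 := map_ofNat _ 2
    rw [← e2]
    exact (IsUnit.mk0 2 h2).map _
  have h4 : (4 : F) ≠ 0 := by
    have : (4 : F) = 2 * 2 := by norm_num
    rw [this]
    exact mul_ne_zero h2 h2
  -- the unit `y + 2`
  obtain ⟨u, hu⟩ : ∃ u : RR r F, u = ∑ j ∈ Finset.range r, (-tt) ^ j := ⟨_, rfl⟩
  have hu1 : (1 + tt) * u = 2 := by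
    have h3 := mul_neg_geom_sum (-(tt : RR r F)) r
    rw [sub_neg_eq_add, ← hu, Odd.neg_pow hro, tt_pow, sub_neg_eq_add] at h3
    rw [h3, one_add_one_eq_two]
  have hu2 : (1 + tauR tt) * tauR u = 2 := by
    have h3 := congrArg (tauR : RR r F →ₐ[F] RR r F) hu1
    rw [map_mul, map_add, map_one] at h3
    have e2 : (tauR : RR r F →ₐ[F] RR r F) 2 = 2 := map_ofNat _ 2
    rw [e2] at h3
    exact h3
  have hy2 : IsUnit (yy hr2 + 2 : R0 r F) := by
    let z : R0 r F := ⟨u * tauR u, by
      rw [mem_R0, map_mul, tauR_tauR hr2, mul_comm]⟩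
    have h5 : (yy hr2 + 2) * ((4 : F)⁻¹ • z) = (1 : R0 r F) := by
      apply Subtype.ext
      show ((yy hr2 : R0 r F) + 2 : RR r F) * ((4 : F)⁻¹ • (u * tauR u)) = 1
      rw [yy_val]
      have e1 : (tt + tauR tt + 2 : RR r F) = (1 + tt) * (1 + tauR tt) := by
        linear_combination -htt
      have e2 : (1 + tt) * (1 + tauR tt) * (u * tauR u) = ((1 + tt) * u) * ((1 + tauR tt) * tauR u) := by ring
      rw [e1, mul_smul_comm, e2, hu1, hu2]
      have e3 : (2 * 2 : RR r F) = (4 : F) • 1 := by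
        rw [Algebra.smul_def, mul_one, map_ofNat]
        norm_num
      rw [e3, smul_smul, inv_mul_cancel₀ h4, one_smul]
    exact IsUnit.of_mul_eq_one _ h5
  obtain ⟨α, β, hab⟩ := solve_binary (yy hr2) b h2u hy2
  refine ⟨α, β, ?_⟩
  have h3 := congrArg (Subtype.val) hab
  have e1 : (((α : RR r F) + (β : RR r F) * tt) * tauR ((α : RR r F) + (β : RR r F) * tt) : RR r F) = ((α ^ 2 + yy hr2 * α * β + β ^ 2 : R0 r F) : RR r F) := by
    rw [map_add, map_mul, tau_val, tau_val]
    show _ = ((α : RR r F)) ^ 2 + ((yy hr2 : R0 r F) : RR r F) * α * β + (β : RR r F) ^ 2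
    rw [yy_val]
    linear_combination ((β : RR r F) * β) * htt
  have e3 : ((2 : R0 r F) : RR r F) = 2 := map_ofNat (R0 r F).val 2
  rw [e1]
  simpa [e3, yy_val] using h3


section idem

variable {r : ℕ}

/-- The sum of the powers of the generator. -/
noncomputable def SR (r : ℕ) (F : Type*) [Field F] : RR r F := ∑ j ∈ Finset.range r, tt ^ j

theorem tt_sub_one_SR : ((tt : RR r F) - 1) * SR r F = 0 := by
  rw [SR, mul_comm, geom_sum_mul, tt_pow, sub_self]

theorem tt_mul_SR : (tt : RR r F) * SR r F = SR r F := by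
  have := tt_sub_one_SR (F := F) (r := r)
  rw [sub_mul, one_mul] at this
  exact sub_eq_zero.1 this

theorem pow_mul_SR (j : ℕ) : (tt : RR r F) ^ j * SR r F = SR r F := by
  induction j with
  | zero => simp
  | succ j ih => rw [pow_succ', mul_assoc, ih, tt_mul_SR]

theorem SR_sq : SR r F * SR r F = (r : RR r F) * SR r F := by
  have e : SR r F * SR r F = ∑ j ∈ Finset.range r, (tt : RR r F) ^ j * SR r F := Finset.sum_mul _ _ _
  rw [e, Finset.sum_congr rfl (fun j _ => pow_mul_SR j), Finset.sum_const, Finset.card_range, nsmul_eq_mul]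

/-- The projection onto the part without fixed points, up to `r`. -/
theorem exists_inv_mod (hr : 1 ≤ r) (hrF : (r : F) ≠ 0) :
    ∃ u : RR r F, (tt + tauR tt - 2) * u = 1 - algebraMap F (RR r F) (r : F)⁻¹ * SR r F := by
  have hroot : IsRoot (∑ j ∈ Finset.range r, (X : F[X]) ^ j - C (r : F)) 1 := by
    simp [IsRoot.def, eval_finsetSum]
  obtain ⟨q, hq⟩ := dvd_iff_isRoot.2 hroot
  obtain ⟨ρ, hρ⟩ : ∃ ρ, ρ = algebraMap F (RR r F) (r : F)⁻¹ := ⟨_, rfl⟩
  have hρr : ρ * (r : RR r F) = 1 := by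
    have e : (r : RR r F) = algebraMap F (RR r F) (r : F) := (map_natCast _ r).symm
    rw [hρ, e, ← map_mul, inv_mul_cancel₀ hrF, map_one]
  have hS : SR r F - (r : RR r F) = (tt - 1) * mkR q := by
    have h3 := congrArg (AdjoinRoot.mk (X ^ r - C 1 : F[X])) hq
    rw [map_sub, map_sum] at h3
    simp only [map_pow, AdjoinRoot.mk_X, AdjoinRoot.mk_C, map_mul, map_sub, map_one] at h3
    have e : (r : RR r F) = algebraMap F (RR r F) (r : F) := (map_natCast _ r).symm
    rw [e]
    exact h3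
  obtain ⟨Q', hQ'⟩ : ∃ Q', Q' = (mkR q : RR r F) := ⟨_, rfl⟩
  rw [← hQ'] at hS
  have htt := tt_mul_tau (F := F) (r := r) hr
  have hf : 1 - ρ * SR r F = - (ρ * ((tt - 1) * Q')) := by
    rw [← hS]
    linear_combination -hρr
  have hff : (1 - ρ * SR r F) * (1 - ρ * SR r F) = 1 - ρ * SR r F := by
    have h3 := SR_sq (F := F) (r := r)
    linear_combination (ρ * ρ) * h3 + (ρ * SR r F) * hρr
  refine ⟨ρ * ρ * Q' * Q' * tt, ?_⟩
  rw [← hρ, ← hff]
  conv_rhs => rw [hf]
  linear_combination (ρ * ρ * Q' * Q') * htt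

end idem

section phi

variable {ι : Type} [Fintype ι] [DecidableEq ι] {Q : QuadraticForm F (ι → F)}

local notation "VV" => (ι → F)
local notation "MM" => Matrix ι ι F
local notation "bb" => QuadraticMap.polar (DFunLike.coe Q)

/-- The action of the group ring. -/
noncomputable def PhiR (G : MM) (hG : G ^ r = 1) : RR r F →ₐ[F] MM := liftRR G hG

theorem PhiR_tt (G : MM) (hG : G ^ r = 1) : PhiR G hG (tt : RR r F) = G := liftRR_tt _ _

theorem PhiR_mulVec_comm (G : MM) (hG : G ^ r = 1) (x : RR r F) : G * PhiR G hG x = PhiR G hG x * G := by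
  calc G * PhiR G hG x = PhiR G hG (tt : RR r F) * PhiR G hG x := by rw [PhiR_tt]
    _ = PhiR G hG ((tt : RR r F) * x) := (map_mul _ _ _).symm
    _ = PhiR G hG (x * (tt : RR r F)) := by rw [mul_comm]
    _ = PhiR G hG x * PhiR G hG (tt : RR r F) := map_mul _ _ _
    _ = PhiR G hG x * G := by rw [PhiR_tt]

/-- The involution is the adjoint. -/
theorem PhiR_adj (G : MM) (hG : G ^ r = 1) (hr : 1 ≤ r) (hiso : ∀ v, Q (G *ᵥ v) = Q v) (x : RR r F) (u w : VV) :
    bb (PhiR G hG x *ᵥ u) w = bb u (PhiR G hG (tauR x) *ᵥ w) := by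
  have hpol : ∀ a b : VV, bb (G *ᵥ a) (G *ᵥ b) = bb a b := by
    intro a b
    have := sim_polar (Q := Q) (g := G) (c := 1) (fun v => by rw [one_mul]; exact hiso v) a b
    rwa [one_mul] at this
  have hGi : PhiR G hG (tt : RR r F) * PhiR G hG (tauR (tt : RR r F)) = 1 := by
    rw [← map_mul, tt_mul_tau hr, map_one]
  have hbase : ∀ u w : VV, bb (G *ᵥ u) w = bb u (PhiR G hG (tauR (tt : RR r F)) *ᵥ w) := by
    intro u w
    have h1 := hpol u (PhiR G hG (tauR (tt : RR r F)) *ᵥ w)
    rw [Matrix.mulVec_mulVec] at h1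
    rw [PhiR_tt] at hGi
    rw [hGi, Matrix.one_mulVec] at h1
    exact h1
  obtain ⟨p, rfl⟩ := mkR_surj x
  revert u w
  induction p using Polynomial.induction_on' with
  | add p q hp hq =>
    intro u w
    rw [mkR_add, map_add, map_add, map_add, Matrix.add_mulVec, Matrix.add_mulVec, QuadraticMap.polar_add_left, QuadraticMap.polar_add_right, hp, hq]
  | monomial n a =>
    intro u w
    have e : mkR (r := r) (monomial n a) = algebraMap F (RR r F) a * tt ^ n := by
      rw [← C_mul_X_pow_eq_monomial, mkR_mul, mkR_pow, mkR_X, mkR_C]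
    have e1 : PhiR G hG (algebraMap F (RR r F) a * tt ^ n) = a • G ^ n := by
      rw [map_mul, AlgHom.commutes, map_pow, PhiR_tt, Algebra.smul_def]
    have e2 : PhiR G hG (tauR (algebraMap F (RR r F) a * tt ^ n)) = a • (PhiR G hG (tauR (tt : RR r F))) ^ n := by
      rw [map_mul, map_mul, AlgHom.commutes, AlgHom.commutes, map_pow, map_pow, Algebra.smul_def]
    rw [e, e1, e2]
    have hp : ∀ (n : ℕ) (u w : VV), bb (G ^ n *ᵥ u) w = bb u ((PhiR G hG (tauR (tt : RR r F))) ^ n *ᵥ w) := by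
      intro n
      induction n with
      | zero =>
        intro u w
        simp
      | succ n ih =>
        intro u w
        rw [pow_succ', pow_succ, ← Matrix.mulVec_mulVec, ← Matrix.mulVec_mulVec, hbase, ih]
    rw [Matrix.smul_mulVec, Matrix.smul_mulVec, QuadraticMap.polar_smul_left, QuadraticMap.polar_smul_right, hp]

theorem PhiR_SR_apply (G : MM) (hG : G ^ r = 1) : PhiR G hG (SR r F) = ∑ j ∈ Finset.range r, G ^ j := by
  rw [SR, map_sum]
  simp only [map_pow, PhiR_tt]

end phi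

end groupRing

end Cfsg.Agent.Lib.AutPOm
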