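import Cfsg.Agent.Lib.AutPOm.MinusForm

/-! The coset theorem for the minus-type groups. -/

set_option autoImplicit false
set_option linter.unusedSimpArgs false
set_option linter.unusedVariables false
set_option linter.unusedSectionVars false

namespace Cfsg.Agent.Lib.AutPOm

open Matrix Module MulAction Cfsg.Agent.Lib.Classical
open Cfsg.Agent.Lib.AutPSL (sm sm_add sm_smul sm_symm_sm sm_sm_symm glMap glMap_coe semi_vec_ne_zero map_mulVec_sm nrm nrmF nrmF_succ nrm_succ' exists_gl_of_nrm_one exists_nrmF_eq exists_of_nrmF_one nrm_scalar_mul nrmF_inv nrmF_zero coe_scalar_mul slinear glMap_one orderOf_conj')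
open Cfsg.Agent.Lib.Quad (NondegQ minusQF minusQF_apply)
open Cfsg.Agent.Lib.FieldAut (fixedField mem_fixedField)
open scoped LinearAlgebra.Projectivization MatrixGroups

variable {F : Type*} [Field F] {m : ℕ}

/-- The inner-diagonal group of the minus-type form. -/
theorem inndiag_minus_eq [Fintype F] {a b : F} (hab : ∀ z₁ z₂ : F, z₁ ^ 2 + a * z₁ * z₂ + b * z₂ ^ 2 = 0 → z₁ = 0 ∧ z₂ = 0) (hm : 2 ≤ m) :
    (Cfsg.inndiagPOmegaMinus m F a b : Subgroup (MulAut (PO (minusQF m a b)))) = GD (even_JJ m) (minus_ne a b) := by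
  apply le_antisymm
  · refine (Subgroup.closure_le _).2 ?_
    rintro β ⟨g, hg, hp, hi⟩
    have hg' : g ∈ Sim (minusQF m a b) := hg
    exact mem_GD.2 ⟨g, hg', (minus_link hm hab rfl (minusQF_nd hab m) hg').1 hp, induced_eq (hs := semi_of_sim hg') hi⟩
  · intro δ hδ
    obtain ⟨g, hg, hK, he⟩ := mem_GD.1 hδ
    have h1 : Cfsg.PreservesSingularClassesMinus m a b (g : Matrix _ _ F) := (minus_link hm hab rfl (minusQF_nd hab m) hg).2 hK
    have h2 : Cfsg.IsInnerDiagonalAutPOmegaMinus m a b δ := by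
      rw [he]
      exact ⟨g, hg, h1, psemiO_induced (Q := minusQF m a b) g (RingEquiv.refl F) (semi_of_sim hg)⟩
    have h3 : ∀ β, Cfsg.IsInnerDiagonalAutPOmegaMinus m a b β → β ∈ Cfsg.inndiagPOmegaMinus m F a b := fun β hβ => Subgroup.subset_closure hβ
    exact h3 δ h2

theorem fix_single (σ : F ≃+* F) : sm σ (Pi.single (Sum.inr 0) 1 : (Fin m ⊕ Fin m) ⊕ Fin 2 → F) = Pi.single (Sum.inr 0) 1 := by
  funext s
  by_cases h : s = Sum.inr 0
  · subst h
    simp [sm]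
  · simp [sm, Pi.single_apply, h]

/-- The coset theorem over the minus-type forms, one direction. -/
theorem coset_minus_aux [Fintype F] (hm : 3 ≤ m) {a b : F} (hab : ∀ z₁ z₂ : F, z₁ ^ 2 + a * z₁ * z₂ + b * z₂ ^ 2 = 0 → z₁ = 0 ∧ z₂ = 0)
    (x δ : MulAut (PO (minusQF m a b))) (hx : Cfsg.IsFieldAutClassPOmegaMinus m (a := a) (b := b) x) {r : ℕ} (hr : r.Prime) (hxr : orderOf x = r)
    (hδ : δ ∈ GD (even_JJ m) (minus_ne a b)) (hy : orderOf (δ * x) = r) :
    Cfsg.IsConjUnder (GD (even_JJ m) (minus_ne a b)) x (δ * x) := by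
  obtain ⟨a', b', ψ, σ, hab', hσ1, hσa, hσb, hφ⟩ := hx
  have : Good (minusQF m a b) := good_minus hab hm
  have : Good (minusQF m a' b') := good_minus hab' hm
  obtain ⟨α₀, β₀, hβ₀, hiso⟩ := minus_isometric hab hab'
  have hH : ∀ v, minusQF m a b (((binH m α₀ β₀ hβ₀ : GL _ F) : Matrix _ _ F) *ᵥ v) = minusQF m a' b' v := fun v => binH_isom hβ₀ hiso v
  set T := poTr (binH m α₀ β₀ hβ₀) hH with hT
  let ψ' : PO (minusQF m a b) ≃* PO (minusQF m a' b') := ψ
  set x' := (MulAut.congr T).symm x with hx'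
  set δ' := (MulAut.congr T).symm δ with hδ'
  have hσ' : ∀ v, minusQF m a' b' (sm σ v) = σ (minusQF m a' b' v) := minusQF_sm a' b' σ hσa hσb
  have hstd := stdField_eq hσ' hφ
  have hx₀ : (T.trans ψ') * x' * (T.trans ψ')⁻¹ = psemiO 1 σ (semi_std hσ') := by
    rw [← hstd]
    ext y
    show ψ' (T (T.symm (x (T (T.symm (ψ'.symm y)))))) = ψ' (x (ψ'.symm y))
    simp
  have hxr' : orderOf x' = r := by
    rw [hx', MulEquiv.orderOf_eq, hxr]
  have hyr' : orderOf (δ' * x') = r := by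
    rw [hδ', hx', ← map_mul, MulEquiv.orderOf_eq, hy]
  have hδ'' : δ' ∈ GD (even_JJ m) (minus_ne a' b') := by
    rw [← GD_tr (Q := minusQF m a b) (Q' := minusQF m a' b') _ hH (even_JJ m) (minus_ne a b) (minus_ne a' b')]
    show (MulAut.congr T) ((MulAut.congr T).symm δ) ∈ _
    rw [MulEquiv.apply_symm_apply]
    exact hδ
  have : Fintype (fixedField σ) := Fintype.ofFinite _
  have ha₀ : (⟨a', mem_fixedField.2 hσa⟩ : fixedField σ).1 = a' := rfl
  have main := coset_conj_even (even_JJ m) (minus_ne a' b') (hall_minus hab' hm) x' δ' (T.trans ψ') σ hσ' hx₀ hr hxr'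
    ⟨Pi.single (Sum.inr 0) 1, by
      rw [minusQF_apply, Cfsg.quadFormMinus]
      simp, fix_single σ⟩
    ⟨minusQF m ⟨a', mem_fixedField.2 hσa⟩ ⟨b', mem_fixedField.2 hσb⟩, fun v => minusQF_bc (fixedField σ).subtype _ _ v, fun q₀ hq₀ ⟨y, c, hc, hq⟩ =>
      minus_class (fixedField σ).subtype (a := ⟨a', mem_fixedField.2 hσa⟩) (b := ⟨b', mem_fixedField.2 hσb⟩) hab' q₀ hq₀ hc hq⟩
    hδ'' hyr'
  obtain ⟨h', hh', he'⟩ := main
  refine ⟨MulAut.congr T h', ?_, ?_⟩
  · exact (GD_tr (Q := minusQF m a b) (Q' := minusQF m a' b') _ hH (even_JJ m) (minus_ne a b) (minus_ne a' b') h').2 hh'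
  · have h1 := congrArg (MulAut.congr T) he'
    have e1 : MulAut.congr T δ' = δ := MulEquiv.apply_symm_apply _ _
    have e2 : MulAut.congr T x' = x := MulEquiv.apply_symm_apply _ _
    rw [map_mul, map_mul, map_mul, map_inv, e1, e2] at h1
    exact h1

/-- `S2737`. -/
theorem coset_minus [Fintype F] (hm : 3 ≤ m) (a b : F) (hab : ∀ z₁ z₂ : F, z₁ ^ 2 + a * z₁ * z₂ + b * z₂ ^ 2 = 0 → z₁ = 0 ∧ z₂ = 0)
    (x δ : MulAut (Cfsg.POmega F (Cfsg.quadFormMinus m F a b))) (hx : Cfsg.IsFieldAutClassPOmegaMinus m x) {r : ℕ} (hr : r.Prime)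
    (hxr : orderOf x = r) (hδ : δ ∈ Cfsg.inndiagPOmegaMinus m F a b) :
    orderOf (δ * x) = r ↔ Cfsg.IsConjUnder (Cfsg.inndiagPOmegaMinus m F a b) x (δ * x) := by
  have e := inndiag_minus_eq hab (m := m) (by omega)
  constructor
  · intro hy
    rw [e] at hδ ⊢
    exact coset_minus_aux hm hab x δ hx hr hxr hδ hy
  · rintro ⟨h, -, he⟩
    rw [he, orderOf_conj', hxr]

end Cfsg.Agent.Lib.AutPOm
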