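import Cfsg.Agent.Lib.AutPOm.EvenField

/-! Field automorphisms of the minus-type groups. -/

set_option autoImplicit false
set_option linter.unusedSimpArgs false
set_option linter.unusedVariables false
set_option linter.unusedSectionVars false

namespace Cfsg.Agent.Lib.AutPOm

open Matrix Module MulAction Cfsg.Agent.Lib.Classical
open Cfsg.Agent.Lib.AutPSL (sm sm_add sm_smul sm_symm_sm sm_sm_symm glMap glMap_coe semi_vec_ne_zero map_mulVec_sm nrm nrmF nrmF_succ nrm_succ' exists_gl_of_nrm_one exists_nrmF_eq exists_of_nrmF_one nrm_scalar_mul nrmF_inv nrmF_zero coe_scalar_mul slinear glMap_one orderOf_conj' card_gal centConj split_conj)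
open Cfsg.Agent.Lib.Quad (NondegQ minusQF minusQF_apply)
open Cfsg.Agent.Lib.FieldAut (fixedField mem_fixedField card_fixedField)
open scoped LinearAlgebra.Projectivization MatrixGroups

variable {F : Type*} [Field F] {m : ℕ}

/-- Unwrapping the field automorphism class. -/
theorem minus_setup [Fintype F] {a b : F} (hab : ∀ z₁ z₂ : F, z₁ ^ 2 + a * z₁ * z₂ + b * z₂ ^ 2 = 0 → z₁ = 0 ∧ z₂ = 0)
    (x : MulAut (PO (minusQF m a b))) (hx : Cfsg.IsFieldAutClassPOmegaMinus m (a := a) (b := b) x) :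
    ∃ (a' b' : F) (_ : ∀ z₁ z₂ : F, z₁ ^ 2 + a' * z₁ * z₂ + b' * z₂ ^ 2 = 0 → z₁ = 0 ∧ z₂ = 0) (σ : F ≃+* F) (hσa : σ a' = a') (hσb : σ b' = b')
      (H : GL ((Fin m ⊕ Fin m) ⊕ Fin 2) F) (hH : ∀ v, minusQF m a b ((H : Matrix _ _ F) *ᵥ v) = minusQF m a' b' v)
      (α : MulAut (PO (minusQF m a' b'))), σ ≠ RingEquiv.refl F ∧
      α * (MulAut.congr (poTr H hH)).symm x * α⁻¹ = psemiO 1 σ (semi_std (minusQF_sm a' b' σ hσa hσb)) := by
  obtain ⟨a', b', ψ, σ, hab', hσ1, hσa, hσb, hφ⟩ := hx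
  obtain ⟨α₀, β₀, hβ₀, hiso⟩ := minus_isometric hab hab'
  have hH : ∀ v, minusQF m a b (((binH m α₀ β₀ hβ₀ : GL _ F) : Matrix _ _ F) *ᵥ v) = minusQF m a' b' v := fun v => binH_isom hβ₀ hiso v
  let ψ' : PO (minusQF m a b) ≃* PO (minusQF m a' b') := ψ
  have hσ' : ∀ v, minusQF m a' b' (sm σ v) = σ (minusQF m a' b' v) := minusQF_sm a' b' σ hσa hσb
  have hstd := stdField_eq hσ' hφ
  refine ⟨a', b', hab', σ, hσa, hσb, binH m α₀ β₀ hβ₀, hH, (poTr _ hH).trans ψ', hσ1, ?_⟩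
  rw [← hstd]
  ext y
  show ψ' (poTr _ hH ((poTr _ hH).symm (x (poTr _ hH ((poTr _ hH).symm (ψ'.symm y)))))) = ψ' (x (ψ'.symm y))
  simp

/-- A subfield of index two cannot contain the coefficients of an anisotropic form. -/
theorem no_index_two {K : Type*} [Field K] [Fintype F] [Fintype K] (φ : K →+* F) (hF : Fintype.card F = Fintype.card K ^ 2) {a b : K}
    (hab : ∀ z₁ z₂ : F, z₁ ^ 2 + φ a * z₁ * z₂ + φ b * z₂ ^ 2 = 0 → z₁ = 0 ∧ z₂ = 0) : False := by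
  let _ : Algebra K F := φ.toAlgebra
  have h1 : Fintype.card F = Fintype.card K ^ finrank K F := Module.card_eq_pow_finrank
  have h2 : finrank K F = 2 := by
    rw [hF] at h1
    exact (Nat.pow_right_injective (a := Fintype.card K) Fintype.one_lt_card h1).symm
  obtain ⟨t, ht⟩ := exists_root_of_finrank_two h2 (aniso_of_map φ hab)
  have := (hab t 1 (by
    have e1 : algebraMap K F a = φ a := rfl
    have e2 : algebraMap K F b = φ b := rfl
    rw [e1, e2] at ht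
    linear_combination ht)).2
  exact one_ne_zero this

theorem exists_sim_minus {K : Type*} [Field K] [Fintype K] {a b : K} (hab : ∀ z₁ z₂ : K, z₁ ^ 2 + a * z₁ * z₂ + b * z₂ ^ 2 = 0 → z₁ = 0 ∧ z₂ = 0) (c₀ : K) (hc₀ : c₀ ≠ 0) :
    ∃ g₀ : GL ((Fin m ⊕ Fin m) ⊕ Fin 2) K, ∀ v, minusQF m a b ((g₀ : Matrix _ _ K) *ᵥ v) = c₀ * minusQF m a b v := by
  have hfr : finrank K ((Fin m ⊕ Fin m) ⊕ Fin 2 → K) = 2 * (m + 1) := by
    rw [Module.finrank_fintype_fun_eq_card, card_JJ]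
    ring
  obtain ⟨e, he⟩ := Cfsg.Agent.Lib.Quad.exists_similarity (m := m + 1) (by omega) hfr (minusQF m a b) (NondegQ.of_polarBilin (minusQF_nd hab m)) hc₀
  exact ⟨glOfEquiv e, fun v => by rw [glOfEquiv_mulVec, he]⟩

theorem field_main_minus_aux [Fintype F] {p f : ℕ} [Fact p.Prime] (hF : Fintype.card F = p ^ f) (hf : 1 ≤ f) (hm : 3 ≤ m) (a b : F)
    (hab : ∀ z₁ z₂ : F, z₁ ^ 2 + a * z₁ * z₂ + b * z₂ ^ 2 = 0 → z₁ = 0 ∧ z₂ = 0)
    (x : MulAut (PO (minusQF m a b))) (hx : Cfsg.IsFieldAutClassPOmegaMinus m (a := a) (b := b) x) {r : ℕ} (hr : r.Prime) (hxr : orderOf x = r)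
    (F₀ : Type*) [Field F₀] [Fintype F₀] (hF₀ : Fintype.card F₀ = p ^ (f / r)) :
    Odd r ∧ r ∣ f ∧ (∃ a₀ b₀ : F₀, (∀ z₁ z₂ : F₀, z₁ ^ 2 + a₀ * z₁ * z₂ + b₀ * z₂ ^ 2 = 0 → z₁ = 0 ∧ z₂ = 0) ∧
      Nonempty (↥(GD (Q := minusQF m a b) (even_JJ m) (minus_ne a b) ⊓ Subgroup.centralizer {x}) ≃* ↥(GD (Q := minusQF m a₀ b₀) (even_JJ m) (minus_ne a₀ b₀)))) ∧
      Cfsg.splitClassCount (GD (Q := minusQF m a b) (even_JJ m) (minus_ne a b)) (Cfsg.Inn (PO (minusQF m a b))) x = 1 := by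
  classical
  have hp : p.Prime := Fact.out
  obtain ⟨a', b', hab', σ, hσa, hσb, H, hH, α, hσ1, hα⟩ := minus_setup hab x hx
  have : Good (minusQF m a b) := good_minus hab hm
  have : Good (minusQF m a' b') := good_minus hab' hm
  set T := poTr H hH with hT
  set Φ := (MulAut.congr T).symm with hΦ
  have hσ' := minusQF_sm (m := m) a' b' σ hσa hσb
  have hG : ∀ y, Φ y ∈ GD (even_JJ m) (minus_ne a' b') ↔ y ∈ GD (even_JJ m) (minus_ne a b) := by
    intro y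
    rw [← GD_tr (Q := minusQF m a b) (Q' := minusQF m a' b') H hH (even_JJ m) (minus_ne a b) (minus_ne a' b')]
    have e1 : MulAut.congr (poTr H hH) (Φ y) = y := MulEquiv.apply_symm_apply _ _
    rw [e1]
  have hxr' : orderOf (Φ x) = r := by
    rw [MulEquiv.orderOf_eq, hxr]
  have hordσ : orderOf σ = r := by
    rw [← orderOf_std hσ', ← hα, orderOf_conj', hxr']
  have hrf : r ∣ f := by
    rw [← (card_gal (F := F) hf hF).2, ← hordσ]
    exact orderOf_dvd_natCard σ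
  have hfr : r * (f / r) = f := Nat.mul_div_cancel' hrf
  have hF1 : Fintype.card F = (p ^ (f / r)) ^ r := by
    rw [hF, ← pow_mul, mul_comm, hfr]
  have hK1 : Nat.card (fixedField σ) = p ^ (f / r) := card_fixedField hr.ne_zero hF1 σ hordσ
  have : Fintype (fixedField σ) := Fintype.ofFinite _
  have e₀ : F₀ ≃+* fixedField σ := FiniteField.ringEquivOfCardEq (by
    rw [hF₀, ← Nat.card_eq_fintype_card, hK1])
  let φ : F₀ →+* F := (fixedField σ).subtype.comp (e₀ : F₀ →+* fixedField σ)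
  have hφ' : ∀ b, σ (φ b) = φ b := fun b => mem_fixedField.1 (e₀ b).2
  have hφ : ∀ a, σ a = a → ∃ b, φ b = a := fun a ha => ⟨e₀.symm ⟨a, mem_fixedField.2 ha⟩, by
    show ((e₀ (e₀.symm ⟨a, mem_fixedField.2 ha⟩) : fixedField σ) : F) = a
    rw [e₀.apply_symm_apply]⟩
  obtain ⟨a₀, ha₀⟩ := hφ a' hσa
  obtain ⟨b₀, hb₀⟩ := hφ b' hσb
  subst ha₀ hb₀
  have hab₀ := aniso_of_map φ hab'
  have hFK : Fintype.card F = Fintype.card F₀ ^ r := by rw [hF₀]; exact hF1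
  have hrodd : Odd r := by
    rcases hr.eq_two_or_odd' with h2 | h2
    · exfalso
      subst h2
      exact no_index_two φ hFK hab'
    · exact h2
  have : Good (minusQF m a₀ b₀) := good_minus hab₀ hm
  have hQφ : ∀ v, φ (minusQF m a₀ b₀ v) = minusQF m (φ a₀) (φ b₀) (bc φ v) := fun v => minusQF_bc φ a₀ b₀ v
  have he := even_JJ m
  have hne' := minus_ne (m := m) (φ a₀) (φ b₀)
  have hne₀ := minus_ne (m := m) a₀ b₀
  have hN : (GD he hne').Normal := GD_normal he hne' (hall_minus hab' hm)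
  refine ⟨hrodd, hrf, ⟨a₀, b₀, hab₀, ?_⟩, ?_⟩
  · obtain ⟨e₁⟩ := centTr Φ (GD he (minus_ne a b)) (GD he hne') hG x
    have e₂ := centConj (GD he hne') α (Φ x)
    rw [hα] at e₂
    obtain ⟨e₃⟩ := cent_equiv_gen φ hφ' hφ hσ' hQφ hne₀ (DQ _ he hne') DQ_le (DQ _ he hne₀) DQ_le
      (fun g hg => ⟨map_mem_sim φ hQφ hg.1, KP_map φ hQφ hg.2⟩)
      (fun g hg h => ⟨hg, KP_of_map φ hQφ he (minusQF_nd hab' m) (hq_of_good (minusQF m (φ a₀) (φ b₀))) (minusQF_nd hab₀ m) (hq_of_good (minusQF m a₀ b₀)) hne₀ hg h.2⟩)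
      (fun t => scalar_mem_DQ he hne' t) hr.pos hordσ
    exact ⟨e₁.trans (e₂.trans e₃)⟩
  · apply split_one_of_fact
    have hhsim := fun (c₀ : F₀) (hc₀ : c₀ ≠ 0) => exists_sim_minus (m := m) hab₀ c₀ hc₀
    have hfact := fact_field he hne' hne₀ hhsim hσ' φ hφ' hQφ (fun h2 => by
      have hF2 : ringChar F ≠ 2 := fun hc => h2 (by
        have := CharP.cast_eq_zero F (ringChar F)
        rw [hc] at this
        exact_mod_cast this)
      have h20 : (2 : F₀) ≠ 0 := fun h0 => h2 ((two_iff φ hQφ).1 h0)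
      have hK2 : ringChar F₀ ≠ 2 := fun hc => h20 (by
        have := CharP.cast_eq_zero F₀ (ringChar F₀)
        rw [hc] at this
        exact_mod_cast this)
      obtain ⟨ε₀, hε₀⟩ := FiniteField.exists_nonsquare hK2
      exact ⟨ε₀, not_isSquare_of_odd_index φ hrodd hFK hF2 hK2 hε₀⟩)
    rw [← hα] at hfact
    have h1 : FactAt (GD he hne') (Cfsg.Inn (PO (minusQF m (φ a₀) (φ b₀)))) (Φ x) := by
      refine fact_tr (MulAut.conj α) (H' := GD he hne') (K' := Cfsg.Inn _) ?_ (inn_conj α) hfact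
      intro y
      constructor
      · intro hy
        have := hN.conj_mem _ hy α⁻¹
        have e : α⁻¹ * (MulAut.conj α y) * α⁻¹⁻¹ = y := by
          rw [MulAut.conj_apply]
          group
        rwa [e] at this
      · intro hy
        exact hN.conj_mem _ hy α
    refine fact_tr Φ (H' := GD he hne') (K' := Cfsg.Inn _) hG ?_ h1
    intro y
    have e1 : MulAut.congr (poTr H hH) (Φ y) = y := MulEquiv.apply_symm_apply _ _
    rw [← inn_congr (poTr H hH) (Φ y), e1]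

/-- `S2716`. -/
theorem field_main_minus [Fintype F] {p f : ℕ} [Fact p.Prime] (hF : Fintype.card F = p ^ f) (hf : 1 ≤ f) (hm : 3 ≤ m) (a b : F)
    (hab : ∀ z₁ z₂ : F, z₁ ^ 2 + a * z₁ * z₂ + b * z₂ ^ 2 = 0 → z₁ = 0 ∧ z₂ = 0)
    (x : MulAut (Cfsg.POmega F (Cfsg.quadFormMinus m F a b))) (hx : Cfsg.IsFieldAutClassPOmegaMinus m x) {r : ℕ} (hr : r.Prime) (hxr : orderOf x = r)
    (F₀ : Type*) [Field F₀] [Fintype F₀] (hF₀ : Fintype.card F₀ = p ^ (f / r)) :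
    Odd r ∧ r ∣ f ∧ (∃ a₀ b₀ : F₀, (∀ z₁ z₂ : F₀, z₁ ^ 2 + a₀ * z₁ * z₂ + b₀ * z₂ ^ 2 = 0 → z₁ = 0 ∧ z₂ = 0) ∧
      Nonempty (↥(Cfsg.inndiagPOmegaMinus m F a b ⊓ Subgroup.centralizer {x}) ≃* ↥(Cfsg.inndiagPOmegaMinus m F₀ a₀ b₀))) ∧
      Cfsg.splitClassCount (Cfsg.inndiagPOmegaMinus m F a b) (Cfsg.Inn (Cfsg.POmega F (Cfsg.quadFormMinus m F a b))) x = 1 := by
  have e := inndiag_minus_eq hab (m := m) (by omega)
  obtain ⟨h1, h2, ⟨a₀, b₀, hab₀, h3⟩, h4⟩ := field_main_minus_aux hF hf hm a b hab x hx hr hxr F₀ hF₀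
  refine ⟨h1, h2, ⟨a₀, b₀, hab₀, ?_⟩, ?_⟩
  · rw [e, inndiag_minus_eq hab₀ (m := m) (by omega)]
    exact h3
  · rw [e]
    exact h4

end Cfsg.Agent.Lib.AutPOm
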