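import Cfsg.Agent.Lib.AutPOm.PlusPar

/-! The coset theorem for field and graph-field automorphisms of the plus-type groups. -/

set_option autoImplicit false
set_option linter.unusedSimpArgs false
set_option linter.unusedVariables false
set_option linter.unusedSectionVars false

namespace Cfsg.Agent.Lib.AutPOm

open Matrix Module MulAction Cfsg.Agent.Lib.Classical
open Cfsg.Agent.Lib.AutPSL (sm sm_apply sm_add sm_smul sm_symm_sm sm_sm_symm glMap glMap_coe semi_vec_ne_zero map_mulVec_sm coe_scalar_mul glMap_one exists_hom_of_rel exists_gal_equiv card_gal orderOf_conj' nrm)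
open Cfsg.Agent.Lib.ClassMax.OmegaCore (IsMaxTS imgOf mem_imgOf finrank_imgOf imgOf_mul imgOf_one imgOf_inf par_triple mem_iso_iff)
open Cfsg.Agent.Lib.Spinor (ndf rr rO lp nm U0 U0_maxTS mem_U0 finrank_U0 plusQF_nondeg rO_mat rO_inv)
open Cfsg.Agent.Lib.Quad (NondegQ minusQF minusQF_apply plusQF plusQF_apply coe_plusQF exists_type_gen finrank_le_of_minus_singular anisotropic_of_zeta)
open Cfsg.Agent.Lib.FieldAut (fixedField mem_fixedField)
open scoped LinearAlgebra.Projectivization MatrixGroups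

section pair

variable {F K : Type*} [Field F] [Field K] {ι : Type} [Fintype ι] [DecidableEq ι] {Q : QuadraticForm F (ι → F)}

/-- Hilbert 90 for similarities with the descended form. -/
theorem h90_form [Finite F] {σ : F ≃+* F} (φ : K →+* F) (hφ' : ∀ b, σ (φ b) = φ b) (hφ : ∀ a, σ a = a → ∃ b, φ b = a)
    (hσ : ∀ v : ι → F, Q (sm σ v) = σ (Q v)) (hQ : NondegQ Q) (hne : ∃ v : ι → F, Q v ≠ 0)
    {g : GL ι F} (hg : g ∈ Sim Q) {r : ℕ} (hr0 : 0 < r) (hr : orderOf σ = r) (h1 : nrm g σ r = 1) :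
    ∃ (x : GL ι F) (b : F) (q₀ : QuadraticForm K (ι → K)), b ≠ 0 ∧ g = x * (glMap σ x)⁻¹ ∧ NondegQ q₀ ∧
      ∀ v, φ (q₀ v) = b⁻¹ * Q ((x : Matrix ι ι F) *ᵥ bc φ v) := by
  obtain ⟨x, b, hb0, hx, hfix⟩ := h90_core hσ hne hg hr0 hr h1
  set q := b⁻¹ • Q.comp (Matrix.mulVecLin (x : Matrix ι ι F)) with hq
  obtain ⟨q₀, hq₀⟩ := exists_descent σ φ hφ' hφ q hfix
  have hqv : ∀ u : ι → F, q u = b⁻¹ * Q ((x : Matrix ι ι F) *ᵥ u) := fun u => by
    simp [hq]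
  have hqnd : NondegQ q := by
    intro a ha
    have hb' : b⁻¹ ≠ 0 := inv_ne_zero hb0
    have h2 : ∀ w, QuadraticMap.polar (DFunLike.coe Q) ((x : Matrix ι ι F) *ᵥ a) w = 0 := by
      intro w
      have h3 := ha (((x⁻¹ : GL ι F) : Matrix ι ι F) *ᵥ w)
      have h4 : QuadraticMap.polar q a (((x⁻¹ : GL ι F) : Matrix ι ι F) *ᵥ w) = b⁻¹ * QuadraticMap.polar (DFunLike.coe Q) ((x : Matrix ι ι F) *ᵥ a) w := by
        simp only [QuadraticMap.polar, hqv, Matrix.mulVec_add, gl_mul_inv]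
        ring
      rw [h4] at h3
      exact (mul_eq_zero.1 h3).resolve_left hb'
    have h3 := hQ _ h2
    rw [← gl_inv_mul x a, h3, Matrix.mulVec_zero]
  exact ⟨x, b, q₀, hb0, hx, nondeg_descent φ hq₀ hqnd, fun v => by rw [hq₀, hqv]⟩

/-- Two descended forms which are similar give conjugate cocycles. -/
theorem h90_pair {σ : F ≃+* F} (φ : K →+* F) (hφ' : ∀ b, σ (φ b) = φ b) {x₁ x₂ : GL ι F} {b₁ b₂ : F} (hb₁ : b₁ ≠ 0) (hb₂ : b₂ ≠ 0)
    {q₁ q₂ : QuadraticForm K (ι → K)}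
    (hq₁ : ∀ v, φ (q₁ v) = b₁⁻¹ * Q ((x₁ : Matrix ι ι F) *ᵥ bc φ v))
    (hq₂ : ∀ v, φ (q₂ v) = b₂⁻¹ * Q ((x₂ : Matrix ι ι F) *ᵥ bc φ v))
    (y₀ : GL ι K) (c₀ : K) (hc₀ : c₀ ≠ 0) (hy₀ : ∀ v, q₁ ((y₀ : Matrix ι ι K) *ᵥ v) = c₀ * q₂ v) :
    ∃ z ∈ Sim Q, x₁ * (glMap σ x₁)⁻¹ = z * (x₂ * (glMap σ x₂)⁻¹) * (glMap σ z)⁻¹ := by
  obtain ⟨y, hy⟩ : ∃ y : GL ι F, y = Matrix.GeneralLinearGroup.map φ y₀ := ⟨_, rfl⟩
  have hyfix : glMap σ y = y := by
    apply Units.ext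
    rw [glMap_coe, hy]
    ext i j
    exact hφ' _
  have hsim := sim_descent φ (q₁ := b₁⁻¹ • Q.comp (Matrix.mulVecLin (x₁ : Matrix ι ι F))) (q₂ := b₂⁻¹ • Q.comp (Matrix.mulVecLin (x₂ : Matrix ι ι F)))
    (q₁₀ := q₁) (q₂₀ := q₂) (fun v => by simp [hq₁]) (fun v => by simp [hq₂]) y₀ c₀ hy₀
  rw [← hy] at hsim
  have hφc : φ c₀ ≠ 0 := by simpa using hc₀
  refine ⟨x₁ * y * x₂⁻¹, ⟨Units.mk0 b₁ hb₁ * Units.mk0 (φ c₀) hφc * (Units.mk0 b₂ hb₂)⁻¹, fun u => ?_⟩, ?_⟩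
  · have h3 := hsim ((((x₂⁻¹ : GL ι F)) : Matrix ι ι F) *ᵥ u)
    simp only [_root_.smul_apply, QuadraticMap.comp_apply, Matrix.mulVecLin_apply, smul_eq_mul, gl_mul_inv] at h3
    have e : (((x₁ * y * x₂⁻¹ : GL ι F)) : Matrix ι ι F) *ᵥ u = (x₁ : Matrix ι ι F) *ᵥ ((y : Matrix ι ι F) *ᵥ (((x₂⁻¹ : GL ι F) : Matrix ι ι F) *ᵥ u)) := by
      rw [Units.val_mul, Units.val_mul, ← Matrix.mulVec_mulVec, ← Matrix.mulVec_mulVec]
    rw [e]
    simp only [Units.val_mul, Units.val_mk0, Units.val_inv_eq_inv_val]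
    field_simp at h3 ⊢
    linear_combination h3
  · rw [map_mul, map_mul, hyfix, map_inv]
    group

end pair

section adjust

variable {F : Type*} [Field F] [Fintype F] {ι : Type} [Fintype ι] [DecidableEq ι] {Q : QuadraticForm F (ι → F)} [h : Good Q]

/-- A conjugator can be adjusted by a reflection commuting with the conjugated element. -/
theorem conj_KP_adjust' (he : Even (Fintype.card ι)) {v : ι → F} (hv : Q v ≠ 0) {X : MulAut (PO Q)}
    (hc : psemiO (rO Q v).1 (RingEquiv.refl F) (semi_of_og _) * X = X * psemiO (rO Q v).1 (RingEquiv.refl F) (semi_of_og _))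
    {z : GL ι F} (hz : z ∈ Sim Q) : ∃ (z' : GL ι F) (hz' : z' ∈ Sim Q), KP Q z' ∧
      psemiO z (RingEquiv.refl F) (semi_of_sim hz) * X * (psemiO z (RingEquiv.refl F) (semi_of_sim hz))⁻¹ =
      psemiO z' (RingEquiv.refl F) (semi_of_sim hz') * X * (psemiO z' (RingEquiv.refl F) (semi_of_sim hz'))⁻¹ := by
  have hne : ∃ v : ι → F, Q v ≠ 0 := ⟨v, hv⟩
  rcases KP_or he h.nd (hq_of_good Q) (Subgroup.inv_mem _ hz) hv with h1 | h1
  · refine ⟨z, hz, ?_, rfl⟩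
    have := KP_inv hne h1
    rwa [inv_inv] at this
  · have hrs : (rO Q v).1 ∈ Sim Q := og_le_sim (rO Q v).2
    have hri : (rO Q v).1⁻¹ = (rO Q v).1 := by
      have := congrArg Subtype.val (rO_inv (Q := Q) v)
      exact this
    have hz' : z * (rO Q v).1 ∈ Sim Q := Subgroup.mul_mem _ hz hrs
    refine ⟨z * (rO Q v).1, hz', ?_, ?_⟩
    · have := KP_inv hne h1
      rwa [_root_.mul_inv_rev, inv_inv, hri] at this
    · have e : psemiO (z * (rO Q v).1) (RingEquiv.refl F) (semi_of_sim hz') =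
          psemiO z (RingEquiv.refl F) (semi_of_sim hz) * psemiO (rO Q v).1 (RingEquiv.refl F) (semi_of_og _) := by
        rw [psemiO_refl_mul]
      rw [e, _root_.mul_inv_rev]
      generalize psemiO z (RingEquiv.refl F) (semi_of_sim hz) = Z at *
      generalize psemiO (rO Q v).1 (RingEquiv.refl F) (semi_of_og _) = R at *
      calc Z * X * Z⁻¹ = Z * (X * R * R⁻¹) * Z⁻¹ := by group
        _ = Z * (R * X * R⁻¹) * Z⁻¹ := by rw [hc]
        _ = Z * R * X * (R⁻¹ * Z⁻¹) := by group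

end adjust

section plus

variable {F : Type*} [Field F] [Fintype F] {m : ℕ}

local notation "II" => (Fin m ⊕ Fin m)

theorem hall_plus (hm : 5 ≤ m) (α : MulAut (PO (hypQF m F))) :
    ∃ (M : GL (Fin m ⊕ Fin m) F) (σ : F ≃+* F) (hs : Cfsg.IsSemisimilarityPair (⇑(hypQF m F)) M σ), α = psemiO M σ hs := by
  have : Good (hypQF m F) := good_hyp (by omega)
  refine hall_of_hmax (fun W hW hle => ?_) α
  have h2 := two_finrank_of_max hW hle
  simp only [Fintype.card_sum, Fintype.card_fin] at h2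
  omega

theorem hyp_fix (hm : 1 ≤ m) (σ : F ≃+* F) : ∃ v : Fin m ⊕ Fin m → F, hypQF m F v ≠ 0 ∧ sm σ v = v := by
  refine ⟨Sum.elim (Pi.single ⟨0, hm⟩ 1) (Pi.single ⟨0, hm⟩ 1), ?_, ?_⟩
  · rw [hypQF_apply]
    simp [Cfsg.quadFormPlus, Pi.single_apply]
  · funext s
    rcases s with i | i <;> by_cases h : i = ⟨0, hm⟩ <;> simp [sm, h, Pi.single_apply]

/-- Field case: a KP similarity in the field coset is conjugate to the standard field automorphism. -/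
theorem plus_field_core (hm : 4 ≤ m) {σ : F ≃+* F} {g : GL II F} (hg : g ∈ Sim (hypQF m F)) (hK : KP (hypQF m F) g)
    (hs : Cfsg.IsSemisimilarityPair (⇑(hypQF m F)) g σ) {r : ℕ} (hr0 : 0 < r) (hr : orderOf σ = r) (hy : (psemiO g σ hs) ^ r = 1) :
    ∃ (z : GL II F) (hz : z ∈ Sim (hypQF m F)), KP (hypQF m F) z ∧
      psemiO g σ hs = psemiO z (RingEquiv.refl F) (semi_of_sim hz) * psemiO 1 σ (semi_std (hyp_sm σ)) * (psemiO z (RingEquiv.refl F) (semi_of_sim hz))⁻¹ := by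
  have : Good (hypQF m F) := good_hyp hm
  have hne := ne_of_good (Q := hypQF m F)
  have : Fintype (fixedField σ) := Fintype.ofFinite _
  have hσ := hyp_sm (m := m) σ
  obtain ⟨z, hz, -, hzs, hhe⟩ := core_field (fixedField σ).subtype (fun b => mem_fixedField.1 b.2)
    (fun a ha => ⟨⟨a, mem_fixedField.2 ha⟩, rfl⟩) hσ hne (hypQF m (fixedField σ)) (fun v => hyp_bc _ v) hg hs hr0 hr hy
    (fun u x b q₀ hb hgx hnd hq => by
      have hgx' : Matrix.GeneralLinearGroup.scalar II u * g ∈ Sim (hypQF m F) := Subgroup.mul_mem _ (sim_scalar u) hg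
      have hKg : KP (hypQF m F) (Matrix.GeneralLinearGroup.scalar II u * g) := KP_mul (KP_scalar (even_II m) u) hK
      rw [hgx] at hgx' hKg
      obtain ⟨e, he⟩ := type_of_KP (by omega) (fixedField σ).subtype (fun b => mem_fixedField.1 b.2)
        (fun a ha => ⟨⟨a, mem_fixedField.2 ha⟩, rfl⟩) hnd hb hq hgx' hKg
      refine ⟨glOfEquiv e.symm, 1, one_ne_zero, fun v => ?_⟩
      rw [glOfEquiv_mulVec, he, LinearEquiv.apply_symm_apply, one_mul]
      rfl)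
  obtain ⟨v, hv, hvfix⟩ := hyp_fix (F := F) (m := m) (by omega) σ
  obtain ⟨z', hz', hKz', hadj⟩ := conj_KP_adjust (even_II m) hσ hv hvfix hz
  refine ⟨z', hz', hKz', ?_⟩
  rw [hhe]
  exact hadj

/-- Two minus-type models are isometric. -/
theorem minus_models {K : Type*} [Field K] [Fintype K] {q₁ q₂ : QuadraticForm K (Fin m ⊕ Fin m → K)}
    (h₁ : ∃ (ζ : K) (_ : ∀ t : K, t ^ 2 + t + ζ ≠ 0) (e : (Fin m ⊕ Fin m → K) ≃ₗ[K] ((Fin (m - 1) ⊕ Fin (m - 1)) ⊕ Fin 2 → K)), ∀ v, q₁ v = Cfsg.quadFormMinus (m - 1) K 1 ζ (e v))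
    (h₂ : ∃ (ζ : K) (_ : ∀ t : K, t ^ 2 + t + ζ ≠ 0) (e : (Fin m ⊕ Fin m → K) ≃ₗ[K] ((Fin (m - 1) ⊕ Fin (m - 1)) ⊕ Fin 2 → K)), ∀ v, q₂ v = Cfsg.quadFormMinus (m - 1) K 1 ζ (e v)) :
    ∃ y₀ : GL (Fin m ⊕ Fin m) K, ∀ v, q₁ ((y₀ : Matrix _ _ K) *ᵥ v) = 1 * q₂ v := by
  obtain ⟨ζ₁, hζ₁, e₁, he₁⟩ := h₁
  obtain ⟨ζ₂, hζ₂, e₂, he₂⟩ := h₂
  obtain ⟨α, β, hβ, hiso⟩ := minus_isometric (anisotropic_of_zeta hζ₁) (anisotropic_of_zeta hζ₂)
  refine ⟨glOfEquiv (e₂.trans ((binE (m - 1) α β hβ).trans e₁.symm)), fun v => ?_⟩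
  rw [glOfEquiv_mulVec, he₁, he₂, one_mul]
  have h1 := binH_isom (m := m - 1) hβ hiso (e₂ v)
  rw [binH, glOfEquiv_mulVec] at h1
  simpa using h1

/-- The reflection matrix in a fixed vector is fixed. -/
theorem glMap_rO {Q : QuadraticForm F (Fin m ⊕ Fin m → F)} {σ : F ≃+* F} (hσ : ∀ v, Q (sm σ v) = σ (Q v)) {v : Fin m ⊕ Fin m → F} (hv : Q v ≠ 0) (hfix : sm σ v = v) :
    glMap σ (rO Q v).1 = (rO Q v).1 := by
  apply Units.ext
  rw [glMap_coe]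
  show (oM (rO Q v)).map σ = oM (rO Q v)
  rw [show oM (rO Q v) = rr Q v from rO_mat hv]
  have h1 := rr_bc (σ : F →+* F) (Q := Q) (Q₀ := Q) (fun u => (hσ u).symm) v
  have h2 : bc (σ : F →+* F) v = v := hfix
  rw [h2] at h1
  exact h1.symm

/-- Graph-field case: a non-KP similarity in the coset of order two is conjugate to the standard graph-field automorphism. -/
theorem plus_gf_core (hm : 4 ≤ m) {σ : F ≃+* F} {v₀ : Fin m ⊕ Fin m → F} (hv₀ : hypQF m F v₀ ≠ 0) (hfix : sm σ v₀ = v₀) (hσ2 : orderOf σ = 2)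
    {g : GL II F} (hg : g ∈ Sim (hypQF m F)) (hK : ¬ KP (hypQF m F) g)
    (hs : Cfsg.IsSemisimilarityPair (⇑(hypQF m F)) g σ) (hy : (psemiO g σ hs) ^ 2 = 1)
    (hs₀ : Cfsg.IsSemisimilarityPair (⇑(hypQF m F)) (rO (hypQF m F) v₀).1 σ) :
    ∃ (z : GL II F) (hz : z ∈ Sim (hypQF m F)), KP (hypQF m F) z ∧
      psemiO g σ hs = psemiO z (RingEquiv.refl F) (semi_of_sim hz) * psemiO (rO (hypQF m F) v₀).1 σ hs₀ * (psemiO z (RingEquiv.refl F) (semi_of_sim hz))⁻¹ := by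
  have : Good (hypQF m F) := good_hyp hm
  have hne := ne_of_good (Q := hypQF m F)
  have : Fintype (fixedField σ) := Fintype.ofFinite _
  have hσ := hyp_sm (m := m) σ
  have hnd : NondegQ (hypQF m F) := NondegQ.of_polarBilin (hypQF_nd m)
  obtain ⟨u, hu⟩ := rescale_nrm hg hs (by norm_num) hσ2 hy
  have hg' : Matrix.GeneralLinearGroup.scalar II u * g ∈ Sim (hypQF m F) := Subgroup.mul_mem _ (sim_scalar u) hg
  have hK' : ¬ KP (hypQF m F) (Matrix.GeneralLinearGroup.scalar II u * g) := fun h1 => hK (KP_of_mul_left (even_II m) hne (KP_scalar (even_II m) u) h1)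
  have hr₀s : (rO (hypQF m F) v₀).1 ∈ Sim (hypQF m F) := og_le_sim (rO (hypQF m F) v₀).2
  have hr₀K : ¬ KP (hypQF m F) (rO (hypQF m F) v₀).1 := not_KP_rO (hypQF_nd m) (hq_of_good (hypQF m F)) hv₀
  have hr₀n : nrm (rO (hypQF m F) v₀).1 σ 2 = 1 := by
    have e1 := glMap_rO hσ hv₀ hfix
    have e2 : (rO (hypQF m F) v₀).1 * (rO (hypQF m F) v₀).1 = 1 := congrArg Subtype.val (Cfsg.Agent.Lib.Spinor.rO_mul_self v₀)
    simp only [nrm, map_mul, map_one, mul_one, e1, e2]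
  obtain ⟨x₁, b₁, q₁, hb₁, hx₁, hn₁, hq₁⟩ := h90_form (fixedField σ).subtype (fun b => mem_fixedField.1 b.2)
    (fun a ha => ⟨⟨a, mem_fixedField.2 ha⟩, rfl⟩) hσ hnd hne hg' (by norm_num) hσ2 hu
  obtain ⟨x₂, b₂, q₂, hb₂, hx₂, hn₂, hq₂⟩ := h90_form (fixedField σ).subtype (fun b => mem_fixedField.1 b.2)
    (fun a ha => ⟨⟨a, mem_fixedField.2 ha⟩, rfl⟩) hσ hnd hne hr₀s (by norm_num) hσ2 hr₀n
  have t₁ := type_of_not_KP (m := m) (by omega) (fixedField σ).subtype (fun b => mem_fixedField.1 b.2) hn₁ hb₁ hq₁ (hx₁ ▸ hg') (hx₁ ▸ hK')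
  have t₂ := type_of_not_KP (m := m) (by omega) (fixedField σ).subtype (fun b => mem_fixedField.1 b.2) hn₂ hb₂ hq₂ (hx₂ ▸ hr₀s) (hx₂ ▸ hr₀K)
  obtain ⟨y₀, hy₀⟩ := minus_models t₁ t₂
  obtain ⟨z, hz, hzg⟩ := h90_pair (fixedField σ).subtype (fun b => mem_fixedField.1 b.2) hb₁ hb₂ hq₁ hq₂ y₀ 1 one_ne_zero hy₀
  rw [← hx₁, ← hx₂] at hzg
  have hsg' : Cfsg.IsSemisimilarityPair (⇑(hypQF m F)) (Matrix.GeneralLinearGroup.scalar II u * g) σ := by
    have := semi_mul_mem (semi_of_sim (sim_scalar (Q := hypQF m F) u)) hs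
    rwa [glMap_one] at this
  have e1 : psemiO (Matrix.GeneralLinearGroup.scalar II u * g) σ hsg' = psemiO g σ hs := psemiO_smul_eq σ hs hsg' (c := u.1) (coe_scalar_mul u g) u.ne_zero
  have hm2 : Cfsg.IsSemisimilarityPair (⇑(hypQF m F)) (z * (rO (hypQF m F) v₀).1 * (glMap σ z)⁻¹) σ := by
    rw [← hzg]
    exact hsg'
  have e2 := psemiO_conj (semi_of_sim hz) hs₀ hm2
  have hzc : (psemiO (rO (hypQF m F) v₀).1 (RingEquiv.refl F) (semi_of_og _)) * psemiO (rO (hypQF m F) v₀).1 σ hs₀ = psemiO (rO (hypQF m F) v₀).1 σ hs₀ * (psemiO (rO (hypQF m F) v₀).1 (RingEquiv.refl F) (semi_of_og _)) := by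
    have hs₁ : Cfsg.IsSemisimilarityPair (⇑(hypQF m F)) ((rO (hypQF m F) v₀).1 * (rO (hypQF m F) v₀).1) σ := by
      have := semi_mul_mem (semi_of_og (rO (hypQF m F) v₀)) hs₀
      rwa [glMap_one] at this
    have hs₂ : Cfsg.IsSemisimilarityPair (⇑(hypQF m F)) ((rO (hypQF m F) v₀).1 * glMap σ (rO (hypQF m F) v₀).1) σ := by
      rw [glMap_rO hσ hv₀ hfix]
      exact hs₁
    rw [psemiO_refl_mul (semi_of_og _) hs₀ hs₁, psemiO_mul_refl (semi_of_og _) hs₀ hs₂]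
    exact psemiO_congr (by rw [glMap_rO hσ hv₀ hfix]) rfl
  obtain ⟨z', hz', hKz', hadj⟩ := conj_KP_adjust' (even_II m) hv₀ hzc hz
  refine ⟨z', hz', hKz', ?_⟩
  rw [← hadj, e2, ← e1]
  exact psemiO_congr hzg rfl

/-- The order analysis for graph-field automorphisms. -/
theorem gf_order (hm : 4 ≤ m) {σ : F ≃+* F} (hσ1 : σ ≠ RingEquiv.refl F) {v₀ : Fin m ⊕ Fin m → F} (hv₀ : hypQF m F v₀ ≠ 0) (hfix : sm σ v₀ = v₀)
    (hs₀ : Cfsg.IsSemisimilarityPair (⇑(hypQF m F)) (rO (hypQF m F) v₀).1 σ) {r : ℕ} (hr : r.Prime) (hxr : orderOf (psemiO (rO (hypQF m F) v₀).1 σ hs₀) = r) :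
    r = 2 ∧ orderOf σ = 2 := by
  have : Good (hypQF m F) := good_hyp hm
  have hσ := hyp_sm (m := m) σ
  have h1 : (psemiO (rO (hypQF m F) v₀).1 σ hs₀) ^ r = 1 := by rw [← hxr]; exact pow_orderOf_eq_one _
  have h2 := h1
  rw [psemiO_pow] at h2
  obtain ⟨h3, -⟩ := psemiO_eq_one h2
  have h4 : orderOf σ ∣ r := orderOf_dvd_of_pow_eq_one h3
  have h5 : orderOf σ ≠ 1 := by
    intro h6
    exact hσ1 (orderOf_eq_one_iff.1 h6)
  have h6 : orderOf σ = r := ((Nat.dvd_prime hr).1 h4).resolve_left h5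
  have hs₁ : Cfsg.IsSemisimilarityPair (⇑(hypQF m F)) ((rO (hypQF m F) v₀).1 * 1) σ := by
    have := semi_mul_mem (semi_of_og (rO (hypQF m F) v₀)) (semi_std hσ)
    rwa [glMap_one] at this
  have e1 : psemiO (rO (hypQF m F) v₀).1 σ hs₀ = psemiO (rO (hypQF m F) v₀).1 (RingEquiv.refl F) (semi_of_og _) * psemiO 1 σ (semi_std hσ) := by
    rw [psemiO_refl_mul (semi_of_og _) (semi_std hσ) hs₁]
    exact psemiO_congr (mul_one _).symm rfl
  have hc := Subgroup.mem_centralizer_singleton_iff.1 (rO_fixed_comm hσ hv₀ hfix)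
  have hΦ : (psemiO (1 : GL II F) σ (semi_std hσ)) ^ r = 1 := by
    rw [← h6, ← orderOf_std hσ]
    exact pow_orderOf_eq_one _
  have hRR : psemiO (rO (hypQF m F) v₀).1 (RingEquiv.refl F) (semi_of_og _) * psemiO (rO (hypQF m F) v₀).1 (RingEquiv.refl F) (semi_of_og _) = 1 := by
    have hrs : (rO (hypQF m F) v₀).1 ∈ Sim (hypQF m F) := og_le_sim (rO (hypQF m F) v₀).2
    have e2 : (rO (hypQF m F) v₀).1 * (rO (hypQF m F) v₀).1 = 1 := congrArg Subtype.val (Cfsg.Agent.Lib.Spinor.rO_mul_self v₀)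
    have e3 := map_mul (simAut (Q := hypQF m F)) ⟨_, hrs⟩ ⟨_, hrs⟩
    have e4 : (⟨_, hrs⟩ : ↥(Sim (hypQF m F))) * ⟨_, hrs⟩ = 1 := Subtype.ext e2
    rw [e4, map_one] at e3
    exact e3.symm
  have hR1 : psemiO (rO (hypQF m F) v₀).1 (RingEquiv.refl F) (semi_of_og _) ≠ 1 := by
    intro h7
    obtain ⟨-, c, hc0, hcc⟩ := psemiO_eq_one h7
    have h8 : (rO (hypQF m F) v₀).1 = Matrix.GeneralLinearGroup.scalar II (Units.mk0 c hc0) := by
      apply Units.ext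
      rw [hcc, Matrix.GeneralLinearGroup.coe_scalar, Matrix.scalar_apply, ← Matrix.smul_one_eq_diagonal]
      rfl
    apply not_KP_rO (hypQF_nd m) (hq_of_good (hypQF m F)) hv₀
    rw [h8]
    exact KP_scalar (even_II m) _
  have hr2 : r = 2 := by
    by_contra hne2
    obtain ⟨k, hk⟩ := hr.eq_two_or_odd'.resolve_left hne2
    apply hR1
    rw [e1] at h1
    generalize psemiO (rO (hypQF m F) v₀).1 (RingEquiv.refl F) (semi_of_og _) = R at *
    generalize psemiO (1 : GL II F) σ (semi_std hσ) = X at *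
    have hcm : Commute R X := hc
    rw [hcm.mul_pow, hΦ, mul_one, hk, pow_succ, pow_mul, pow_two, hRR, one_pow, one_mul] at h1
    exact h1
  exact ⟨hr2, h6.trans hr2⟩

/-- Finishing the conjugation. -/
theorem conj_finish {G : Type*} [Group G] {D : Subgroup G} (hN : D.Normal) {x δ α X₀ Y Z : G} (hx₀ : α * x * α⁻¹ = X₀) (hY : α * (δ * x) * α⁻¹ = Y)
    (hZ : Z ∈ D) (he : Y = Z * X₀ * Z⁻¹) : Cfsg.IsConjUnder D x (δ * x) := by
  refine ⟨α⁻¹ * Z * α, ?_, ?_⟩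
  · have := hN.conj_mem Z hZ α⁻¹
    simpa using this
  · have h4 : δ * x = α⁻¹ * (α * (δ * x) * α⁻¹) * α := by group
    rw [h4, hY, he, ← hx₀]
    group

/-- The graph-field case. -/
theorem coset_plus_gf (hm : 5 ≤ m) (x δ : MulAut (PO (hypQF m F))) {r : ℕ} (hr : r.Prime) (hxr : orderOf x = r) (hne : ∃ v : Fin m ⊕ Fin m → F, hypQF m F v ≠ 0)
    (hδ : δ ∈ GD (even_II m) hne) (hy : orderOf (δ * x) = r)
    (α γ φ : MulAut (PO (hypQF m F))) (σ : F ≃+* F) (v : Fin m ⊕ Fin m → F) (r₀ : GL (Fin m ⊕ Fin m) F) (hσ1 : σ ≠ RingEquiv.refl F) (hv' : hypQF m F v ≠ 0) (hvfix : ∀ i, σ (v i) = v i)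
    (hr₀ : (r₀ : Matrix _ _ F) = Cfsg.reflectionMatrix (⇑(hypQF m F)) v) (hγ : Cfsg.IsInducedBySemilinearPOmega (⇑(hypQF m F)) r₀ (RingEquiv.refl F) γ)
    (hφ : Cfsg.IsFieldAutPOmegaOf (⇑(hypQF m F)) σ φ) (hαx : α * x * α⁻¹ = γ * φ) : Cfsg.IsConjUnder (GD (even_II m) hne) x (δ * x) := by
  have : Good (hypQF m F) := good_hyp (by omega)
  have hN := GD_normal (even_II m) hne (hall_plus hm)
  have hσ := hyp_sm (m := m) σ
  have hφ' := stdField_eq hσ hφ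
  subst hφ'
  have hfix : sm σ v = v := funext hvfix
  have hrr : r₀ = (rO (hypQF m F) v).1 := by
    apply Units.ext
    rw [hr₀]
    exact (rO_mat hv').symm
  subst hrr
  have hγ' := induced_eq (Q := hypQF m F) (hs := semi_of_og _) hγ
  subst hγ'
  have hs₁ : Cfsg.IsSemisimilarityPair (⇑(hypQF m F)) ((rO (hypQF m F) v).1 * 1) σ := by
    have := semi_mul_mem (semi_of_og (rO (hypQF m F) v)) (semi_std hσ)
    rwa [glMap_one] at this
  have hs₀ : Cfsg.IsSemisimilarityPair (⇑(hypQF m F)) (rO (hypQF m F) v).1 σ := by rwa [mul_one] at hs₁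
  have e1 : α * x * α⁻¹ = psemiO (rO (hypQF m F) v).1 σ hs₀ := by
    rw [hαx, psemiO_refl_mul (semi_of_og _) (semi_std hσ) hs₁]
    exact psemiO_congr (mul_one _) rfl
  have hxr' : orderOf (psemiO (rO (hypQF m F) v).1 σ hs₀) = r := by
    rw [← e1, orderOf_conj', hxr]
  obtain ⟨hr2, hordσ⟩ := gf_order (by omega) hσ1 hv' hfix hs₀ hr hxr'
  subst hr2
  obtain ⟨g, hg, hK, hge⟩ := mem_GD.1 (hN.conj_mem δ hδ α)
  have hrs : (rO (hypQF m F) v).1 ∈ Sim (hypQF m F) := og_le_sim (rO (hypQF m F) v).2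
  have hgσ : Cfsg.IsSemisimilarityPair (⇑(hypQF m F)) (g * (rO (hypQF m F) v).1) σ := by
    have := semi_mul_mem (semi_of_sim hg) hs₀
    rwa [glMap_one] at this
  have h1 : α * (δ * x) * α⁻¹ = psemiO (g * (rO (hypQF m F) v).1) σ hgσ := by
    have h2 : α * (δ * x) * α⁻¹ = (α * δ * α⁻¹) * (α * x * α⁻¹) := by group
    rw [h2, hge, e1, psemiO_refl_mul (semi_of_sim hg) hs₀ hgσ]
  have h3 : (psemiO (g * (rO (hypQF m F) v).1) σ hgσ) ^ 2 = 1 := by
    rw [← h1, ← hy, ← orderOf_conj' α, pow_orderOf_eq_one]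
  have hK' : ¬ KP (hypQF m F) (g * (rO (hypQF m F) v).1) := fun h4 =>
    not_KP_rO (hypQF_nd m) (hq_of_good (hypQF m F)) hv' (KP_of_mul_left (even_II m) hne hK h4)
  obtain ⟨z, hz, hKz, hhe⟩ := plus_gf_core (by omega) hv' hfix hordσ (Subgroup.mul_mem _ hg hrs) hK' hgσ h3 hs₀
  exact conj_finish hN e1 h1 (mem_GD.2 ⟨z, hz, hKz, rfl⟩) hhe

/-- The main direction of the coset theorem, after transport to an automorphism. -/
theorem coset_plus_aux (hm : 5 ≤ m) (x δ : MulAut (PO (hypQF m F))) (hx : Cfsg.IsFieldAutClassPOmega (⇑(hypQF m F)) x ∨ Cfsg.IsGraphFieldAutClassPOmegaPlus m x)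
    {r : ℕ} (hr : r.Prime) (hxr : orderOf x = r) (hne : ∃ v : Fin m ⊕ Fin m → F, hypQF m F v ≠ 0)
    (hδ : δ ∈ GD (even_II m) hne) (hy : orderOf (δ * x) = r) : Cfsg.IsConjUnder (GD (even_II m) hne) x (δ * x) := by
  have : Good (hypQF m F) := good_hyp (by omega)
  have hN := GD_normal (even_II m) hne (hall_plus hm)
  rcases hx with ⟨α, φ, σ, hσ1, hφ, hαx⟩ | ⟨α, γ, φ, σ, v, r₀, hσ1, hv, hvfix, hr₀, hγ, hφ, hαx⟩
  · have hσ := hyp_sm (m := m) σ
    have hφ' := stdField_eq hσ hφ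
    subst hφ'
    have hordσ : orderOf σ = r := by
      rw [← orderOf_std hσ, ← hαx, orderOf_conj', hxr]
    obtain ⟨g, hg, hK, hge⟩ := mem_GD.1 (hN.conj_mem δ hδ α)
    have hgσ : Cfsg.IsSemisimilarityPair (⇑(hypQF m F)) (g * 1) σ := by
      have := semi_mul_mem (semi_of_sim hg) (semi_std hσ)
      rwa [glMap_one] at this
    have hgσ' : Cfsg.IsSemisimilarityPair (⇑(hypQF m F)) g σ := by rwa [mul_one] at hgσ
    have h1 : α * (δ * x) * α⁻¹ = psemiO g σ hgσ' := by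
      have h2 : α * (δ * x) * α⁻¹ = (α * δ * α⁻¹) * (α * x * α⁻¹) := by group
      rw [h2, hge, hαx, psemiO_refl_mul (semi_of_sim hg) (semi_std hσ) hgσ]
      exact psemiO_congr (mul_one g) rfl
    have h3 : (psemiO g σ hgσ') ^ r = 1 := by
      rw [← h1, ← hy, ← orderOf_conj' α, pow_orderOf_eq_one]
    obtain ⟨z, hz, hKz, hhe⟩ := plus_field_core (by omega) hg hK hgσ' hr.pos hordσ h3
    exact conj_finish hN hαx h1 (mem_GD.2 ⟨z, hz, hKz, rfl⟩) hhe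
  · exact coset_plus_gf hm x δ hr hxr hne hδ hy α γ φ σ v r₀ hσ1 hv hvfix hr₀ hγ hφ hαx

/-- `S2736`. -/
theorem coset_plus (hm : 5 ≤ m) (x δ : MulAut (Cfsg.POmega F (Cfsg.quadFormPlus m F))) (hx : Cfsg.IsFieldAutClassPOmega (Cfsg.quadFormPlus m F) x ∨ Cfsg.IsGraphFieldAutClassPOmegaPlus m x)
    {r : ℕ} (hr : r.Prime) (hxr : orderOf x = r) (hδ : δ ∈ Cfsg.inndiagPOmegaPlus m F) :
    orderOf (δ * x) = r ↔ Cfsg.IsConjUnder (Cfsg.inndiagPOmegaPlus m F) x (δ * x) := by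
  have : Good (hypQF m F) := good_hyp (by omega)
  have hne := ne_of_good (Q := hypQF m F)
  have e := inndiag_plus_eq (F := F) (m := m) (by omega) hne
  constructor
  · intro hy
    rw [e] at hδ ⊢
    exact coset_plus_aux hm x δ hx hr hxr hne hδ hy
  · rintro ⟨h, -, he⟩
    rw [he, orderOf_conj', hxr]

end plus

end Cfsg.Agent.Lib.AutPOm
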