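import Cfsg.Agent.Lib.AutPOm.OutMinus

/-! The type of the descended form and the parity of semilinear similarities of the plus-type form. -/

set_option autoImplicit false
set_option linter.unusedSimpArgs false
set_option linter.unusedVariables false
set_option linter.unusedSectionVars false

namespace Cfsg.Agent.Lib.AutPOm

open Matrix Module MulAction Cfsg.Agent.Lib.Classical
open Cfsg.Agent.Lib.AutPSL (sm sm_apply sm_add sm_smul sm_symm_sm sm_sm_symm glMap glMap_coe semi_vec_ne_zero map_mulVec_sm coe_scalar_mul glMap_one exists_hom_of_rel exists_gal_equiv card_gal orderOf_conj' nrm)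
open Cfsg.Agent.Lib.ClassMax.OmegaCore (IsMaxTS imgOf mem_imgOf finrank_imgOf imgOf_mul imgOf_one imgOf_inf par_triple mem_iso_iff)
open Cfsg.Agent.Lib.Spinor (ndf rr rO lp nm U0 U0_maxTS mem_U0 finrank_U0 plusQF_nondeg rO_mat)
open Cfsg.Agent.Lib.Quad (NondegQ minusQF minusQF_apply plusQF plusQF_apply coe_plusQF exists_type_gen finrank_le_of_minus_singular anisotropic_of_zeta)
open Cfsg.Agent.Lib.FieldAut (fixedField mem_fixedField)
open scoped LinearAlgebra.Projectivization MatrixGroups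

section parS

variable {K : Type*} [Field K] [Fintype K] {ι : Type} [Fintype ι] [DecidableEq ι] {Q₁ : QuadraticForm K (ι → K)}

theorem parS_indep (hnd : (QuadraticMap.polarBilin Q₁).Nondegenerate) {U U' : Submodule K (ι → K)} (hU : IsMaxTS (⇑Q₁) U) (hU' : IsMaxTS (⇑Q₁) U') {M : GL ι K} {τ : K ≃+* K}
    (hM : Cfsg.IsSemisimilarityPair (⇑Q₁) M τ) : parS U M τ % 2 = parS U' M τ % 2 := by
  have hgU := imgS_isMaxTS hU hM
  have hgU' := imgS_isMaxTS hU' hM
  have h1 := par_triple (ndf hnd) hU hU' hgU'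
  have h2 := par_triple (ndf hnd) hU hgU hgU'
  rw [← imgS_inf, finrank_imgS] at h2
  have h3 := hU.half
  have h4 := hU'.half
  have h5 := hgU.half
  rw [finrank_imgS] at h5
  have h6 : finrank K U = finrank K U' := by omega
  have h7 : finrank K (imgS M τ U) = finrank K U := finrank_imgS M τ U
  rw [h7] at h2
  unfold parS
  omega

end parS

section base

variable {K F : Type*} [Field K] [Field F] {ι I : Type} [Fintype ι] [DecidableEq ι] [Fintype I] [DecidableEq I]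

/-- Base change of a linear map. -/
noncomputable def bcLin (φ : K →+* F) (e : (ι → K) →ₗ[K] (I → K)) : (ι → F) →ₗ[F] (I → F) :=
  Matrix.mulVecLin ((LinearMap.toMatrix' e).map φ)

theorem bcLin_apply (φ : K →+* F) (e : (ι → K) →ₗ[K] (I → K)) (v : ι → F) : bcLin φ e v = (LinearMap.toMatrix' e).map φ *ᵥ v := rfl

theorem bcLin_bc (φ : K →+* F) (e : (ι → K) →ₗ[K] (I → K)) (v : ι → K) : bcLin φ e (bc φ v) = bc φ (e v) := by
  rw [bcLin_apply]
  funext i
  have h1 := RingHom.map_mulVec φ (LinearMap.toMatrix' e) v i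
  rw [LinearMap.toMatrix'_mulVec] at h1
  exact h1.symm

theorem bcLin_comp {J : Type} [Fintype J] [DecidableEq J] (φ : K →+* F) (e : (ι → K) →ₗ[K] (I → K)) (e' : (I → K) →ₗ[K] (J → K)) (v : ι → F) :
    bcLin φ e' (bcLin φ e v) = bcLin φ (e' ∘ₗ e) v := by
  rw [bcLin_apply, bcLin_apply, bcLin_apply, Matrix.mulVec_mulVec, LinearMap.toMatrix'_comp, Matrix.map_mul]

theorem bcLin_id (φ : K →+* F) (v : ι → F) : bcLin φ (LinearMap.id : (ι → K) →ₗ[K] (ι → K)) v = v := by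
  rw [bcLin_apply, LinearMap.toMatrix'_id]
  simp

/-- Base change of a linear isomorphism. -/
noncomputable def bcEquiv (φ : K →+* F) (e : (ι → K) ≃ₗ[K] (I → K)) : (ι → F) ≃ₗ[F] (I → F) :=
  LinearEquiv.ofLinear (bcLin φ e.toLinearMap) (bcLin φ e.symm.toLinearMap)
    (by
      ext1 i
      apply LinearMap.ext
      intro x
      simp only [LinearMap.comp_apply, bcLin_comp, LinearEquiv.comp_coe, LinearEquiv.symm_trans_self, LinearEquiv.refl_toLinearMap, bcLin_id, LinearMap.id_apply])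
    (by
      ext1 i
      apply LinearMap.ext
      intro x
      simp only [LinearMap.comp_apply, bcLin_comp, LinearEquiv.comp_coe, LinearEquiv.self_trans_symm, LinearEquiv.refl_toLinearMap, bcLin_id, LinearMap.id_apply])

theorem bcEquiv_apply (φ : K →+* F) (e : (ι → K) ≃ₗ[K] (I → K)) (v : ι → F) : bcEquiv φ e v = (LinearMap.toMatrix' e.toLinearMap).map φ *ᵥ v := rfl

theorem bcEquiv_bc (φ : K →+* F) (e : (ι → K) ≃ₗ[K] (I → K)) (v : ι → K) : bcEquiv φ e (bc φ v) = bc φ (e v) :=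
  bcLin_bc φ e.toLinearMap v

theorem bcEquiv_sm (φ : K →+* F) (e : (ι → K) ≃ₗ[K] (I → K)) {σ : F ≃+* F} (hφ' : ∀ b, σ (φ b) = φ b) (v : ι → F) :
    bcEquiv φ e (sm σ v) = sm σ (bcEquiv φ e v) := by
  rw [bcEquiv_apply, bcEquiv_apply]
  funext i
  simp only [Matrix.mulVec, dotProduct, sm_apply, map_sum, map_mul, Matrix.map_apply, hφ']

end base

section model

variable {F : Type*} [Field F] [Fintype F] {ι I : Type} [Fintype ι] [DecidableEq ι] [Fintype I] [DecidableEq I] {Q : QuadraticForm F (ι → F)}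

theorem img_twist (x : GL ι F) (σ : F ≃+* F) (U' : Submodule F (ι → F)) :
    imgS (x * (glMap σ x)⁻¹) σ (imgOf x U') = imgOf x (smap σ U') := by
  ext v
  rw [mem_imgS, mem_imgOf]
  constructor
  · rintro ⟨u, hu, rfl⟩
    obtain ⟨u', hu', rfl⟩ := mem_imgOf.1 hu
    refine ⟨sm σ u', sm_mem_smap.2 hu', ?_⟩
    rw [← map_mulVec_sm, Units.val_mul, ← Matrix.mulVec_mulVec, ← glMap_coe, gl_inv_mul]
  · rintro ⟨u, hu, rfl⟩
    refine ⟨(x : Matrix ι ι F) *ᵥ sm σ.symm u, mem_imgOf.2 ⟨_, hu, rfl⟩, ?_⟩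
    rw [← map_mulVec_sm, sm_sm_symm, Units.val_mul, ← Matrix.mulVec_mulVec, ← glMap_coe, gl_inv_mul]

theorem finrank_comap_equiv (E : (ι → F) ≃ₗ[F] (I → F)) (S : Submodule F (I → F)) : finrank F (S.comap E.toLinearMap) = finrank F S :=
  (E.ofSubmodule' S).finrank_eq

/-- The parity of a semilinear map attached to a model of the twisted form. -/
theorem par_of_model (x : GL ι F) (σ : F ≃+* F) {b : F} (hb : b ≠ 0) {R : QuadraticForm F (I → F)} (E : (ι → F) ≃ₗ[F] (I → F))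
    (hEσ : ∀ v, E (sm σ v) = sm σ (E v)) (hR : ∀ v, b⁻¹ * Q ((x : Matrix ι ι F) *ᵥ v) = R (E v)) (S : Submodule F (I → F)) (hS : ∀ s ∈ S, R s = 0)
    (hd : 2 * finrank F S = Fintype.card ι) :
    ∃ U, IsMaxTS (⇑Q) U ∧ parS U (x * (glMap σ x)⁻¹) σ = finrank F (S ⊓ smap σ S : Submodule F (I → F)) + finrank F S := by
  set U' : Submodule F (ι → F) := S.comap E.toLinearMap with hU'
  have hfin : finrank F U' = finrank F S := finrank_comap_equiv E S
  have hEσ' : ∀ v, E (sm σ.symm v) = sm σ.symm (E v) := by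
    intro v
    have h1 := hEσ (sm σ.symm v)
    rw [sm_sm_symm] at h1
    rw [h1, sm_symm_sm]
  have hsm : smap σ U' = (smap σ S).comap E.toLinearMap := by
    ext v
    rw [mem_smap, hU', Submodule.mem_comap, Submodule.mem_comap, mem_smap]
    show E (sm σ.symm v) ∈ S ↔ sm σ.symm (E v) ∈ S
    rw [hEσ']
  refine ⟨imgOf x U', ⟨?_, ?_⟩, ?_⟩
  · intro v hv
    obtain ⟨u, hu, rfl⟩ := mem_imgOf.1 hv
    have h1 := hR u
    have h0 : R (E u) = 0 := hS _ hu
    rw [h0] at h1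
    exact (mul_eq_zero.1 h1).resolve_left (inv_ne_zero hb)
  · rw [finrank_imgOf, hfin]
    exact hd
  · unfold parS
    rw [img_twist, ← imgOf_inf, finrank_imgOf, finrank_imgOf, hfin, hsm, ← Submodule.comap_inf, finrank_comap_equiv]

end model

section plusType

variable {F K : Type*} [Field F] [Fintype F] [Field K] [Fintype K] {m : ℕ}

local notation "II" => (Fin m ⊕ Fin m)

theorem hyp_U0 (m : ℕ) : IsMaxTS (⇑(hypQF m F)) (U0 m F) := by
  have := U0_maxTS (F := F) m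
  rwa [← hypQF_eq] at this

theorem hyp_sm (σ : F ≃+* F) (v : Fin m ⊕ Fin m → F) : hypQF m F (sm σ v) = σ (hypQF m F v) := by
  simp [hypQF_apply, Cfsg.quadFormPlus, sm, map_sum]

theorem hyp_bc (φ : K →+* F) (v : Fin m ⊕ Fin m → K) : φ (hypQF m K v) = hypQF m F (bc φ v) := by
  simp [hypQF_apply, Cfsg.quadFormPlus, bc, map_sum]

theorem smap_U0 (σ : F ≃+* F) : smap σ (U0 m F) = U0 m F := by
  ext v
  rw [mem_smap, mem_U0, mem_U0]
  simp only [sm_apply]
  constructor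
  · intro h i
    have := h i
    simpa using this
  · intro h i
    rw [h i, map_zero]

theorem parS_std (σ : F ≃+* F) : parS (U0 m F) (1 : GL (Fin m ⊕ Fin m) F) σ % 2 = 0 := by
  unfold parS imgS
  rw [imgOf_one, smap_U0, inf_idem]
  omega

theorem parV_KP (hm : 3 ≤ m) {U : Submodule F (Fin m ⊕ Fin m → F)} (hU : IsMaxTS (⇑(hypQF m F)) U) {g : GL (Fin m ⊕ Fin m) F} (hg : g ∈ Sim (hypQF m F)) :
    parV U g % 2 = 0 ↔ KP (hypQF m F) g := by
  rw [parV_indep (hypQF_nd m) hU (hyp_U0 m) hg, ← hyp_link hm hg]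
  exact (preserves_iff_par (hypQF_nd m) (hyp_U0 m) hg).symm

theorem parS_KP (hm : 3 ≤ m) {U : Submodule F (Fin m ⊕ Fin m → F)} (hU : IsMaxTS (⇑(hypQF m F)) U) {g : GL (Fin m ⊕ Fin m) F} (hg : g ∈ Sim (hypQF m F)) (σ : F ≃+* F) :
    parS U g σ % 2 = 0 ↔ KP (hypQF m F) g := by
  have hσ : ∀ v, hypQF m F (sm σ v) = σ (hypQF m F v) := hyp_sm σ
  have h1 := parS_mul (hypQF_nd m) hU (semi_of_sim hg) (semi_std hσ)
  have e1 : g * glMap (RingEquiv.refl F) (1 : GL (Fin m ⊕ Fin m) F) = g := by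
    rw [glMap_one, mul_one]
  have e2 : σ.trans (RingEquiv.refl F) = σ := by
    ext a
    rfl
  rw [e1, e2, parS_refl] at h1
  have h3 := parS_indep (hypQF_nd m) hU (hyp_U0 m) (semi_std hσ)
  have h4 := parS_std (m := m) σ
  rw [← parV_KP hm hU hg]
  omega

/-- A model of plus type has even parity. -/
theorem par_of_plus (φ : K →+* F) {σ : F ≃+* F} (hφ' : ∀ b, σ (φ b) = φ b) {q₀ : QuadraticForm K (Fin m ⊕ Fin m → K)} {x : GL (Fin m ⊕ Fin m) F} {b : F} (hb : b ≠ 0)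
    (hq : ∀ v, φ (q₀ v) = b⁻¹ * hypQF m F ((x : Matrix _ _ F) *ᵥ bc φ v))
    (e : (Fin m ⊕ Fin m → K) ≃ₗ[K] (Fin m ⊕ Fin m → K)) (he : ∀ v, q₀ v = Cfsg.quadFormPlus m K (e v)) :
    ∃ U, IsMaxTS (⇑(hypQF m F)) U ∧ parS U (x * (glMap σ x)⁻¹) σ % 2 = 0 := by
  have hR : ∀ v, b⁻¹ * hypQF m F ((x : Matrix _ _ F) *ᵥ v) = hypQF m F (bcEquiv φ e v) := by
    have key : b⁻¹ • (hypQF m F).comp (Matrix.mulVecLin (x : Matrix _ _ F)) = (hypQF m F).comp (bcEquiv φ e).toLinearMap := by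
      apply quad_eq_of_bc φ
      intro v
      simp only [_root_.smul_apply, QuadraticMap.comp_apply, Matrix.mulVecLin_apply, smul_eq_mul, LinearEquiv.coe_coe]
      rw [← hq, he, bcEquiv_bc, ← hyp_bc]
      rfl
    intro v
    have := congrArg (fun P => P v) key
    simpa using this
  obtain ⟨U, hU, hp⟩ := par_of_model (Q := hypQF m F) x σ hb (bcEquiv φ e) (fun v => bcEquiv_sm φ e hφ' v) hR (U0 m F) (hyp_U0 m).ts (hyp_U0 m).half
  refine ⟨U, hU, ?_⟩
  rw [hp, smap_U0, inf_idem]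
  omega

/-- A model of minus type has odd parity. -/
theorem par_of_minus (hm : 1 ≤ m) (φ : K →+* F) {σ : F ≃+* F} (hφ' : ∀ b, σ (φ b) = φ b) (hφ : ∀ a, σ a = a → ∃ b, φ b = a) {q₀ : QuadraticForm K (Fin m ⊕ Fin m → K)} {x : GL (Fin m ⊕ Fin m) F} {b : F} (hb : b ≠ 0)
    (hq : ∀ v, φ (q₀ v) = b⁻¹ * hypQF m F ((x : Matrix _ _ F) *ᵥ bc φ v))
    {ζ : K} (hζ : ∀ t : K, t ^ 2 + t + ζ ≠ 0) (e : (Fin m ⊕ Fin m → K) ≃ₗ[K] ((Fin (m - 1) ⊕ Fin (m - 1)) ⊕ Fin 2 → K))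
    (he : ∀ v, q₀ v = Cfsg.quadFormMinus (m - 1) K 1 ζ (e v)) :
    ∃ U, IsMaxTS (⇑(hypQF m F)) U ∧ parS U (x * (glMap σ x)⁻¹) σ % 2 = 1 := by
  have hR : ∀ v, b⁻¹ * hypQF m F ((x : Matrix _ _ F) *ᵥ v) = minusQF (m - 1) 1 (φ ζ) (bcEquiv φ e v) := by
    have key : b⁻¹ • (hypQF m F).comp (Matrix.mulVecLin (x : Matrix _ _ F)) = (minusQF (m - 1) 1 (φ ζ)).comp (bcEquiv φ e).toLinearMap := by
      apply quad_eq_of_bc φ
      intro v
      simp only [_root_.smul_apply, QuadraticMap.comp_apply, Matrix.mulVecLin_apply, smul_eq_mul, LinearEquiv.coe_coe]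
      rw [← hq, he, bcEquiv_bc]
      have := minusQF_bc (m := m - 1) φ 1 ζ (e v)
      rw [map_one] at this
      exact this
    intro v
    have := congrArg (fun P => P v) key
    simpa using this
  by_cases hroot : ∃ t : F, t ^ 2 + t + φ ζ = 0
  · obtain ⟨t, ht⟩ := hroot
    have ht' : t ^ 2 + 1 * t + φ ζ = 0 := by rw [one_mul]; exact ht
    have hσt : t ≠ σ t := by
      intro h5
      obtain ⟨t₀, rfl⟩ := hφ t h5.symm
      apply hζ t₀
      apply φ.injective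
      simpa using ht
    have hk : m - 1 + 1 = m := by omega
    obtain ⟨U, hU, hp⟩ := par_of_model (Q := hypQF m F) x σ hb (bcEquiv φ e) (fun v => bcEquiv_sm φ e hφ' v) hR (UM (m - 1) t) (UM_maxTS ht').ts (by
      rw [finrank_UM, hk]
      simp
      ring)
    refine ⟨U, hU, ?_⟩
    rw [hp, smap_UM, finrank_UM_inf hσt, finrank_UM]
    omega
  · exfalso
    push Not at hroot
    have hani := anisotropic_of_zeta (ζ := φ ζ) hroot
    set W₁ : Submodule F (Fin m ⊕ Fin m → F) := imgOf x⁻¹ (U0 m F) with hW₁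
    have hw1 : finrank F W₁ = m := by
      rw [hW₁, finrank_imgOf, finrank_U0]
    have h1 := finrank_le_of_minus_singular hani (W₁.map (bcEquiv φ e).toLinearMap) (by
      rintro _ ⟨w, hw, rfl⟩
      obtain ⟨u, hu, rfl⟩ := mem_imgOf.1 hw
      have h3 := hR (((x⁻¹ : GL _ F) : Matrix _ _ F) *ᵥ u)
      rw [gl_mul_inv, (hyp_U0 m).ts u hu, mul_zero] at h3
      exact h3.symm)
    rw [show finrank F (W₁.map (bcEquiv φ e).toLinearMap) = finrank F W₁ from LinearEquiv.finrank_map_eq (bcEquiv φ e) W₁, hw1] at h1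
    omega

/-- The type of the descended form. -/
theorem type_of_KP (hm : 3 ≤ m) (φ : K →+* F) {σ : F ≃+* F} (hφ' : ∀ b, σ (φ b) = φ b) (hφ : ∀ a, σ a = a → ∃ b, φ b = a) {q₀ : QuadraticForm K (Fin m ⊕ Fin m → K)} (hnd : NondegQ q₀)
    {x : GL (Fin m ⊕ Fin m) F} {b : F} (hb : b ≠ 0) (hq : ∀ v, φ (q₀ v) = b⁻¹ * hypQF m F ((x : Matrix _ _ F) *ᵥ bc φ v))
    (hs : x * (glMap σ x)⁻¹ ∈ Sim (hypQF m F)) (hK : KP (hypQF m F) (x * (glMap σ x)⁻¹)) :
    ∃ e : (Fin m ⊕ Fin m → K) ≃ₗ[K] (Fin m ⊕ Fin m → K), ∀ v, q₀ v = Cfsg.quadFormPlus m K (e v) := by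
  have hfr : finrank K (Fin m ⊕ Fin m → K) = 2 * m := by
    simp
    ring
  rcases exists_type_gen (m := m) (by omega) hfr q₀ hnd with h | ⟨ζ, hζ, e, he⟩
  · exact h
  · exfalso
    obtain ⟨U, hU, hp⟩ := par_of_minus (by omega) φ hφ' hφ hb hq hζ e he
    have := (parS_KP hm hU hs σ).2 hK
    omega

theorem type_of_not_KP (hm : 3 ≤ m) (φ : K →+* F) {σ : F ≃+* F} (hφ' : ∀ b, σ (φ b) = φ b) {q₀ : QuadraticForm K (Fin m ⊕ Fin m → K)} (hnd : NondegQ q₀)
    {x : GL (Fin m ⊕ Fin m) F} {b : F} (hb : b ≠ 0) (hq : ∀ v, φ (q₀ v) = b⁻¹ * hypQF m F ((x : Matrix _ _ F) *ᵥ bc φ v))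
    (hs : x * (glMap σ x)⁻¹ ∈ Sim (hypQF m F)) (hK : ¬ KP (hypQF m F) (x * (glMap σ x)⁻¹)) :
    ∃ (ζ : K) (_ : ∀ t : K, t ^ 2 + t + ζ ≠ 0) (e : (Fin m ⊕ Fin m → K) ≃ₗ[K] ((Fin (m - 1) ⊕ Fin (m - 1)) ⊕ Fin 2 → K)), ∀ v, q₀ v = Cfsg.quadFormMinus (m - 1) K 1 ζ (e v) := by
  have hfr : finrank K (Fin m ⊕ Fin m → K) = 2 * m := by
    simp
    ring
  rcases exists_type_gen (m := m) (by omega) hfr q₀ hnd with ⟨e, he⟩ | h
  · exfalso
    obtain ⟨U, hU, hp⟩ := par_of_plus φ hφ' hb hq e he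
    exact hK ((parS_KP hm hU hs σ).1 hp)
  · exact h

end plusType

end Cfsg.Agent.Lib.AutPOm
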