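import Cfsg.Agent.Lib.AutPOm.MinusField

/-! The parity of semilinear similarities on maximal totally singular subspaces. -/

set_option autoImplicit false
set_option linter.unusedSimpArgs false
set_option linter.unusedVariables false
set_option linter.unusedSectionVars false

namespace Cfsg.Agent.Lib.AutPOm

open Matrix Module MulAction Cfsg.Agent.Lib.Classical
open Cfsg.Agent.Lib.AutPSL (sm sm_apply sm_add sm_smul sm_symm_sm sm_sm_symm glMap glMap_coe semi_vec_ne_zero map_mulVec_sm nrm nrmF nrmF_succ nrm_succ' exists_gl_of_nrm_one exists_nrmF_eq exists_of_nrmF_one nrm_scalar_mul nrmF_inv nrmF_zero coe_scalar_mul slinear glMap_one orderOf_conj' card_gal centConj split_conj galEquiv)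
open Cfsg.Agent.Lib.ClassMax.OmegaCore (IsMaxTS imgOf mem_imgOf finrank_imgOf imgOf_mul imgOf_one imgOf_inf par_triple mem_iso_iff)
open Cfsg.Agent.Lib.Spinor (ndf)
open Cfsg.Agent.Lib.Quad (NondegQ minusQF minusQF_apply)
open scoped LinearAlgebra.Projectivization MatrixGroups

section frob

variable {L : Type*} [Field L]

/-- Automorphisms of finite fields are powers of the Frobenius. -/
theorem exists_pow_form [Fintype L] (p : ℕ) [Fact p.Prime] [CharP L p] (σ : L ≃+* L) : ∃ n : ℕ, ∀ x, σ x = x ^ (p ^ n) := by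
  let _ := ZMod.algebra L p
  obtain ⟨n, hn⟩ := (FiniteField.bijective_frobeniusAlgEquivOfAlgebraic_pow (ZMod p) L).2 (galEquiv p σ)
  refine ⟨n.1, fun x => ?_⟩
  have h := congrArg (fun τ : L ≃ₐ[ZMod p] L => τ x) hn
  have h1 : (FiniteField.frobeniusAlgEquivOfAlgebraic (ZMod p) L ^ n.1) x = (⇑(FiniteField.frobeniusAlgEquivOfAlgebraic (ZMod p) L))^[n.1] x := by
    rw [AlgEquiv.coe_pow]
  simp only at h
  rw [h1, FiniteField.coe_frobeniusAlgEquivOfAlgebraic_iterate, ZMod.card] at h
  exact h.symm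

/-- The powers of the Frobenius as automorphisms. -/
noncomputable def powEquiv (L : Type*) [Field L] [Finite L] (p : ℕ) [Fact p.Prime] [CharP L p] (n : ℕ) : L ≃+* L :=
  have : ExpChar L p := ExpChar.prime Fact.out
  RingEquiv.ofBijective (iterateFrobenius L p n) (Finite.injective_iff_bijective.1 (RingHom.injective _))

theorem powEquiv_apply [Finite L] (p : ℕ) [Fact p.Prime] [CharP L p] (n : ℕ) (x : L) : powEquiv L p n x = x ^ (p ^ n) := by
  have : ExpChar L p := ExpChar.prime Fact.out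
  show iterateFrobenius L p n x = _
  rw [iterateFrobenius_def]

end frob

variable {K : Type*} [Field K] {ι : Type} [Fintype ι] [DecidableEq ι] {Q₁ : QuadraticForm K (ι → K)}

local notation "VV" => (ι → K)
local notation "MM" => Matrix ι ι K
local notation "GG" => GL ι K

/-- The semilinear image of a subspace. -/
def smap (τ : K ≃+* K) (X : Submodule K (ι → K)) : Submodule K (ι → K) where
  carrier := {v | sm τ.symm v ∈ X}
  add_mem' := by
    intro u v hu hv
    show sm τ.symm (u + v) ∈ X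
    rw [sm_add]
    exact X.add_mem hu hv
  zero_mem' := by
    show sm τ.symm 0 ∈ X
    have : sm τ.symm (0 : ι → K) = 0 := by
      funext i
      simp
    rw [this]
    exact X.zero_mem
  smul_mem' := by
    intro c v hv
    show sm τ.symm (c • v) ∈ X
    rw [sm_smul]
    exact X.smul_mem _ hv

theorem mem_smap {τ : K ≃+* K} {X : Submodule K VV} {v : VV} : v ∈ smap τ X ↔ sm τ.symm v ∈ X := Iff.rfl

theorem sm_mem_smap {τ : K ≃+* K} {X : Submodule K VV} {x : VV} : sm τ x ∈ smap τ X ↔ x ∈ X := by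
  rw [mem_smap, sm_symm_sm]

theorem finrank_smap [Fintype K] (τ : K ≃+* K) (X : Submodule K VV) : finrank K (smap τ X) = finrank K X := by
  classical
  let e : X ≃ smap τ X :=
    { toFun := fun x => ⟨sm τ x.1, sm_mem_smap.2 x.2⟩
      invFun := fun y => ⟨sm τ.symm y.1, y.2⟩
      left_inv := fun x => Subtype.ext (sm_symm_sm τ x.1)
      right_inv := fun y => Subtype.ext (sm_sm_symm τ y.1) }
  have h1 : Nat.card X = Nat.card (smap τ X) := Nat.card_congr e
  have h2 : Nat.card X = Fintype.card K ^ finrank K X := by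
    rw [Nat.card_eq_fintype_card]
    exact Module.card_eq_pow_finrank
  have h3 : Nat.card (smap τ X) = Fintype.card K ^ finrank K (smap τ X) := by
    rw [Nat.card_eq_fintype_card]
    exact Module.card_eq_pow_finrank
  rw [h2, h3] at h1
  exact (Nat.pow_right_injective Fintype.one_lt_card h1).symm

theorem smap_inf (τ : K ≃+* K) (X Y : Submodule K VV) : smap τ (X ⊓ Y) = smap τ X ⊓ smap τ Y := rfl

theorem smap_refl (X : Submodule K VV) : smap (RingEquiv.refl K) X = X := rfl

/-- The image under a semilinear map. -/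
def imgS (M : GG) (τ : K ≃+* K) (X : Submodule K VV) : Submodule K VV := imgOf M (smap τ X)

theorem mem_imgS {M : GG} {τ : K ≃+* K} {X : Submodule K VV} {v : VV} : v ∈ imgS M τ X ↔ ∃ x ∈ X, (M : MM) *ᵥ sm τ x = v := by
  unfold imgS
  rw [mem_imgOf]
  constructor
  · rintro ⟨y, hy, rfl⟩
    refine ⟨sm τ.symm y, hy, ?_⟩
    rw [sm_sm_symm]
  · rintro ⟨x, hx, rfl⟩
    exact ⟨sm τ x, sm_mem_smap.2 hx, rfl⟩

theorem finrank_imgS [Fintype K] (M : GG) (τ : K ≃+* K) (X : Submodule K VV) : finrank K (imgS M τ X) = finrank K X := by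
  unfold imgS
  rw [finrank_imgOf, finrank_smap]

theorem imgS_inf (M : GG) (τ : K ≃+* K) (X Y : Submodule K VV) : imgS M τ (X ⊓ Y) = imgS M τ X ⊓ imgS M τ Y := by
  unfold imgS
  rw [smap_inf, imgOf_inf]

theorem imgS_refl (M : GG) (X : Submodule K VV) : imgS M (RingEquiv.refl K) X = imgOf M X := rfl

theorem imgS_comp (M N : GG) (τ τ' : K ≃+* K) (X : Submodule K VV) :
    imgS (M * glMap τ N) (τ'.trans τ) X = imgS M τ (imgS N τ' X) := by
  ext v
  rw [mem_imgS, mem_imgS]
  have e : ∀ x : VV, ((M * glMap τ N : GG) : MM) *ᵥ sm (τ'.trans τ) x = (M : MM) *ᵥ sm τ ((N : MM) *ᵥ sm τ' x) := by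
    intro x
    have e1 : sm (τ'.trans τ) x = sm τ (sm τ' x) := rfl
    rw [Units.val_mul, ← Matrix.mulVec_mulVec, e1, glMap_coe, map_mulVec_sm]
  constructor
  · rintro ⟨x, hx, rfl⟩
    exact ⟨_, mem_imgS.2 ⟨x, hx, rfl⟩, (e x).symm⟩
  · rintro ⟨y, hy, rfl⟩
    obtain ⟨x, hx, rfl⟩ := mem_imgS.1 hy
    exact ⟨x, hx, e x⟩

theorem imgS_smul {M M' : GG} {τ : K ≃+* K} {c : K} (hc : c ≠ 0) (h : (M' : MM) = c • (M : MM)) (X : Submodule K VV) :
    imgS M' τ X = imgS M τ X := by
  ext v
  rw [mem_imgS, mem_imgS]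
  constructor
  · rintro ⟨x, hx, rfl⟩
    refine ⟨τ.symm c • x, X.smul_mem _ hx, ?_⟩
    rw [h, sm_smul, Matrix.smul_mulVec]
    simp [Matrix.mulVec_smul]
  · rintro ⟨x, hx, rfl⟩
    refine ⟨τ.symm c⁻¹ • x, X.smul_mem _ hx, ?_⟩
    rw [h, sm_smul, Matrix.smul_mulVec, Matrix.mulVec_smul, smul_smul]
    simp [hc]

theorem imgS_isMaxTS [Fintype K] {X : Submodule K VV} (hX : IsMaxTS (⇑Q₁) X) {M : GG} {τ : K ≃+* K} (hs : Cfsg.IsSemisimilarityPair (⇑Q₁) M τ) :
    IsMaxTS (⇑Q₁) (imgS M τ X) := by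
  obtain ⟨c, hc⟩ := semi_Q hs
  refine ⟨fun v hv => ?_, by rw [finrank_imgS]; exact hX.half⟩
  obtain ⟨x, hx, rfl⟩ := mem_imgS.1 hv
  rw [hc, hX.ts x hx, map_zero, mul_zero]

/-- The parity number of a semilinear similarity. -/
noncomputable def parS (U : Submodule K VV) (M : GG) (τ : K ≃+* K) : ℕ := finrank K (U ⊓ imgS M τ U : Submodule K VV) + finrank K U

theorem parS_refl (U : Submodule K VV) (M : GG) : parS U M (RingEquiv.refl K) = parV U M := rfl

theorem parS_smul {U : Submodule K VV} {M M' : GG} {τ : K ≃+* K} {c : K} (hc : c ≠ 0) (h : (M' : MM) = c • (M : MM)) :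
    parS U M' τ = parS U M τ := by
  unfold parS
  rw [imgS_smul hc h]

section nondeg

variable [Fintype K] (hnd : (QuadraticMap.polarBilin Q₁).Nondegenerate)
include hnd

theorem parS_mul {U : Submodule K VV} (hU : IsMaxTS (⇑Q₁) U) {M N : GG} {τ τ' : K ≃+* K} (hM : Cfsg.IsSemisimilarityPair (⇑Q₁) M τ)
    (hN : Cfsg.IsSemisimilarityPair (⇑Q₁) N τ') :
    parS U (M * glMap τ N) (τ'.trans τ) % 2 = (parS U M τ + parS U N τ') % 2 := by
  have hA := imgS_isMaxTS hU hM
  have hAB := imgS_isMaxTS hU (semi_mul_mem hM hN)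
  have h1 := par_triple (ndf hnd) hU hA hAB
  have h2 : imgS M τ U ⊓ imgS (M * glMap τ N) (τ'.trans τ) U = imgS M τ (U ⊓ imgS N τ' U) := by
    rw [imgS_comp, imgS_inf]
  rw [h2, finrank_imgS, finrank_imgS] at h1
  unfold parS
  omega

end nondeg

/-- The twist of a quadratic form by a field automorphism. -/
noncomputable def twistQ (Q₁ : QuadraticForm K (ι → K)) (τ : K ≃+* K) : QuadraticForm K (ι → K) where
  toFun v := τ.symm (Q₁ (sm τ v))
  toFun_smul c v := by
    rw [sm_smul, QuadraticMap.map_smul]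
    simp
  exists_companion' := ⟨LinearMap.mk₂ K (fun x y => τ.symm (QuadraticMap.polar Q₁ (sm τ x) (sm τ y)))
    (fun a b c => by
      rw [sm_add, QuadraticMap.polar_add_left, map_add])
    (fun c a b => by
      rw [sm_smul, QuadraticMap.polar_smul_left]
      simp)
    (fun a b c => by
      rw [sm_add, QuadraticMap.polar_add_right, map_add])
    (fun c a b => by
      rw [sm_smul, QuadraticMap.polar_smul_right]
      simp),
    fun x y => by
      simp only [LinearMap.mk₂_apply]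
      rw [sm_add, ← map_add, ← map_add]
      congr 1
      rw [QuadraticMap.polar]
      ring⟩

theorem twistQ_apply (τ : K ≃+* K) (v : VV) : twistQ Q₁ τ v = τ.symm (Q₁ (sm τ v)) := rfl

/-- A semilinear similarity over a subfield extends to the big field. -/
theorem semi_ext {F : Type*} [Field F] {Q : QuadraticForm F (ι → F)} (φ : F →+* K) (hQ₁ : ∀ v, φ (Q v) = Q₁ (bc φ v)) {M : GL ι F} {σ : F ≃+* F}
    (hs : Cfsg.IsSemisimilarityPair (⇑Q) M σ) {τ : K ≃+* K} (hτ : ∀ x, τ (φ x) = φ (σ x)) :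
    Cfsg.IsSemisimilarityPair (⇑Q₁) (Matrix.GeneralLinearGroup.map φ M) τ := by
  obtain ⟨c, hc⟩ := semi_Q hs
  refine mk_semi (c := Units.map (φ : F →* K) c) (fun v => ?_)
  set MK : GG := Matrix.GeneralLinearGroup.map φ M with hMK
  set M' : GG := glMap τ.symm MK with hM'
  have hsm : ∀ u : VV, sm τ ((M' : MM) *ᵥ u) = (MK : MM) *ᵥ sm τ u := by
    intro u
    rw [← map_mulVec_sm, hM', glMap_coe]
    congr 1
    ext i j
    simp
  have hbc : ∀ w : ι → F, sm τ (bc φ w) = bc φ (sm σ w) := by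
    intro w
    funext i
    exact hτ _
  have key : (twistQ Q₁ τ).comp (Matrix.mulVecLin (M' : MM)) = τ.symm (φ c) • Q₁ := by
    apply quad_eq_of_bc φ
    intro w
    simp only [QuadraticMap.comp_apply, Matrix.mulVecLin_apply, _root_.smul_apply, smul_eq_mul]
    rw [twistQ_apply, hsm, hbc, hMK, gl_map_bc, ← hQ₁, hc, map_mul, ← hQ₁, map_mul, ← hτ, RingEquiv.symm_apply_apply]
  have h1 := congrArg (fun P => P v) key
  simp only [QuadraticMap.comp_apply, Matrix.mulVecLin_apply, _root_.smul_apply, smul_eq_mul] at h1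
  rw [twistQ_apply, hsm] at h1
  have h2 := congrArg τ h1
  rw [RingEquiv.apply_symm_apply, map_mul, RingEquiv.apply_symm_apply] at h2
  exact h2

end Cfsg.Agent.Lib.AutPOm
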