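import Cfsg.Agent.Lib.Classical.Dihedral

/-! Recognising the small quotients: cyclic and Klein groups of order four and the dihedral group of order eight. -/

set_option autoImplicit false
set_option linter.unusedSimpArgs false
set_option linter.unusedVariables false
set_option linter.unusedSectionVars false

namespace Cfsg.Agent.Lib.AutPOm

open Module

theorem hom_of_quot_equiv {P T : Type*} [Group P] [Group T] (N : Subgroup P) [N.Normal] (e : P ⧸ N ≃* T) :
    ∃ φ : P →* T, Function.Surjective φ ∧ φ.ker = N := by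
  refine ⟨e.toMonoidHom.comp (QuotientGroup.mk' N), e.surjective.comp (QuotientGroup.mk'_surjective N), ?_⟩
  ext x
  simp [MonoidHom.mem_ker, QuotientGroup.eq_one_iff]

theorem card_quot_of_index {P : Type*} [Group P] {N : Subgroup P} [N.Normal] {k : ℕ} (hN : N.index = k) : Nat.card (P ⧸ N) = k := hN

theorem finite_quot_of_index {P : Type*} [Group P] {N : Subgroup P} {k : ℕ} (hN : N.index = k) (hk : k ≠ 0) : Finite (P ⧸ N) := by
  have : N.FiniteIndex := ⟨by rw [hN]; exact hk⟩
  infer_instance

/-- A subgroup of index two is the kernel of a map onto the group of order two. -/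
theorem hom_c2 {P : Type*} [Group P] (N : Subgroup P) (hN : N.index = 2) :
    ∃ φ : P →* Multiplicative (ZMod 2), Function.Surjective φ ∧ φ.ker = N := by
  have : N.Normal := Subgroup.normal_of_index_eq_two hN
  have : Fact (Nat.Prime 2) := ⟨Nat.prime_two⟩
  have h1 : Nat.card (P ⧸ N) = 2 := hN
  have h2 : Nat.card (Multiplicative (ZMod 2)) = 2 := by
    rw [Nat.card_congr Multiplicative.toAdd, Nat.card_zmod]
  exact hom_of_quot_equiv N (mulEquivOfPrimeCardEq h1 h2)

/-- A normal subgroup of index four, with a square outside. -/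
theorem hom_c4 {P : Type*} [Group P] (N : Subgroup P) [N.Normal] (hN : N.index = 4) {y : P} (hy : y * y ∉ N) :
    ∃ φ : P →* Multiplicative (ZMod 4), Function.Surjective φ ∧ φ.ker = N := by
  have h1 : Nat.card (P ⧸ N) = 4 := hN
  have hf : Finite (P ⧸ N) := finite_quot_of_index hN (by norm_num)
  set z : P ⧸ N := (y : P ⧸ N) with hz
  have h3 : z ^ 2 ≠ 1 := by
    intro h
    apply hy
    rw [← QuotientGroup.eq_one_iff]
    rw [pow_two] at h
    exact h
  have h4 : z ^ 4 = 1 := by
    rw [← h1]
    exact pow_card_eq_one'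
  have h5 : orderOf z = 2 ^ (1 + 1) := orderOf_eq_prime_pow (p := 2) (n := 1) (by simpa using h3) (by simpa using h4)
  have hcyc : IsCyclic (P ⧸ N) := isCyclic_of_orderOf_eq_card z (by rw [h5, h1]; rfl)
  have h2 : Nat.card (Multiplicative (ZMod 4)) = 4 := by
    rw [Nat.card_congr Multiplicative.toAdd, Nat.card_zmod]
  exact hom_of_quot_equiv N (mulEquivOfCyclicCardEq (h1.trans h2.symm))

/-- A group of order four and exponent two. -/
theorem v4_equiv {G : Type*} [Group G] (hc : Nat.card G = 4) (h2 : ∀ x : G, x * x = 1) :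
    Nonempty (G ≃* Multiplicative (ZMod 2 × ZMod 2)) := by
  have hfin : Finite G := Nat.finite_of_card_ne_zero (by rw [hc]; norm_num)
  have hcomm : ∀ a b : G, a * b = b * a := by
    intro a b
    have h3 : a⁻¹ = a := inv_eq_of_mul_eq_one_left (h2 a)
    have h4 : b⁻¹ = b := inv_eq_of_mul_eq_one_left (h2 b)
    have h5 : (a * b)⁻¹ = a * b := inv_eq_of_mul_eq_one_left (h2 _)
    rw [mul_inv_rev, h3, h4] at h5
    exact h5.symm
  letI : CommGroup G := { (inferInstance : Group G) with mul_comm := hcomm }
  letI : Module (ZMod 2) (Additive G) := AddCommGroup.zmodModule (fun x => by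
    rw [two_nsmul]
    exact h2 (Additive.toMul x))
  have hfin2 : Module.Finite (ZMod 2) (Additive G) := Module.Finite.of_finite
  have hf : finrank (ZMod 2) (Additive G) = 2 := by
    have h3 := Module.natCard_eq_pow_finrank (K := ZMod 2) (V := Additive G)
    rw [Nat.card_zmod, Nat.card_congr Additive.toMul, hc] at h3
    have h4 : 2 ^ 2 = 2 ^ finrank (ZMod 2) (Additive G) := by simpa using h3
    exact (Nat.pow_right_injective (le_refl 2) h4).symm
  have hf2 : finrank (ZMod 2) (ZMod 2 × ZMod 2) = 2 := by simp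
  let e : Additive G ≃ₗ[ZMod 2] (ZMod 2 × ZMod 2) := LinearEquiv.ofFinrankEq _ _ (by rw [hf, hf2])
  exact ⟨AddEquiv.toMultiplicativeRight e.toAddEquiv⟩

/-- A normal subgroup of index four, with all squares inside. -/
theorem hom_v4 {P : Type*} [Group P] (N : Subgroup P) [N.Normal] (hN : N.index = 4) (h : ∀ x : P, x * x ∈ N) :
    ∃ φ : P →* Multiplicative (ZMod 2 × ZMod 2), Function.Surjective φ ∧ φ.ker = N := by
  obtain ⟨e⟩ := v4_equiv (G := P ⧸ N) hN (fun x => by
    obtain ⟨y, rfl⟩ := QuotientGroup.mk'_surjective N x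
    exact (QuotientGroup.eq_one_iff _).2 (h y))
  exact hom_of_quot_equiv N e

/-- Squares modulo a normal subgroup of index four. -/
theorem squares_of_index_four {P : Type*} [Group P] (N K : Subgroup P) [N.Normal] (hN : N.index = 4) (hNK : N ≤ K) (hK : K.index = 2)
    (hsq : ∀ x ∈ K, x * x ∈ N) {y : P} (hy : y ∉ K) (hyy : y * y ∈ N) (x : P) : x * x ∈ N := by
  by_cases hx : x ∈ K
  · exact hsq x hx
  have h1 : y⁻¹ * x ∈ K := by
    rw [Subgroup.mul_mem_iff_of_index_two hK]
    constructor
    · intro h
      exact absurd (by simpa using K.inv_mem h) hy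
    · intro h
      exact absurd h hx
  have : Fact (Nat.Prime 2) := ⟨Nat.prime_two⟩
  have hc := (IsPGroup.isMulCommutative_of_card_eq_prime_sq (p := 2) (G := P ⧸ N) (by
    show N.index = 2 ^ 2
    rw [hN]
    norm_num)).is_comm.comm
  set k := y⁻¹ * x with hk
  have hxe : x = y * k := by rw [hk]; group
  rw [← QuotientGroup.eq_one_iff]
  have e1 : ((x * x : P) : P ⧸ N) = ((y * y : P) : P ⧸ N) * ((k * k : P) : P ⧸ N) := by
    rw [hxe]
    simp only [QuotientGroup.mk_mul]
    have := hc (k : P ⧸ N) (y : P ⧸ N)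
    calc (y : P ⧸ N) * k * (y * k) = y * (k * y) * k := by group
      _ = y * (y * k) * k := by rw [this]
      _ = _ := by group
  rw [e1, (QuotientGroup.eq_one_iff _).2 hyy, (QuotientGroup.eq_one_iff _).2 (hsq k h1), one_mul]

/-- The dihedral group of order eight. -/
theorem d8_equiv {G : Type*} [Group G] [Finite G] (hc : Nat.card G = 8) (V : Subgroup G) (hV : V.index = 2) (hexp : ∀ x ∈ V, x * x = 1)
    (hna : ∃ x y : G, x * y ≠ y * x) : Nonempty (G ≃* DihedralGroup 4) := by
  classical
  -- an element of order four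
  obtain ⟨y, hyV, hy⟩ : ∃ y, y ∉ V ∧ y * y ≠ 1 := by
    by_contra hcon
    push Not at hcon
    have hall : ∀ x : G, x * x = 1 := by
      intro x
      by_cases hx : x ∈ V
      · exact hexp x hx
      · exact hcon x hx
    obtain ⟨a, b, hab⟩ := hna
    apply hab
    have h1 := hall (a * b)
    have h2 : a⁻¹ = a := inv_eq_of_mul_eq_one_left (hall a)
    have h3 : b⁻¹ = b := inv_eq_of_mul_eq_one_left (hall b)
    have h4 : (a * b)⁻¹ = a * b := inv_eq_of_mul_eq_one_left h1
    rw [mul_inv_rev, h2, h3] at h4
    exact h4.symm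
  have hyy : y * y ∈ V := Subgroup.mul_self_mem_of_index_two hV y
  have hy4 : y ^ 4 = 1 := by
    have := hexp _ hyy
    calc y ^ 4 = y * y * (y * y) := by simp only [pow_succ, pow_zero, one_mul, mul_assoc]
      _ = 1 := this
  have hord : orderOf y = 2 ^ (1 + 1) := orderOf_eq_prime_pow (p := 2) (n := 1) (by
    simpa [pow_two] using hy) (by simpa using hy4)
  have hord' : orderOf y = 4 := hord
  set A := Subgroup.zpowers y with hA
  have hAc : Nat.card A = 4 := by rw [hA, Nat.card_zpowers, hord']
  have hAi : A.index = 2 := by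
    have := Subgroup.card_mul_index A
    rw [hAc, hc] at this
    omega
  have hVc : Nat.card V = 4 := by
    have := Subgroup.card_mul_index V
    rw [hV, hc] at this
    omega
  -- an involution outside
  obtain ⟨s, hsV, hsA⟩ : ∃ s, s ∈ V ∧ s ∉ A := by
    by_contra hcon
    push Not at hcon
    have hle : V ≤ A := hcon
    have heq : V = A := Subgroup.eq_of_le_of_card_ge hle (by rw [hVc, hAc])
    apply hyV
    rw [heq]
    exact Subgroup.mem_zpowers y
  have hss : s * s = 1 := hexp s hsV
  have hsi : s⁻¹ = s := inv_eq_of_mul_eq_one_left hss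
  have hAn : A.Normal := Subgroup.normal_of_index_eq_two hAi
  -- every element
  have hdec : ∀ x : G, x ∈ A ∨ s * x ∈ A := by
    intro x
    by_cases hx : x ∈ A
    · exact Or.inl hx
    · right
      rw [Subgroup.mul_mem_iff_of_index_two hAi]
      exact ⟨fun h => absurd h hsA, fun h => absurd h hx⟩
  -- the action
  have hz : s * y * s ∈ A := by
    have := hAn.conj_mem y (Subgroup.mem_zpowers y) s
    rwa [hsi] at this
  obtain ⟨k, hk⟩ := Subgroup.mem_zpowers_iff.1 hz
  have hzz : (s * y * s) * (s * y * s) = s * (y * y) * s := by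
    calc (s * y * s) * (s * y * s) = s * y * (s * s) * y * s := by group
      _ = _ := by rw [hss]; group
  have hcases : s * y * s = y ∨ s * y * s = y⁻¹ := by
    have hk4 : (k % 4) = 0 ∨ (k % 4) = 1 ∨ (k % 4) = 2 ∨ (k % 4) = 3 := by omega
    have hmod : y ^ k = y ^ (k % 4) := by
      conv_lhs => rw [← Int.mul_ediv_add_emod k 4, zpow_add, zpow_mul]
      have : y ^ (4 : ℤ) = 1 := by exact_mod_cast hy4
      rw [this, one_zpow, one_mul]
    rcases hk4 with h0 | h1 | h2 | h3
    · exfalso
      rw [hmod, h0, zpow_zero] at hk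
      have h5 : y = 1 := by
        have : s * (s * y * s) * s = y := by
          calc s * (s * y * s) * s = (s * s) * y * (s * s) := by group
            _ = y := by rw [hss]; group
        rw [← hk] at this
        rw [← this]
        simp [hss]
      apply hy
      rw [h5, one_mul]
    · left
      rw [hmod, h1, zpow_one] at hk
      exact hk.symm
    · exfalso
      rw [hmod, h2] at hk
      have h5 : (y ^ (2 : ℤ)) * (y ^ (2 : ℤ)) = 1 := by
        have : y ^ (2 : ℤ) * y ^ (2 : ℤ) = y ^ 4 := by
          rw [← zpow_add]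
          exact_mod_cast rfl
        rw [this, hy4]
      rw [hk, hzz] at h5
      apply hy
      have : s * (s * (y * y) * s) * s = y * y := by
        calc s * (s * (y * y) * s) * s = (s * s) * (y * y) * (s * s) := by group
          _ = y * y := by rw [hss]; group
      rw [← this, h5]
      simp [hss]
    · right
      rw [hmod, h3] at hk
      rw [← hk]
      rw [eq_inv_iff_mul_eq_one, ← zpow_add_one]
      have : ((3 : ℤ) + 1) = 4 := by norm_num
      rw [this]
      exact_mod_cast hy4
  rcases hcases with hcomm | hinv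
  · -- commutative: impossible
    exfalso
    obtain ⟨a, b, hab⟩ := hna
    have hsy : s * y = y * s := by
      have : s * y * s * s = y * s := by rw [hcomm]
      rwa [mul_assoc, hss, mul_one] at this
    have hsz : ∀ k : ℤ, s * y ^ k = y ^ k * s := fun k => ((Commute.zpow_right (show Commute s y from hsy) k)).eq
    have hAcomm : ∀ u ∈ A, s * u = u * s := by
      intro u hu
      obtain ⟨k, rfl⟩ := Subgroup.mem_zpowers_iff.1 hu
      exact hsz k
    have hAA : ∀ u ∈ A, ∀ v ∈ A, u * v = v * u := by
      intro u hu v hv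
      obtain ⟨k, rfl⟩ := Subgroup.mem_zpowers_iff.1 hu
      obtain ⟨l, rfl⟩ := Subgroup.mem_zpowers_iff.1 hv
      rw [← zpow_add, ← zpow_add, add_comm]
    apply hab
    have hdec' : ∀ x : G, x ∈ A ∨ ∃ u ∈ A, x = s * u := by
      intro x
      rcases hdec x with h | h
      · exact Or.inl h
      · refine Or.inr ⟨_, h, ?_⟩
        rw [← mul_assoc, hss, one_mul]
    rcases hdec' a with ha | ⟨u, hu, rfl⟩ <;> rcases hdec' b with hb | ⟨v, hv, rfl⟩
    · exact hAA _ ha _ hb
    · rw [← mul_assoc, ← hAcomm a ha, mul_assoc, hAA a ha v hv, mul_assoc]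
    · rw [mul_assoc, hAA u hu b hb, ← mul_assoc, hAcomm b hb, mul_assoc]
    · have key : ∀ u ∈ A, ∀ v ∈ A, s * u * (s * v) = u * v := by
        intro u hu v hv
        calc s * u * (s * v) = s * (u * s) * v := by group
          _ = s * (s * u) * v := by rw [hAcomm u hu]
          _ = (s * s) * u * v := by group
          _ = u * v := by rw [hss, one_mul]
      rw [key u hu v hv, key v hv u hu, hAA u hu v hv]
  · -- dihedral
    have hcyc : IsCyclic A := inferInstance
    letI : CommGroup A := IsCyclic.commGroup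
    have hfa : Finite A := inferInstance
    refine Cfsg.Agent.Lib.Classical.dihedral_of_hom (A := A) (n := 4) hAc A.subtype Subtype.val_injective s hss ?_ ?_ ?_
    · rintro ⟨a, ha⟩
      obtain ⟨k, rfl⟩ := Subgroup.mem_zpowers_iff.1 ha
      show s * y ^ k * s = (y ^ k)⁻¹
      have h3 : s * y ^ k * s = (s * y * s⁻¹) ^ k := by
        rw [conj_zpow, hsi]
      rw [h3, hsi, hinv, inv_zpow]
    · rintro ⟨a, ha⟩ h
      apply hsA
      rw [h]
      exact ha
    · intro x
      rcases hdec x with h | h
      · exact Or.inl ⟨⟨x, h⟩, rfl⟩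
      · refine Or.inr ⟨⟨s * x, h⟩, ?_⟩
        show x = s * (s * x)
        rw [← mul_assoc, hss, one_mul]

/-- Dihedral quotients. -/
theorem hom_d8 {P : Type*} [Group P] (N : Subgroup P) [N.Normal] (hN : N.index = 8) (V : Subgroup P) (hNV : N ≤ V) (hV : V.index = 2)
    (hexp : ∀ x ∈ V, x * x ∈ N) (hna : ∃ x y : P, x * y * x⁻¹ * y⁻¹ ∉ N) :
    ∃ φ : P →* DihedralGroup 4, Function.Surjective φ ∧ φ.ker = N := by
  have hf : Finite (P ⧸ N) := finite_quot_of_index hN (by norm_num)
  have h1 : Nat.card (P ⧸ N) = 8 := hN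
  obtain ⟨e⟩ := d8_equiv (G := P ⧸ N) h1 (V.map (QuotientGroup.mk' N)) (by
      rw [Subgroup.index_map, QuotientGroup.range_mk', Subgroup.index_top, mul_one]
      have : V ⊔ (QuotientGroup.mk' N).ker = V := by
        rw [QuotientGroup.ker_mk']
        exact sup_eq_left.2 hNV
      rw [this, hV]) (by
      rintro _ ⟨x, hx, rfl⟩
      have := hexp x hx
      exact (QuotientGroup.eq_one_iff _).2 this) (by
      obtain ⟨x, y, hxy⟩ := hna
      refine ⟨(x : P ⧸ N), (y : P ⧸ N), fun h => hxy ?_⟩
      rw [← QuotientGroup.eq_one_iff]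
      simp only [QuotientGroup.mk_mul, QuotientGroup.mk_inv]
      rw [h]
      group)
  exact hom_of_quot_equiv N e

end Cfsg.Agent.Lib.AutPOm
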